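import Cfsg.Agent.SPOR.T10.ApiO

/-!
The action of the stabiliser of the vector 1 on `E16`. `Ī` = codes with `v &&& 0xf88 = 0` (bits 0, 1, 2, 4, 5,
6) is `[z̄^⊥, ZB]`; `u ↦ (u + 1) 512` identifies `ZB` with `z̄^⊥ / Ī` (`z̄^⊥`: bit 9 zero), `eE n ↦ n4⁻¹ n`.
-/

set_option autoImplicit false
set_option maxRecDepth 100000

namespace CL.T10

open CL.K CL.CG CL.F2M CL.F24 CL.LX CL.MSS Subgroup Cfsg
open CL.J4P (Kv)
open ApiG (tZ sound_Z compl_Z tZ_eq top_all gen_mem gen_mono)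
open scoped Matrix

attribute [local irreducible] gcode vcode

variable {X : Subgroup GL12}

namespace Alf

/-- membership in a list -/
noncomputable def memB (x : ℕ) (L : List ℕ) : Bool := lany (fun y => Nat.beq x y) L

theorem memB_iff {x : ℕ} {L : List ℕ} : memB x L = true ↔ x ∈ L := by
  rw [memB, lany_iff]
  exact ⟨fun ⟨_, hy, e⟩ => eq_of_beq e ▸ hy, fun h => ⟨x, h, Nat.beq_refl x⟩⟩

/-- the list `P` contains the identity and is closed under the members of `L` -/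
noncomputable def clB (mul : ℕ → ℕ → ℕ) (one : ℕ) (L P : List ℕ) : Bool :=
  memB one P && lall (fun s => lall (fun x => force (mul s x) fun y => memB y P) P) L

theorem compl_of {G : Type*} [Group G] [Finite G] {φ : G → ℕ} {mul : ℕ → ℕ → ℕ} {one : ℕ}
    (C : IsCode φ mul one) {L P : List ℕ} (h : clB mul one L P = true) : ∀ g ∈ gen φ L, φ g ∈ P := by
  rw [clB, Bool.and_eq_true, memB_iff] at h
  refine gen_induction (Q := fun g => φ g ∈ P) (C.map_one ▸ h.1) fun j hj s e g hg => ?_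
  have := lall_iff.1 (lall_iff.1 h.2 _ (lget_mem hj)) _ hg
  rwa [force_eq, ← e, C.map_mul, memB_iff] at this

/-- the element of `L4(2)` with a given code -/
noncomputable abbrev E4 (c : ℕ) : GL4 := elt gcode c

theorem E12_code (g : GL12) : E12 (gcode g) = g := C12.elt_code g

theorem E4_code (g : GL4) : E4 (gcode g) = g := C4.elt_code g

theorem gcode_def {n : ℕ} (g : GL (Fin n) (ZMod 2)) : gcode g = mcode g.1 := by unfold gcode; rfl

theorem a4_lt (g v : ℕ) : a4 g v < 16 := by unfold a4; exact ok4.act_lt g v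

theorem a4_eq (g v : ℕ) : a4 g v = lc (fld 4 15 g) 4 v := by unfold a4; rw [act, force_eq]; rfl

theorem vdec_a4 (g v : ℕ) : vdec 4 (a4 g v) = mdec 4 g *ᵥ vdec 4 v := by unfold a4; exact ok4.vdec_act g v

theorem m4_lt (a b : ℕ) : m4 a b < 2 ^ (4 * 4) := by unfold m4; exact ok4.mulC_lt a b

theorem a4_m4 (a b v : ℕ) : a4 (m4 a b) v = a4 a (a4 b v) :=
  eq_of_vdec (n := 4) (a4_lt _ _) (a4_lt _ _) (by
    rw [vdec_a4, vdec_a4, vdec_a4, Matrix.mulVec_mulVec]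
    unfold m4
    rw [ok4.mdec_mulC])

theorem ext4 {c d : ℕ} (hc : c < 2 ^ (4 * 4)) (hd : d < 2 ^ (4 * 4)) (h : ∀ n < 16, a4 c n = a4 d n) : c = d :=
  eq_of_mdec hc hd (Matrix.ext_iff_mulVec.2 fun v => by
    rw [← vdec_vcode v, ← vdec_a4, ← vdec_a4, h _ (vcode_lt v)])

theorem mem4 {c : ℕ} (hc : c < 2 ^ (4 * 4)) (h : ∀ n < 16, a4 c n = 0 → n = 0) :
    Mem (gcode : GL4 → ℕ) ⊤ c := by
  have hu : IsUnit (mdec 4 c) := Matrix.mulVec_injective_iff_isUnit.1 (by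
    refine (injective_iff_map_eq_zero (Matrix.mulVecLin (mdec 4 c))).2 fun v hv => ?_
    have h2 : a4 c (vcode v) = 0 := eq_of_vdec (n := 4) (a4_lt _ _) (by norm_num) (by
      rw [vdec_a4, vdec_vcode, vdec_zero]; exact hv)
    exact vcode_injective ((h _ (vcode_lt v) h2).trans vcode_zero.symm))
  exact ⟨hu.unit, trivial, by rw [gcode_def]; exact mcode_mdec hc⟩

theorem top4 : ∀ c ∈ [0x8421, 0x9621, 0x8c31, 0xc423, 0x8469, 0x2481, 0x84a5], Mem (gcode : GL4 → ℕ) ⊤ c := by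
  have : lall (fun c => F2M.unitB 4 0x1111 15 c c) [0x8421, 0x9621, 0x8c31, 0xc423, 0x8469, 0x2481, 0x84a5] = true := by
    decide +kernel
  exact fun c hc => ok4.mem_of_unitB (lall_iff.1 this c hc)

theorem n4_lt (v : ℕ) : n4 v < 16 := by
  have h1 : Nat.land (Nat.shiftRight v 7) 3 ≤ 3 := Nat.and_le_right
  have h2 : Nat.land (Nat.shiftRight v 8) 12 ≤ 12 := Nat.and_le_right
  change _ + _ < 16
  omega

theorem n4_tab {v : ℕ} (hv : v < 4096) : n4 v = ((v >>> 7) &&& 3) ^^^ ((v >>> 8) &&& 12) ∧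
    n4 (v &&& 0xf88) = n4 v ∧ Bf 1 v = bit v 9 := by
  have : allLt2 (fun v => Nat.beq (n4 v) (Nat.xor (Nat.land (Nat.shiftRight v 7) 3) (Nat.land (Nat.shiftRight v 8) 12))
      && Nat.beq (n4 (Nat.land v 0xf88)) (n4 v) && Nat.beq (Bf 1 v) (bit v 9)) 64 64 = true := by decide +kernel
  have := allLt2_iff.1 this v hv
  simp only [Bool.and_eq_true] at this
  exact ⟨eq_of_beq this.1.1, eq_of_beq this.1.2, eq_of_beq this.2⟩

theorem xor_lt {a b : ℕ} (ha : a < 4096) (hb : b < 4096) : a ^^^ b < 4096 := Nat.xor_lt_two_pow (n := 12) ha hb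

theorem n4_xor {a b : ℕ} (ha : a < 4096) (hb : b < 4096) : n4 (a ^^^ b) = n4 a ^^^ n4 b := by
  rw [(n4_tab ha).1, (n4_tab hb).1, (n4_tab (xor_lt ha hb)).1, Nat.shiftRight_xor_distrib,
    Nat.shiftRight_xor_distrib, Nat.and_xor_distrib_right, Nat.and_xor_distrib_right, J4P.xor4]

theorem alf_lt (x : ℕ) : alf x < 2 ^ (4 * 4) := by
  have h1 := n4_lt (ac x 128)
  have h2 := n4_lt (ac x 256)
  have h3 := n4_lt (ac x 1024)
  have h4 := n4_lt (ac x 2048)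
  change n4 _ + 16 * n4 _ + (256 * n4 _ + 4096 * n4 _) < 65536
  omega

/-- the four basis vectors read by `n4` -/
def bs (k : ℕ) : ℕ := fld 12 4095 0x800400100080 k

theorem fld_alf (x : ℕ) {k : ℕ} (hk : k < 4) : fld 4 15 (alf x) k = n4 (ac x (bs k)) := by
  have h1 := n4_lt (ac x 128)
  have h2 := n4_lt (ac x 256)
  have h3 := n4_lt (ac x 1024)
  have h4 := n4_lt (ac x 2048)
  have e : alf x = n4 (ac x 128) + 16 * n4 (ac x 256) + (256 * n4 (ac x 1024) + 4096 * n4 (ac x 2048)) := rfl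
  have e2 : fld 4 15 (alf x) k = alf x / 2 ^ (4 * k) % 2 ^ 4 := by
    rw [fld_eq, Nat.shiftRight_eq_div_pow, ← Nat.and_two_pow_sub_one_eq_mod]
  have t : bs 0 = 128 ∧ bs 1 = 256 ∧ bs 2 = 1024 ∧ bs 3 = 2048 := by decide +kernel
  rw [e2, e]
  interval_cases k
  · rw [t.1]; omega
  · rw [t.2.1]; omega
  · rw [t.2.2.1]; omega
  · rw [t.2.2.2]; omega

theorem lc_bs_lt (n : ℕ) : lc bs 4 n < 4096 :=
  lc_lt (N := 12) (fun _ _ => Nat.lt_succ_of_le Nat.and_le_right) n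

theorem n4_sv (g : GL12) {n : ℕ} (hn : n < 16) : n4 (sv g (lc bs 4 n)) = a4 (alf (gcode g)) n :=
  lin_ext (n := 4) (f := fun n => n4 (sv g (lc bs 4 n))) (g := a4 (alf (gcode g)))
    (fun a _ b _ => by rw [lc_xor, sv_xor g (lc_bs_lt _) (lc_bs_lt _), n4_xor (sv_lt _ _) (sv_lt _ _)])
    (fun a _ b _ => by simp only [a4_eq, lc_xor])
    (fun i hi => by rw [a4_eq, lc_pow _ hi, lc_pow _ hi, fld_alf _ hi]) n hn

theorem code_tZ {m : ℕ} (hm : m < 32) : gcode (E12 (tZ m)) = tZ m := (sound_Z m hm).code_elt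

theorem code_eE {n : ℕ} (hn : n < 16) : gcode (E12 (eE n)) = eE n := (top_eE hn).code_elt

theorem eE_EB {n : ℕ} (hn : n < 16) : E12 (eE n) ∈ EB := C12.elt_mem (top_eE hn)

theorem eE_ZB {n : ℕ} (hn : n < 16) : E12 (eE n) ∈ ZB := le_chain.2.1 (eE_EB hn)

theorem ex_tZ {u : GL12} (hu : u ∈ ZB) : ∃ m < 32, gcode u = tZ m := compl_Z u hu

theorem tZ_tab : ∀ m < 32, (∀ j < 12, (ac (tZ m) (2 ^ j) ^^^ 2 ^ j) &&& 0xf88 =
    bit (2 ^ j) 9 * ((ac (tZ m) 512 ^^^ 512) &&& 0xf88)) ∧ ac (tZ m) 1 = 1 ∧ alf (tZ m) = 0x8421 := by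
  decide +kernel

theorem eE_tab : ∀ n < 16, (ac (eE n) 512 ^^^ 512 = lc bs 4 n ∨ ac (eE n) 512 ^^^ 512 = lc bs 4 n ^^^ 64) ∧
    n4 (ac (eE n) 512 ^^^ 512) = n := by
  decide +kernel

theorem eE_inj {n m : ℕ} (hn : n < 16) (hm : m < 16) (e : E12 (eE n) = E12 (eE m)) : n = m := by
  rw [← (eE_tab n hn).2, ← (eE_tab m hm).2, elt_inj (top_eE hn) (top_eE hm) e]

theorem lin2 {u : GL12} (hu : u ∈ ZB) {w : ℕ} (hw : w < 4096) :
    (sv u w ^^^ w) &&& 0xf88 = bit w 9 * ((sv u 512 ^^^ 512) &&& 0xf88) := by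
  obtain ⟨m, hm, e⟩ := ex_tZ hu
  exact lin_ext (n := 12) (f := fun w => (sv u w ^^^ w) &&& 0xf88)
    (g := fun w => bit w 9 * ((sv u 512 ^^^ 512) &&& 0xf88))
    (fun a ha b hb => by rw [sv_xor u ha hb, J4P.xor4, Nat.and_xor_distrib_right])
    (fun a _ b _ => bit_xor_mul _ _ _ _) (fun j hj => by simp only [sv, e]; exact (tZ_tab m hm).1 j hj) w hw

theorem fix_ZB {u : GL12} (hu : u ∈ ZB) : sv u 1 = 1 := by
  obtain ⟨m, hm, e⟩ := ex_tZ hu
  rw [sv, e]; exact (tZ_tab m hm).2.1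

theorem alf_ZB {u : GL12} (hu : u ∈ ZB) : alf (gcode u) = 0x8421 := by
  obtain ⟨m, hm, e⟩ := ex_tZ hu
  rw [e]; exact (tZ_tab m hm).2.2

theorem sv_conj (g u : GL12) {w : ℕ} (hw : w < 4096) : sv (g * u * g⁻¹) (sv g w) = sv g (sv u w) := by
  rw [← sv_mul _ _ hw, inv_mul_cancel_right, sv_mul _ _ hw]

theorem fix_mul {g k : GL12} {v : ℕ} (hv : v < 4096) (hg : sv g v = v) (hk : sv k v = v) : sv (g * k) v = v := by
  rw [sv_mul _ _ hv, hk, hg]

theorem fix_inv {g : GL12} {v : ℕ} (hv : v < 4096) (hg : sv g v = v) : sv g⁻¹ v = v := by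
  conv_lhs => rw [← hg]
  rw [← sv_mul _ _ hv, inv_mul_cancel, sv_one hv]

theorem bit9 {g : GL12} (hi : Iso g) (h1 : sv g 1 = 1) {w : ℕ} (hw : w < 4096) : bit (sv g w) 9 = bit w 9 := by
  rw [← (n4_tab hw).2.2, ← (n4_tab (sv_lt g w)).2.2, ← hi.bf (by norm_num) hw, h1]

/-- `(u + 1) (v + 1) = 0` -/
def Z2 (u v : GL12) : Prop := u.1 * v.1 + v.1 = u.1 + 1

/-- the same on codes -/
noncomputable def z2 (a b : ℕ) : Bool := Nat.beq (Nat.xor (mm a b) b) (Nat.xor a c1)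

theorem Z2_iff (u v : GL12) : Z2 u v ↔ z2 (gcode u) (gcode v) = true := by
  rw [z2, Nat.beq_eq, C12.map_mul, ← C12.map_one]
  change _ ↔ gcode (u * v) ^^^ gcode v = gcode u ^^^ gcode (1 : GL12)
  simp only [gcode_def]
  rw [← mcode_add, ← mcode_add, mcode_injective.eq_iff]
  rfl

theorem Z2.conj {u v : GL12} (h : Z2 u v) (g : GL12) : Z2 (g * u * g⁻¹) (g * v * g⁻¹) := by
  unfold Z2 at h ⊢
  have e : g * u * g⁻¹ * (g * v * g⁻¹) = g * (u * v) * g⁻¹ := by group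
  rw [← Units.val_mul, e]
  simp only [Units.val_mul]
  rw [← add_mul, ← mul_add, h, mul_add, add_mul, mul_one, Units.mul_inv]

theorem z2_tab : (∀ m < 32, ∀ k < 32, 16 ≤ m → z2 (tZ m) (tZ k) = true → tZ k = c1 ∨ k = m) ∧
    (∀ u < 16, ∀ v < 16, z2 (eE u) (eE v) = Nat.beq (B4 u v) 0 ∧ B4 u v < 2) ∧
    (∀ n < 16, ∃ k < 16, k ≠ 0 ∧ k ≠ n ∧ B4 n k = 0) ∧ eE 0 = c1 ∧ eE 1 = a34 ∧ eE 2 = a35 := by
  refine ⟨fun m hm k hk h1 h2 => ?_, by decide +kernel, by decide +kernel, by decide +kernel⟩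
  have : allLt (fun m => blt m 16 || force (tZ m) fun a => allLt (fun k => force (tZ k) fun b =>
    !z2 a b || (Nat.beq b c1 || Nat.beq k m)) 32) 32 = true := by decide +kernel
  have := allLt_iff.1 this m hm
  rw [Bool.or_eq_true, force_eq] at this
  have := allLt_iff.1 (this.resolve_left fun h => absurd (lt_of_blt h) (not_lt.2 h1)) k hk
  simpa only [force_eq, h2, Bool.not_true, Bool.false_or, Bool.or_eq_true, Nat.beq_eq] using this

theorem Z2_eE {u v : ℕ} (hu : u < 16) (hv : v < 16) : Z2 (E12 (eE u)) (E12 (eE v)) ↔ B4 u v = 0 := by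
  rw [Z2_iff, code_eE hu, code_eE hv, (z2_tab.2.1 u hu v hv).1, Nat.beq_eq]

theorem eE_zero : E12 (eE 0) = 1 := by rw [z2_tab.2.2.2.1]; exact C12.elt_one

/-- the stabiliser of the vector 1 -/
def St (X : Subgroup GL12) : Subgroup GL12 where
  carrier := {g | g ∈ X ∧ sv g 1 = 1}
  one_mem' := ⟨one_mem _, sv_one (by norm_num)⟩
  mul_mem' ha hb := ⟨mul_mem ha.1 hb.1, fix_mul (by norm_num) ha.2 hb.2⟩
  inv_mem' ha := ⟨inv_mem ha.1, fix_inv (by norm_num) ha.2⟩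

theorem mem_St {g : GL12} : g ∈ St X ↔ g ∈ X ∧ sv g 1 = 1 := Iff.rfl

theorem norm_E (h : XF X) {g : GL12} (hg : g ∈ X) (h1 : sv g 1 = 1) {n : ℕ} (hn : n < 16) :
    ∃ m < 16, g * E12 (eE n) * g⁻¹ = E12 (eE m) := by
  obtain ⟨m, hm, e⟩ := ex_tZ (h.nz g hg h1 _ (eE_ZB hn))
  obtain ⟨k, hk, h0, hkn, hb⟩ := z2_tab.2.2.1 n hn
  obtain ⟨l, hl, e'⟩ := ex_tZ (h.nz g hg h1 _ (eE_ZB hk))
  by_cases h16 : m < 16
  · exact ⟨m, h16, by rw [← (tZ_eq m h16).1, ← e]; exact (C12.elt_code _).symm⟩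
  have h2 := (Z2_iff _ _).1 (((Z2_eE hn hk).2 hb).conj g)
  rw [e, e'] at h2
  rcases z2_tab.1 m hm l hl (not_lt.1 h16) h2 with h3 | rfl
  · have h4 := C12.inj (e'.trans (h3.trans C12.map_one.symm))
    rw [mul_inv_eq_one, mul_eq_left, ← eE_zero] at h4
    exact absurd (eE_inj hk (by norm_num) h4) h0
  · have h4 := C12.inj (e'.trans e.symm)
    rw [mul_left_inj, mul_right_inj] at h4
    exact absurd (eE_inj hk hn h4) hkn

theorem P2_of_two {g : GL12} (hb : g * E12 (eE 1) * g⁻¹ ∈ AB) (hc : g * E12 (eE 2) * g⁻¹ ∈ AB) : P2 g := by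
  have hA : ∀ n < 4, E12 (eE n) ∈ AB := fun n hn =>
    (mem_AB _).2 ⟨n, hn, Or.inl (code_eE (by omega))⟩
  have n1 : E12 (eE 1) ≠ 1 := fun e => absurd (eE_inj (by norm_num) (by norm_num) (e.trans eE_zero.symm)) (by norm_num)
  have n2 : E12 (eE 2) ≠ 1 := fun e => absurd (eE_inj (by norm_num) (by norm_num) (e.trans eE_zero.symm)) (by norm_num)
  have n3 : E12 (eE 1) ≠ E12 (eE 2) := fun e => absurd (eE_inj (by norm_num) (by norm_num) e) (by norm_num)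
  intro v hv h0
  obtain ⟨e1, e2⟩ := (fix_AB (hA 1 (by norm_num)) (hA 2 (by norm_num)) n1 n2 n3 hv).2 h0
  refine (fix_AB hb hc (fun e => n1 ?_) (fun e => n2 ?_) (fun e => n3 ?_) (sv_lt g v)).1
    ⟨by rw [sv_conj _ _ hv, e1], by rw [sv_conj _ _ hv, e2]⟩
  · rwa [mul_inv_eq_one, mul_eq_left] at e
  · rwa [mul_inv_eq_one, mul_eq_left] at e
  · rwa [mul_left_inj, mul_right_inj] at e

theorem top12 {c : ℕ} (hc : c ∈ gY ++ [a34, a35, x35, xZ] := by decide) : gcode (E12 c) = c :=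
  (top_all c hc).code_elt

theorem a45_MB : E12 a45 ∈ MB := C12.elt_mem (gen_mem (L := gM) (by decide) a45 (by decide))

theorem a45_fix : sv (E12 a45) 1 = 1 := by rw [sv, top12]; decide +kernel

theorem a45_alf : alf (gcode (E12 a45)) = 0x9621 := (congrArg alf top12).trans chk_alf.1

theorem a45_sq : E12 a45 * E12 a45 = 1 := C12.inj (by rw [← C12.map_mul, top12, C12.map_one]; decide +kernel)

theorem ZB_le : ZB ≤ MB := le_chain.2.2.1.trans le_chain.2.2.2.1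

theorem MB_le : MB ≤ YS := le_chain.2.2.2.2.2.1.trans le_chain.2.2.2.2.2.2.1

end Alf

open Alf

namespace XF
variable (h : XF X)
include h

theorem alf_conj {g : GL12} (hg : g ∈ X) (h1 : sv g 1 = 1) {n : ℕ} (hn : n < 16) :
    g * E12 (eE n) * g⁻¹ = E12 (eE (a4 (alf (gcode g)) n)) := by
  obtain ⟨m, hm, e⟩ := norm_E h hg h1 hn
  have hi := h.iso g hg
  have key : ∀ u ∈ ZB, ∀ w < 4096, sv g (sv u w ^^^ w) &&& 0xf88 =
      bit w 9 * ((sv (g * u * g⁻¹) 512 ^^^ 512) &&& 0xf88) := fun u hu w hw => by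
    rw [sv_xor g (sv_lt _ _) hw, ← sv_conj g u hw, lin2 (h.nz g hg h1 u hu) (sv_lt _ _), bit9 hi h1 hw]
  have h64 : n4 (sv g 64) = 0 := by
    have := key _ (eE_ZB (n := 1) (by norm_num)) 1024 (by norm_num)
    rw [show sv (E12 (eE 1)) 1024 ^^^ 1024 = 64 by rw [sv, code_eE (by norm_num)]; decide +kernel,
      show bit 1024 9 = 0 by decide +kernel, zero_mul] at this
    rw [← (n4_tab (sv_lt g 64)).2.1, this]; rfl
  have h2 := congrArg n4 (key _ (eE_ZB hn) 512 (by norm_num))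
  rw [show bit 512 9 = 1 by decide +kernel, one_mul, e, (n4_tab (sv_lt _ _)).2.1,
    (n4_tab (xor_lt (sv_lt _ _) (by norm_num))).2.1, sv, sv, sv, code_eE hn, code_eE hm, (eE_tab m hm).2] at h2
  rw [e, ← h2, ← n4_sv g hn]
  rcases (eE_tab n hn).1 with h3 | h3 <;> rw [h3]
  have := sv_xor g (lc_bs_lt n) (show 64 < 4096 by norm_num)
  rw [sv] at this
  rw [this, n4_xor (sv_lt _ _) (sv_lt _ _), h64, Nat.xor_zero]

theorem alf_top {g : GL12} (hg : g ∈ X) (h1 : sv g 1 = 1) :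
    Mem (gcode : GL4 → ℕ) ⊤ (alf (gcode g)) := mem4 (alf_lt _) fun n hn e => by
  have := h.alf_conj hg h1 hn
  rw [e, eE_zero, mul_inv_eq_one, mul_eq_left, ← eE_zero] at this
  exact eE_inj hn (by norm_num) this

theorem alf_mul {g k : GL12} (hg : g ∈ X) (h1 : sv g 1 = 1) (hk : k ∈ X) (h2 : sv k 1 = 1) :
    alf (gcode (g * k)) = m4 (alf (gcode g)) (alf (gcode k)) :=
  ext4 (alf_lt _) (m4_lt _ _) fun n hn => eE_inj (a4_lt _ _) (a4_lt _ _) (by
    rw [a4_m4, ← h.alf_conj hg h1 (a4_lt _ _), ← h.alf_conj hk h2 hn,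
      ← h.alf_conj (mul_mem hg hk) (fix_mul (by norm_num) h1 h2) hn]
    group)

theorem alf_sp {g : GL12} (hg : g ∈ X) (h1 : sv g 1 = 1) {u v : ℕ} (hu : u < 16) (hv : v < 16) :
    B4 (a4 (alf (gcode g)) u) (a4 (alf (gcode g)) v) = B4 u v := by
  have e : B4 (a4 (alf (gcode g)) u) (a4 (alf (gcode g)) v) = 0 ↔ B4 u v = 0 := by
    rw [← Z2_eE hu hv, ← Z2_eE (a4_lt _ _) (a4_lt _ _), ← h.alf_conj hg h1 hu, ← h.alf_conj hg h1 hv]
    refine ⟨fun h2 => ?_, fun h2 => h2.conj g⟩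
    have := h2.conj g⁻¹
    simpa only [mul_assoc, inv_inv, inv_mul_cancel_left, inv_mul_cancel, mul_one] using this
  have h2 := (z2_tab.2.1 u hu v hv).2
  have h3 := (z2_tab.2.1 _ (a4_lt (alf (gcode g)) u) _ (a4_lt (alf (gcode g)) v)).2
  omega

theorem mem_of_comm {g : GL12} (hg : g ∈ X) (h1 : sv g 1 = 1)
    (hc : g * E12 a45 * g⁻¹ * E12 a45 ∈ ZB) : g ∈ MB := by
  have t0 : ∀ m < 32, ∀ a < 16, a ≠ 0 → force (mm (tZ m) a45) (fun c => z2 c (eE a)) = true →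
      a < 4 ∨ allLt (fun b => Nat.beq b 0 || (!z2 (mm (tZ m) a45) (eE b) || Nat.beq b a)) 16 = true := by
    decide +kernel
  replace t0 : ∀ m < 32, ∀ a < 16, a ≠ 0 → force (mm (tZ m) a45) (fun c => z2 c (eE a)) = true →
      a < 4 ∨ ∀ b < 16, b ≠ 0 → force (mm (tZ m) a45) (fun c => z2 c (eE b)) = true → b = a :=
    fun m hm a ha h1 h2 => (t0 m hm a ha h1 h2).imp_right fun h b hb h3 h4 => by
      have := allLt_iff.1 h b hb
      rw [force_eq] at h4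
      simpa only [h4, h3, Bool.not_true, Bool.false_or, Bool.or_eq_true, Nat.beq_eq, false_or] using this
  have t : (∀ m < 32, ∀ a < 16, ∀ b < 16, a ≠ 0 → b ≠ 0 → a ≠ b → z2 (mm (tZ m) a45) (eE a) = true →
      z2 (mm (tZ m) a45) (eE b) = true → a < 4 ∧ b < 4) ∧ z2 a45 (eE 1) = true ∧ z2 a45 (eE 2) = true := by
    simp only [force_eq] at t0
    exact ⟨fun m hm a ha b hb h1 h2 h3 h4 h5 => ⟨(t0 m hm a ha h1 h4).resolve_right fun h => h3 (h b hb h2 h5).symm,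
      (t0 m hm b hb h2 h5).resolve_right fun h => h3 (h a ha h1 h4)⟩, by decide +kernel⟩
  obtain ⟨m, hm, e⟩ := ex_tZ hc
  have e' : gcode (g * E12 a45 * g⁻¹) = mm (tZ m) a45 := by
    have := C12.map_mul (g * E12 a45 * g⁻¹ * E12 a45) (E12 a45)
    rwa [e, top12, mul_assoc _ (E12 a45), a45_sq, mul_one, eq_comm] at this
  obtain ⟨a, ha, ea⟩ := norm_E h hg h1 (n := 1) (by norm_num)
  obtain ⟨b, hb, eb⟩ := norm_E h hg h1 (n := 2) (by norm_num)
  have z1 := (Z2_iff _ _).1 (((Z2_iff (E12 a45) (E12 (eE 1))).2 (by rw [top12, code_eE (by norm_num)]; exact t.2.1)).conj g)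
  have z2' := (Z2_iff _ _).1 (((Z2_iff (E12 a45) (E12 (eE 2))).2 (by rw [top12, code_eE (by norm_num)]; exact t.2.2)).conj g)
  rw [e', ea, code_eE ha] at z1
  rw [e', eb, code_eE hb] at z2'
  have := t.1 m hm a ha b hb (fun e0 => ?_) (fun e0 => ?_) (fun e0 => ?_) z1 z2'
  · refine h.stab g hg (P2_of_two ?_ ?_)
    · rw [ea]; exact (mem_AB _).2 ⟨a, this.1, Or.inl (code_eE ha)⟩
    · rw [eb]; exact (mem_AB _).2 ⟨b, this.2, Or.inl (code_eE hb)⟩
  · rw [e0, eE_zero, mul_inv_eq_one, mul_eq_left, ← eE_zero] at ea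
    exact absurd (eE_inj (by norm_num) (by norm_num) ea) (by norm_num)
  · rw [e0, eE_zero, mul_inv_eq_one, mul_eq_left, ← eE_zero] at eb
    exact absurd (eE_inj (by norm_num) (by norm_num) eb) (by norm_num)
  · rw [e0, ← eb, mul_left_inj, mul_right_inj] at ea
    exact absurd (eE_inj (by norm_num) (by norm_num) ea) (by norm_num)

theorem alf_ker {g : GL12} (hg : g ∈ X) (h1 : sv g 1 = 1) (h2 : alf (gcode g) = 0x8421) : g ∈ ZB := by
  have hA : ∀ n < 4, E12 (eE n) ∈ AB := fun n hn =>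
    (mem_AB _).2 ⟨n, hn, Or.inl (code_eE (by omega))⟩
  have hM : g ∈ MB := h.stab g hg (P2_of_two
    (by rw [h.alf_conj hg h1 (by norm_num), h2]; exact hA _ (by decide +kernel))
    (by rw [h.alf_conj hg h1 (by norm_num), h2]; exact hA _ (by decide +kernel)))
  have hK : (gen gcode [a45, x45, x54] : Subgroup GL12) ≤ St MB := C12.gen_le fun c hc =>
    (top_all c (by revert c; decide)).of_elt ⟨C12.elt_mem (gen_mem (L := gM) (by decide) c (by revert c; decide)),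
      by rw [sv, top12 (by revert c; decide)]; revert c; decide +kernel⟩
  have key : ∀ g ∈ (gen gcode (gZ ++ [a45, x45, x54]) : Subgroup GL12),
      ∃ k ∈ (gen gcode [a45, x45, x54] : Subgroup GL12), g * k⁻¹ ∈ ZB := by
    refine gen_induction ⟨1, one_mem _, by rw [inv_one, mul_one]; exact one_mem _⟩ ?_
    rintro j hj s e g ⟨k, hk, hz⟩
    rcases List.mem_append.1 (e ▸ lget_mem hj) with h3 | h3
    · exact ⟨k, hk, by rw [mul_assoc]; exact mul_mem (subset_closure h3) hz⟩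
    · have h4 : s ∈ (gen gcode [a45, x45, x54] : Subgroup GL12) := subset_closure h3
      refine ⟨s * k, mul_mem h4 hk, ?_⟩
      have := h.nz s (h.le (hK h4).1) (hK h4).2 _ hz
      rwa [show s * (g * k⁻¹) * s⁻¹ = s * g * (s * k)⁻¹ by group] at this
  obtain ⟨k, hk, hz⟩ := key g (stabM hM h1)
  have h3 := h.alf_mul (h.le (ZB_le hz)) (fix_ZB hz) (h.le (hK hk).1) (hK hk).2
  rw [inv_mul_cancel_right, h2, alf_ZB hz] at h3
  have t : ∀ c ∈ [0x800400200100080040020010008004002001, 0x880500200100080040022014008004002001, 0x800c00200180080040020030008006002001, 0xc00400200100180040030010008004006001, 0x880d80200180080040022036008006002001, 0xd80500200100180040036014008004006001, 0x400c00200180100040010030008006004001, 0xc00800200080180040030020008002006001, 0x500d80200180100040014036008006004001, 0xd80880200080180040036022008002006001, 0x400800200080100040010020008002004001, 0x500880200080100040014022008002004001],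
      0x8421 = m4 0x8421 (alf c) → c = c1 := by decide +kernel
  have h4 := C12.inj ((t _ (compl_of C12 (by decide +kernel) k hk) h3).trans C12.map_one.symm)
  rwa [h4, inv_one, mul_one] at hz

/-- the action on `E16` as a homomorphism -/
noncomputable def aH : St X →* GL4 := MonoidHom.mk' (fun g => E4 (alf (gcode (g : GL12)))) fun a b => by
  rw [Subgroup.coe_mul, h.alf_mul a.2.1 a.2.2 b.2.1 b.2.2]
  exact C4.elt_mul (h.alf_top a.2.1 a.2.2) (h.alf_top b.2.1 b.2.2)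

theorem code_aH (g : St X) : gcode (h.aH g) = alf (gcode (g : GL12)) := (h.alf_top g.2.1 g.2.2).code_elt

theorem aH_ker {g : St X} (e : h.aH g = 1) : (g : GL12) ∈ ZB :=
  h.alf_ker g.2.1 g.2.2 (by rw [← h.code_aH, e, C4.map_one])

theorem mul_inv_mem' {g k : GL12} (hg : g ∈ X) (h1 : sv g 1 = 1) (hk : k ∈ X) (h2 : sv k 1 = 1)
    (e : alf (gcode g) = alf (gcode k)) : g * k⁻¹ ∈ ZB := by
  have key : ∀ a b : St X, alf (gcode (a : GL12)) = alf (gcode (b : GL12)) → (a : GL12) * (b : GL12)⁻¹ ∈ ZB :=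
    fun a b e => by
      have := h.aH_ker (g := a * b⁻¹) (by
        rw [map_mul, map_inv, mul_inv_eq_one]
        exact C4.inj ((h.code_aH a).trans (e.trans (h.code_aH b).symm)))
      rwa [Subgroup.coe_mul, Subgroup.coe_inv] at this
  exact key ⟨g, hg, h1⟩ ⟨k, hk, h2⟩ e

theorem alf_cent {g : GL12} (hg : g ∈ X) (h1 : sv g 1 = 1)
    (hc : m4 (alf (gcode g)) 0x9621 = m4 0x9621 (alf (gcode g))) : g ∈ MB := by
  have ha := h.le a45_MB
  have := h.mul_inv_mem' (mul_mem hg ha) (fix_mul (by norm_num) h1 a45_fix) (mul_mem ha hg)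
    (fix_mul (by norm_num) a45_fix h1)
    (by rw [h.alf_mul hg h1 ha a45_fix, h.alf_mul ha a45_fix hg h1, a45_alf]; exact hc)
  rw [mul_inv_rev, ← mul_assoc, inv_eq_of_mul_eq_one_right a45_sq] at this
  exact h.mem_of_comm hg h1 this

theorem mul_inv_mem {g k : GL12} (hg : g ∈ X) (h1 : sv g 1 = 1) (hk : k ∈ X) (h2 : sv k 1 = 1)
    (e : alf (gcode g) = alf (gcode k)) : g * k⁻¹ ∈ ZB := h.mul_inv_mem' hg h1 hk h2 e

end XF

namespace Alf

theorem gen4 {L : List ℕ} (h : ∀ c ∈ L, c ∈ [0x8421, 0x9621, 0x8c31, 0xc423, 0x8469, 0x2481, 0x84a5] := by decide) :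
    ∀ c ∈ L, Mem (gcode : GL4 → ℕ) (gen gcode L) c := mem_gen fun c hc => top4 c (h c hc)

theorem stY : ∀ c ∈ gZ ++ [a45, x45, x54, xY, xT], Mem (gcode : GL12 → ℕ) (St YS) c := fun c hc => by
  have h0 : c ∈ gY ++ [a34, a35, x35, xZ] := by revert c; decide
  refine (top_all c h0).of_elt ⟨?_, by rw [sv, top12 h0]; revert c; decide +kernel⟩
  rcases List.mem_append.1 hc with h1 | h1
  · exact MB_le (ZB_le (C12.elt_mem (gen_mem (L := gZ) (by decide) c h1)))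
  · exact C12.elt_mem (gen_mem (L := gY) (by decide) c (by revert c; decide))

theorem al_gen {L L' : List ℕ} (hL : ∀ c ∈ L, c ∈ gZ ++ [a45, x45, x54, xY, xT])
    (hL' : ∀ c ∈ L', Mem (gcode : GL4 → ℕ) (gen gcode L') c) (t : ∀ c ∈ L, alf c = 0x8421 ∨ alf c ∈ L') :
    ∀ g ∈ (gen gcode L : Subgroup GL12), g ∈ St YS ∧ Al L' g := by
  refine gen_induction ⟨one_mem _, ?_⟩ fun j hj s e g hg => ?_
  · rw [Al, alf_ZB (one_mem _)]; exact C4.mem_one _
  · have hs : gcode s ∈ L := e ▸ lget_mem hj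
    have h1 := C12.mem_iff.1 (stY _ (hL _ hs))
    refine ⟨mul_mem h1 hg.1, ?_⟩
    rw [Al, xf_YS.alf_mul h1.1 h1.2 hg.1.1 hg.1.2]
    refine C4.mem_mul ?_ hg.2
    rcases t _ hs with h2 | h2
    · rw [h2]; exact C4.mem_one _
    · exact hL' _ h2

theorem ex_gen {Y : Subgroup GL12} (hY : Y ≤ YS) {L' : List ℕ}
    (t : ∀ c ∈ L', ∃ d, Mem (gcode : GL12 → ℕ) Y d ∧ ac d 1 = 1 ∧ alf d = c) {c : ℕ}
    (hc : Mem (gcode : GL4 → ℕ) (gen gcode L') c) : ∃ g ∈ Y, sv g 1 = 1 ∧ alf (gcode g) = c := by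
  obtain ⟨γ, hγ, rfl⟩ := hc
  revert γ
  refine gen_induction ⟨1, one_mem _, sv_one (by norm_num), by rw [alf_ZB (one_mem _), C4.map_one]⟩ ?_
  rintro j hj s e γ ⟨g, hg, h1, h2⟩
  obtain ⟨_, ⟨d, hd, rfl⟩, h3, h4⟩ := t _ (lget_mem hj)
  exact ⟨d * g, mul_mem hd hg, fix_mul (by norm_num) h3 h1,
    by rw [xf_YS.alf_mul (hY hd) h3 (hY hg) h1, h4, h2, ← e, C4.map_mul]⟩

theorem ex_list {L L' : List ℕ} (hL : ∀ c ∈ L, c ∈ gY ++ [a34, a35, x35, xZ])
    (t : ∀ c ∈ L', ∃ d ∈ L, ac d 1 = 1 ∧ alf d = c) :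
    ∀ c ∈ L', ∃ d, Mem (gcode : GL12 → ℕ) (gen gcode L) d ∧ ac d 1 = 1 ∧ alf d = c := fun c hc => by
  obtain ⟨d, hd, h⟩ := t c hc
  exact ⟨d, gen_mem hL d hd, h⟩

/-- the elements of `⟨L12⟩` -/
def P12 : List ℕ := [0x8421, 0x9621, 0x8c31, 0xc423, 0x9f31, 0xf623, 0x4c32, 0xc813, 0x6f32, 0xf913, 0x4812, 0x6912]

/-- the elements of `⟨L72⟩` -/
def P72 : List ℕ := [0x8421, 0x9621, 0x8c31, 0xc423, 0x8469, 0x2481, 0x9f31, 0xf623, 0x9648, 0x2691, 0x4c32, 0x8cf9, 0x3c81, 0xc813, 0xc46f, 0x24c3, 0x1269, 0x6489, 0x6f32, 0x9fc8, 0x3f91, 0xf913, 0xf64c, 0x26f3, 0x1248, 0x4698, 0x4812, 0x4cf6, 0x3c42, 0x13f9, 0xfc89, 0xc89f, 0x18c3, 0x326f, 0x64cf, 0x6219, 0x6912, 0x6fc4, 0x3f62, 0x13c8, 0xcf98, 0xf98c, 0x19f3, 0x324c, 0x46fc, 0x4218, 0x4896, 0x1842, 0x23f6, 0xfc46, 0xf319, 0x319f, 0x98cf, 0x623f, 0x6984, 0x1962, 0x23c4, 0xcf64, 0xc318, 0x318c, 0x89fc, 0x423c, 0x2196, 0x9846, 0xf326, 0x913f, 0x2184, 0x8964,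 0xc324, 0x813c, 0x9126, 0x8124]

theorem mem_P12 {c : ℕ} (h : Mem (gcode : GL4 → ℕ) (gen gcode L12) c) : c ∈ P12 := by
  obtain ⟨γ, hγ, rfl⟩ := h
  exact compl_of C4 (by decide +kernel) γ hγ

theorem mem_P72 {c : ℕ} (h : Mem (gcode : GL4 → ℕ) (gen gcode L72) c) : c ∈ P72 := by
  obtain ⟨γ, hγ, rfl⟩ := h
  exact compl_of C4 (by decide +kernel) γ hγ

end Alf

theorem al_MB {g : GL12} (hg : g ∈ MB) (h1 : sv g 1 = 1) : Al L12 g :=
  (al_gen (by decide) gen4 (by decide +kernel) g (stabM hg h1)).2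

theorem al_YA {g : GL12} (hg : g ∈ YA) (h1 : sv g 1 = 1) : Al L36 g :=
  (al_gen (by decide) gen4 (by decide +kernel) g (stabA hg h1)).2

theorem al_YS {g : GL12} (hg : g ∈ YS) (h1 : sv g 1 = 1) : Al L72 g :=
  (al_gen (by decide) gen4 (by decide +kernel) g (stabS hg h1)).2

theorem ex_MB {c : ℕ} (hc : Mem (gcode : GL4 → ℕ) (gen gcode L12) c) :
    ∃ g ∈ MB, sv g 1 = 1 ∧ alf (gcode g) = c :=
  ex_gen MB_le (ex_list (by decide) (by decide +kernel)) hc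

theorem ex_YA {c : ℕ} (hc : Mem (gcode : GL4 → ℕ) (gen gcode L36) c) :
    ∃ g ∈ YA, sv g 1 = 1 ∧ alf (gcode g) = c :=
  ex_gen le_chain.2.2.2.2.2.2.1 (ex_list (by decide) (by decide +kernel)) hc

theorem ex_YS {c : ℕ} (hc : Mem (gcode : GL4 → ℕ) (gen gcode L72) c) :
    ∃ g ∈ YS, sv g 1 = 1 ∧ alf (gcode g) = c :=
  ex_gen le_rfl (ex_list (by decide) (by decide +kernel)) hc

theorem JC.not_le (h : JC X) : ¬ X ≤ YS := fun hle => by
  obtain ⟨g, hg, h1, h2⟩ := h.ex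
  have := mem_P72 (al_YS (hle hg) h1)
  rw [h2] at this
  exact absurd this (by decide +kernel)

end CL.T10
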