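import Cfsg.Agent.SPOR.T10.Defs
import Cfsg.Agent.CLAS.SLBasic

/-!
Facts about `L5(2)` and its action on `Λ² V`.
-/

set_option autoImplicit false
set_option maxRecDepth 100000

namespace CL.T10

open CL.K CL.CG CL.F2M CL.F24 CL.LX CL.MSS Subgroup Cfsg
open CL.J4P (Kv)

attribute [local irreducible] gcode vcode

theorem isG_code (g : GL5) : isG (gcode g) = true := by
  rw [isG, force_eq, Bool.and_eq_true, allLt_iff]
  refine ⟨Nat.ble_eq_true_of_le (gcode5_lt g), fun v hv => ?_⟩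
  by_cases h : a5 (gcode g) v = 0
  · have h1 := a5_mul g⁻¹ g hv
    have h2 : ∀ v < 32, a5 i5 v = v := by decide +kernel
    have h3 := a5_xor (gcode g⁻¹) 0 0
    rw [Nat.xor_self, Nat.xor_self] at h3
    rw [inv_mul_cancel, C5.map_one, h2 v hv, h, h3] at h1
    rw [h1]; rfl
  · rw [Bool.or_eq_true, Bool.not_eq_true', ← Bool.not_eq_true, Nat.beq_eq, Nat.beq_eq]
    exact .inr h

theorem mem5s {L : List ℕ} (h : lall isG L = true) : ∀ c ∈ L, Mem (gcode : GL5 → ℕ) ⊤ c :=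
  fun c hc => mem5 (lall_iff.1 h c hc)

theorem cl_and (a b j : ℕ) : cl (a &&& b) j = cl a j &&& cl b j := by
  simp only [cl, fld_eq, Nat.shiftRight_and_distrib]
  rw [Nat.and_assoc, Nat.and_assoc, Nat.and_comm 31, Nat.and_assoc, Nat.and_self]

theorem cl_ext {a b : ℕ} (ha : a < 2 ^ 25) (hb : b < 2 ^ 25) (h : ∀ j < 5, cl a j = cl b j) : a = b := by
  refine Nat.eq_of_testBit_eq fun i => ?_
  by_cases hi : i < 25
  · have h1 := testBit_fld 5 a (i / 5) (i % 5)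
    have h2 := testBit_fld 5 b (i / 5) (i % 5)
    rw [Nat.div_add_mod, decide_eq_true (Nat.mod_lt i (by norm_num)), Bool.true_and] at h1 h2
    rw [← h1, ← h2]
    exact congrArg (Nat.testBit · (i % 5)) (h _ (by omega))
  · have := Nat.pow_le_pow_right (n := 2) (by norm_num) (not_lt.1 hi)
    rw [Nat.testBit_lt_two_pow (ha.trans_le this), Nat.testBit_lt_two_pow (hb.trans_le this)]

theorem and_eq_iff {a M b : ℕ} (hM : M < 2 ^ 25) (hb : b < 2 ^ 25) :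
    a &&& M = b ↔ ∀ j < 5, cl a j &&& cl M j = cl b j :=
  ⟨fun e j _ => by rw [← cl_and, e], fun e =>
    cl_ext (Nat.and_le_right.trans_lt hM) hb fun j hj => by rw [cl_and, e j hj]⟩

theorem card_GL5 : Nat.card GL5 = 9999360 := by
  rw [Matrix.card_GL_field, ZMod.card]; decide +kernel

theorem nonempty_sl (n : ℕ) :
    Nonempty (Matrix.SpecialLinearGroup (Fin n) (ZMod 2) ≃* GL (Fin n) (ZMod 2)) :=
  ⟨MulEquiv.ofBijective Matrix.SpecialLinearGroup.toGL ⟨Matrix.SpecialLinearGroup.toGL_injective,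
    fun g => ⟨⟨g, congrArg Units.val (Subsingleton.elim (Matrix.GeneralLinearGroup.det g) 1)⟩,
      Units.ext rfl⟩⟩⟩

theorem simple_GL5 : IsSimpleGroup GL5 := by
  have := CL.SL.psl_isSimpleGroup_of_three_le (ι := Fin 5) (F := ZMod 2) (by simp)
  have h : Subgroup.center (Matrix.SpecialLinearGroup (Fin 5) (ZMod 2)) = ⊥ :=
    Subgroup.card_eq_one.1 (by rw [CL.SL.card_center_SL]; simp)
  have := ((QuotientGroup.quotientMulEquivOfEq h).trans QuotientGroup.quotientBot).symm.isSimpleGroup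
  exact (nonempty_sl 5).some.symm.isSimpleGroup

/-- the transvections `t_(i,i+1)`, `t_(i+1,i)` generate `L5(2)` -/
theorem gen_L5 : (gen gcode [tv 1 2, tv 2 1, tv 2 3, tv 3 2, tv 3 4, tv 4 3, tv 4 5, tv 5 4] :
    Subgroup GL5) = ⊤ := by
  have h1 := C5.mem_of_wordsB (mem_gen (mem5s
    (L := [tv 1 2, tv 2 1, tv 2 3, tv 3 2, tv 3 4, tv 4 3, tv 4 5, tv 5 4]) (by decide +kernel)))
    (W := [(tv 1 2, [0]), (tv 1 3, [0, 2, 0, 2]), (tv 1 4, [0, 2, 4, 2, 4, 0, 2, 4, 2, 4]), (tv 1 5, [0, 2, 0, 2, 4, 6, 4, 6, 0, 2, 0, 2, 4, 6, 4, 6]), (tv 2 1, [1]), (tv 2 3, [2]), (tv 2 4, [2, 4, 2, 4]), (tv 2 5, [2, 4, 6, 4, 6, 2, 4, 6, 4, 6]), (tv 3 1, [3, 1, 3, 1]), (tv 3 2, [3]), (tv 3 4, [4]), (tv 3 5, [4, 6, 4, 6]), (tv 4 1, [5, 3, 1, 3, 1, 5, 3, 1, 3, 1]), (tv 4 2, [5, 3, 5, 3]), (tv 4 3, [5]), (tv 4 5, [6]), (tv 5 1, [7, 5, 3, 1, 3, 1, 5, 3, 1, 3, 1, 7, 5, 3,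 1, 3, 1, 5, 3, 1, 3, 1]), (tv 5 2, [7, 5, 3, 5, 3, 7, 5, 3, 5, 3]), (tv 5 3, [7, 5, 7, 5]), (tv 5 4, [7])]) (by decide +kernel)
  have h2 := A5.chain_le C5 (B := [(1, 31), (2, 30), (4, 28), (8, 24), (16, 16)]) h1 (by decide +kernel)
  exact eq_top_of_le_card _ (by rw [card_GL5]; exact h2)

theorem cl_ne (g : GL5) {i j : ℕ} (hi : i < 5) (hj : j < 5) (h : i ≠ j) :
    cl (gcode g) i ≠ 0 ∧ cl (gcode g) i ≠ cl (gcode g) j := by
  have h1 := isG_code g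
  rw [isG, force_eq, Bool.and_eq_true, allLt_iff] at h1
  have p : ∀ {i : ℕ}, i < 5 → 2 ^ i < 32 := fun hi => Nat.pow_lt_pow_right (a := 2) (by norm_num) hi
  have k : ∀ v < 32, a5 (gcode g) v = 0 → v = 0 := fun v hv e => by
    have := h1.2 v hv
    rw [e, Bool.or_eq_true] at this
    exact eq_of_beq (this.resolve_right (by decide))
  refine ⟨fun e => absurd (k _ (p hi) (by rw [a5_pow _ hi, e])) (by positivity), fun e => h ?_⟩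
  have := k _ (Nat.xor_lt_two_pow (n := 5) (p hi) (p hj))
    (by rw [a5_xor, a5_pow _ hi, a5_pow _ hj, e, Nat.xor_self])
  exact Nat.pow_right_injective (le_refl 2) (Nat.xor_eq_zero_iff.1 this)

theorem wa_basis (g : ℕ) : wa g 1 = wd (cl g 0) (cl g 1) ∧ wa g 2 = wd (cl g 0) (cl g 2) ∧
    wa g 4 = wd (cl g 0) (cl g 3) ∧ wa g 8 = wd (cl g 0) (cl g 4) ∧ wa g 16 = wd (cl g 1) (cl g 2) ∧
    wa g 32 = wd (cl g 1) (cl g 3) ∧ wa g 64 = wd (cl g 1) (cl g 4) :=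
  ⟨wa_pow g (k := 0) (by norm_num), wa_pow g (k := 1) (by norm_num), wa_pow g (k := 2) (by norm_num),
    wa_pow g (k := 3) (by norm_num), wa_pow g (k := 4) (by norm_num), wa_pow g (k := 5) (by norm_num),
    wa_pow g (k := 6) (by norm_num)⟩

theorem maskP_iff (c : ℕ) : c &&& 0x39c = 0 ↔ cl c 0 < 4 ∧ cl c 1 < 4 := by
  have t : ∀ x < 32, (x &&& 28 = 0 ↔ x < 4) := by decide +kernel
  rw [and_eq_iff (by norm_num) (by norm_num), ← t _ (cl_lt c 0), ← t _ (cl_lt c 1)]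
  refine ⟨fun h => ⟨h 0 (by norm_num), h 1 (by norm_num)⟩, fun h j hj => ?_⟩
  interval_cases j
  exacts [h.1, h.2, Nat.and_zero _, Nat.and_zero _, Nat.and_zero _]

theorem wa_s (g : GL5) : wa (gcode g) 1 = 1 ↔ gcode g &&& 0x39c = 0 := by
  have t : ∀ u < 32, ∀ v < 32, u ≠ 0 ∧ v ≠ 0 ∧ u ≠ v → (wd u v = 1 ↔ u < 4 ∧ v < 4) := by
    decide +kernel
  have a := cl_ne g (i := 0) (j := 1) (by norm_num) (by norm_num) (by norm_num)
  have b := cl_ne g (i := 1) (j := 0) (by norm_num) (by norm_num) (by norm_num)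
  rw [maskP_iff, (wa_basis _).1, t _ (cl_lt _ _) _ (cl_lt _ _) ⟨a.1, b.1, a.2⟩]

/-- an element fixing `W ∧ V` pointwise is trivial -/
theorem eq_one_of_fix {g : GL5} (h : ∀ a < 128, wa (gcode g) a = a) : g = 1 := by
  have t : ∀ u < 4, ∀ u' < 4, ∀ v < 32, ∀ j < 3, wd u v = 2 * 2 ^ j → wd u' v = 16 * 2 ^ j →
      u = 1 ∧ u' = 2 ∧ v = 4 * 2 ^ j := by
    have t0 : ∀ j < 3, ∀ v < 32, ∀ u < 4, wd u v = 2 * 2 ^ j → u = 1 ∧ v ||| 1 = 4 * 2 ^ j + 1 := by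
      decide +kernel
    have t1 : ∀ j < 3, ∀ v < 32, ∀ u < 4, wd u v = 16 * 2 ^ j → u = 2 ∧ v &&& 1 = 0 := by decide +kernel
    have t2 : ∀ j < 3, ∀ v < 32, v ||| 1 = 4 * 2 ^ j + 1 ∧ v &&& 1 = 0 → v = 4 * 2 ^ j := by decide +kernel
    intro u hu u' hu' v hv j hj e e'
    have a := t0 j hj v hv u hu e
    have b := t1 j hj v hv u' hu' e'
    exact ⟨a.1, b.1, t2 j hj v hv ⟨a.2, b.2⟩⟩
  obtain ⟨b0, b1⟩ := (maskP_iff _).1 ((wa_s g).1 (h 1 (by norm_num)))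
  obtain ⟨-, e1, e2, e3, e4, e5, e6⟩ := wa_basis (gcode g)
  rw [h _ (by norm_num)] at e1 e2 e3 e4 e5 e6
  obtain ⟨c0, c1, c2⟩ := t _ b0 _ b1 _ (cl_lt _ 2) 0 (by norm_num) e1.symm e4.symm
  obtain ⟨-, -, c3⟩ := t _ b0 _ b1 _ (cl_lt _ 3) 1 (by norm_num) e2.symm e5.symm
  obtain ⟨-, -, c4⟩ := t _ b0 _ b1 _ (cl_lt _ 4) 2 (by norm_num) e3.symm e6.symm
  refine C5.inj ((cl_ext (gcode5_lt g) (by decide) fun j hj => ?_).trans C5.map_one.symm)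
  interval_cases j
  exacts [c0, c1, c2, c3, c4]

noncomputable instance : MulAction GL5 (Fin 1024) where
  smul g a := ⟨wa (gcode g) a, wa_lt _ _⟩
  one_smul a := Fin.ext (by change wa (gcode (1 : GL5)) a = a; rw [C5.map_one, wa_one a.2])
  mul_smul g k a := Fin.ext (wa_mul g k a.2)

/-- numbering -/
def E10 : CL.Enc (Fin 1024) 1024 := CL.Enc.fin 1023

theorem AW : IsAct (gcode : GL5 → ℕ) E10 wa := fun _ _ => rfl

theorem wa_inv (g : GL5) {a : ℕ} (ha : a < 1024) : wa (gcode g⁻¹) (wa (gcode g) a) = a := by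
  rw [← wa_mul _ _ ha, inv_mul_cancel, C5.map_one, wa_one ha]

theorem dec2_iff {a : ℕ} : dec2 a = true ↔ a ≠ 0 ∧ ∃ u < 32, ∃ v < 32, wd u v = a := by
  simp only [dec2, Bool.and_eq_true, anyLt_iff, Nat.beq_eq, Bool.not_eq_true', ← Bool.not_eq_true, ne_eq]

theorem dec2_wa (g : GL5) {a : ℕ} (ha : a < 1024) : dec2 (wa (gcode g) a) = dec2 a := by
  have k : ∀ (g : GL5) {a : ℕ}, a < 1024 → dec2 a = true → dec2 (wa (gcode g) a) = true := by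
    intro g a ha h
    obtain ⟨h0, u, hu, v, hv, rfl⟩ := dec2_iff.1 h
    refine dec2_iff.2 ⟨fun e => h0 ?_, _, a5_lt _ u, _, a5_lt _ v, (wa_wd _ hu hv).symm⟩
    rw [← wa_inv g ha, e, wa_zero]
  refine Bool.eq_iff_iff.2 ⟨fun h => ?_, k g ha⟩
  rw [← wa_inv g ha]
  exact k _ (wa_lt _ _) h

theorem orb_data : ∃ S S' : ℕ, (∀ a < 1024, a = 0 ∨ S.testBit a = true ∨ S'.testBit a = true) ∧
    (MulAction.orbit GL5 (1 : Fin 1024)).ncard = 155 ∧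
    (∀ a < 1024, S.testBit a = true → ∃ g : GL5, wa (gcode g) 1 = a) ∧
    ∀ a < 1024, S'.testBit a = true → ∃ g : GL5, wa (gcode g) 20 = a := by
  have hL := mem5s (L := [tv 1 2, tv 2 1, tv 2 3, tv 3 2, tv 3 4, tv 4 3, tv 4 5, tv 5 4])
    (by decide +kernel)
  obtain ⟨S, m, h1, h2, h3⟩ := AW.orbA_eq C5 hL (b := 1) (by norm_num) (k := fun S m => Nat.beq m 155 &&
    orbA wa 1024 [tv 1 2, tv 2 1, tv 2 3, tv 3 2, tv 3 4, tv 4 3, tv 4 5, tv 5 4] 20 fun S' _ =>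
      Nat.beq (Nat.lor (Nat.lor S S') 1) (2 ^ 1024 - 1)) (by decide +kernel)
  rw [Bool.and_eq_true] at h1
  obtain ⟨S', m', h4, -, h5⟩ := AW.orbA_eq C5 hL (b := 20) (by norm_num) h1.2
  rw [gen_L5] at h2 h3 h5
  refine ⟨S, S', fun a ha => ?_, ?_, fun a ha e => ?_, fun a ha e => ?_⟩
  · have := congrArg (Nat.testBit · a) (eq_of_beq h4)
    simp only [Nat.lor_eq, Nat.testBit_or, Nat.testBit_two_pow_sub_one, decide_eq_true ha,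
      Bool.or_eq_true, Nat.testBit_one_eq_true_iff_self_eq_zero] at this
    tauto
  · rw [← eq_of_beq h1.1, ← h2]
    congr 1
    ext x
    exact ⟨fun ⟨g, e⟩ => ⟨⟨g, trivial⟩, e⟩, fun ⟨g, e⟩ => ⟨g.1, e⟩⟩
  · obtain ⟨g, e⟩ := (h3 ⟨a, ha⟩).2 e
    exact ⟨g.1, congrArg Fin.val e⟩
  · obtain ⟨g, e⟩ := (h5 ⟨a, ha⟩).2 e
    exact ⟨g.1, congrArg Fin.val e⟩

/-- the two orbits on `Λ² V`; 20 is `e1 ∧ e4 + e2 ∧ e3` -/
theorem orb_wa {a : ℕ} (ha : a < 1024) (h0 : a ≠ 0) :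
    ∃ g : GL5, wa (gcode g) (if dec2 a = true then 1 else 20) = a := by
  obtain ⟨S, S', h1, -, h2, h3⟩ := orb_data
  rcases (h1 a ha).resolve_left h0 with e | e
  · obtain ⟨g, rfl⟩ := h2 a ha e
    rw [dec2_wa g (by norm_num), if_pos (by decide +kernel)]
    exact ⟨g, rfl⟩
  · obtain ⟨g, rfl⟩ := h3 a ha e
    rw [dec2_wa g (by norm_num), if_neg (by decide +kernel)]
    exact ⟨g, rfl⟩

theorem top_gP : ∀ c ∈ gP, Mem (gcode : GL5 → ℕ) ⊤ c := mem5s (by decide +kernel)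

/-- the stabiliser of `⟨e1, e2⟩`: the entries `(i, j)`, `i ≥ 3`, `j ≤ 2` vanish -/
theorem mem_gP (g : GL5) : g ∈ (gen gcode gP : Subgroup GL5) ↔ gcode g &&& 0x39c = 0 := by
  have h0 : (gen gcode gP : Subgroup GL5) ≤ MulAction.stabilizer GL5 (1 : Fin 1024) :=
    (C5.gen_le_iff top_gP).2 fun c hc => Fin.ext (by
      have : ∀ c ∈ gP, wa c 1 = 1 := by decide +kernel
      change wa (gcode (elt gcode c : GL5)) 1 = 1
      rw [(top_gP c hc).code_elt, this c hc])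
  have h1 := C5.mem_of_wordsB (mem_gen top_gP) (W := [(tv 1 2, [0]), (tv 1 3, [0, 6, 0, 6]), (tv 1 4, [0, 6, 2, 6, 2, 0, 6, 2, 6, 2]), (tv 1 5, [0, 6, 2, 4, 2, 4, 6, 2, 4, 2, 4, 0, 6, 2, 4, 2, 4, 6, 2, 4, 2, 4]), (tv 2 1, [1]), (tv 2 3, [6]), (tv 2 4, [6, 2, 6, 2]), (tv 2 5, [6, 2, 4, 2, 4, 6, 2, 4, 2, 4]), (tv 3 4, [2]), (tv 3 5, [2, 4, 2, 4]), (tv 4 3, [3]), (tv 4 5, [4]), (tv 5 3, [5, 3, 5, 3]), (tv 5 4, [5])]) (by decide +kernel)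
  have h2 := A5.chain_le C5 (B := [(1, 3), (2, 2), (4, 28), (8, 24), (16, 16)]) h1 (by decide +kernel)
  obtain ⟨-, -, -, h3, -⟩ := orb_data
  have h4 := (MulAction.stabilizer GL5 (1 : Fin 1024)).card_mul_index
  rw [MulAction.index_stabilizer, h3, card_GL5] at h4
  rw [eq_of_le_of_card_ge h0 (le_trans (by omega) (show 64512 ≤ _ from h2)), ← wa_s]
  exact ⟨congrArg Fin.val, fun e => Fin.ext e⟩

/-- the unitriangular matrices -/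
noncomputable def ut (m : ℕ) : ℕ :=
  m5 (m5 (m5 (m5 (powC m5 i5 (tv 1 5) (bit m 6)) (powC m5 i5 (tv 2 5) (bit m 7)))
    (m5 (powC m5 i5 (tv 3 5) (bit m 8)) (powC m5 i5 (tv 4 5) (bit m 9))))
    (m5 (m5 (powC m5 i5 (tv 1 4) (bit m 3)) (powC m5 i5 (tv 2 4) (bit m 4))) (powC m5 i5 (tv 3 4) (bit m 5))))
    (m5 (m5 (powC m5 i5 (tv 1 3) (bit m 1)) (powC m5 i5 (tv 2 3) (bit m 2))) (powC m5 i5 (tv 1 2) (bit m 0)))

/-- generators of the unitriangular group -/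
def gU : List ℕ := [tv 1 2, tv 2 3, tv 3 4, tv 4 5]

theorem top_gU : ∀ c ∈ gU, Mem (gcode : GL5 → ℕ) ⊤ c := mem5s (by decide +kernel)

theorem mem_powC {X : Type*} [Group X] {ψ : X → ℕ} {mul : ℕ → ℕ → ℕ} {one : ℕ} (C : IsCode ψ mul one)
    {H : Subgroup X} {c : ℕ} (h : Mem ψ H c) (n : ℕ) : Mem ψ H (powC mul one c n) := by
  obtain ⟨g, hg, rfl⟩ := h
  exact ⟨g ^ n, pow_mem hg n, (C.powC_eq g n).symm⟩

theorem sound_ut (m : ℕ) : Mem (gcode : GL5 → ℕ) (gen gcode gU) (ut m) := by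
  have h := C5.mem_of_wordsB (mem_gen top_gU) (W := [(tv 1 2, [0]), (tv 1 3, [0, 1, 0, 1]), (tv 1 4, [0, 1, 2, 1, 2, 0, 1, 2, 1, 2]), (tv 1 5, [0, 1, 0, 1, 2, 3, 2, 3, 0, 1, 0, 1, 2, 3, 2, 3]), (tv 2 3, [1]), (tv 2 4, [1, 2, 1, 2]), (tv 2 5, [1, 2, 3, 2, 3, 1, 2, 3, 2, 3]), (tv 3 4, [2]), (tv 3 5, [2, 3, 2, 3]), (tv 4 5, [3])]) (by decide +kernel)
  simp only [List.map_cons, List.map_nil, List.forall_mem_cons] at h
  obtain ⟨a, b, c, d, e, f, g, i, j, k, -⟩ := h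
  exact C5.mem_mul (C5.mem_mul (C5.mem_mul (C5.mem_mul (mem_powC C5 d _) (mem_powC C5 g _))
    (C5.mem_mul (mem_powC C5 j _) (mem_powC C5 k _)))
    (C5.mem_mul (C5.mem_mul (mem_powC C5 c _) (mem_powC C5 f _)) (mem_powC C5 i _)))
    (C5.mem_mul (C5.mem_mul (mem_powC C5 b _) (mem_powC C5 e _)) (mem_powC C5 a _))

theorem ut_tab : ∀ m < 1024, (cl (ut m) 0 = 1 ∧ cl (ut m) 1 = 2 + m % 2 ∧ cl (ut m) 2 = 4 + m / 2 % 4 ∧
    cl (ut m) 3 = 8 + m / 8 % 8 ∧ cl (ut m) 4 = 16 + m / 64) ∧ ut m &&& 0x10c73df = i5 ∧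
    ∀ c ∈ gU, m5 c (ut m) &&& 0x10c73df = i5 := by
  have : allLt2 (fun m => force (ut m) fun u => Nat.beq (cl u 0) 1 && (Nat.beq (cl u 1) (2 + m % 2) &&
      (Nat.beq (cl u 2) (4 + m / 2 % 4) && (Nat.beq (cl u 3) (8 + m / 8 % 8) &&
      (Nat.beq (cl u 4) (16 + m / 64) && (Nat.beq (Nat.land u 0x10c73df) i5 &&
      lall (fun c => Nat.beq (Nat.land (m5 c u) 0x10c73df) i5) gU)))))) 32 32 = true := by
    decide +kernel
  intro m hm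
  have := allLt2_iff.1 this m hm
  simp only [force_eq, Bool.and_eq_true, Nat.beq_eq, lall_iff] at this
  obtain ⟨a, b, c, d, e, f, g⟩ := this
  exact ⟨⟨a, b, c, d, e⟩, f, g⟩

theorem exists_ut {g : GL5} (h : gcode g &&& 0x10c73df = i5) : ∃ m < 1024, gcode g = ut m := by
  rw [and_eq_iff (by norm_num) (by decide)] at h
  have t : ∀ x < 32, (x &&& 31 = 1 → x = 1) ∧ (x &&& 30 = 2 → 2 ≤ x ∧ x < 4) ∧
      (x &&& 28 = 4 → 4 ≤ x ∧ x < 8) ∧ (x &&& 24 = 8 → 8 ≤ x ∧ x < 16) ∧ (x &&& 16 = 16 → 16 ≤ x) := by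
    decide +kernel
  have a0 := (t _ (cl_lt _ 0)).1 (h 0 (by norm_num))
  have a1 := (t _ (cl_lt _ 1)).2.1 (h 1 (by norm_num))
  have a2 := (t _ (cl_lt _ 2)).2.2.1 (h 2 (by norm_num))
  have a3 := (t _ (cl_lt _ 3)).2.2.2.1 (h 3 (by norm_num))
  have a4 := (t _ (cl_lt _ 4)).2.2.2.2 (h 4 (by norm_num))
  have a5 := cl_lt (gcode g) 4
  have hm : cl (gcode g) 1 - 2 + 2 * (cl (gcode g) 2 - 4) + 8 * (cl (gcode g) 3 - 8) +
    64 * (cl (gcode g) 4 - 16) < 1024 := by omega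
  refine ⟨_, hm, ?_⟩
  obtain ⟨k, -, e⟩ := sound_ut (cl (gcode g) 1 - 2 + 2 * (cl (gcode g) 2 - 4) +
    8 * (cl (gcode g) 3 - 8) + 64 * (cl (gcode g) 4 - 16))
  obtain ⟨⟨b0, b1, b2, b3, b4⟩, -⟩ := ut_tab _ hm
  refine cl_ext (gcode5_lt g) (e ▸ gcode5_lt k) fun j hj => ?_
  interval_cases j <;> omega

theorem mem_gU (g : GL5) : g ∈ (gen gcode gU : Subgroup GL5) ↔ gcode g &&& 0x10c73df = i5 := by
  refine ⟨gen_induction (Q := fun g : GL5 => gcode g &&& 0x10c73df = i5)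
    (by rw [C5.map_one]; decide +kernel) (fun j hj s hs g hg => ?_) g, fun h => ?_⟩
  · obtain ⟨m, hm, e⟩ := exists_ut hg
    rw [← C5.map_mul, e, hs]
    exact (ut_tab m hm).2.2 _ (lget_mem hj)
  · obtain ⟨m, -, e⟩ := exists_ut h
    exact C5.mem_iff.1 (e ▸ sound_ut m)

theorem card_gU : Nat.card (gen gcode gU : Subgroup GL5) = 1024 :=
  C5.card_eq (f := ut) (fun m _ => sound_ut m) (fun g hg => exists_ut ((mem_gU g).1 hg))
    fun i hi j hj e => by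
      obtain ⟨⟨-, a1, a2, a3, a4⟩, -⟩ := ut_tab i hi
      obtain ⟨⟨-, b1, b2, b3, b4⟩, -⟩ := ut_tab j hj
      rw [e] at a1 a2 a3 a4
      omega

theorem words_A : ∀ k < 10, Mem ncode (gen ncode LTN) (nc (2 ^ k) i5) := by
  have h := CN.mem_of_wordsB (H := gen ncode LTN) (mem_gen (H := ⊤) fun c hc => memN (by
    have : lall isN LTN = true := by decide +kernel
    exact lall_iff.1 this c hc)) (W := [(nc 1 i5, [0, 2, 3, 2, 3, 0, 2, 3, 2, 3, 1, 2, 1, 2, 3, 4, 3, 4, 1, 2, 1, 2, 3, 4, 3, 4, 0, 2, 3, 2, 3, 0, 2, 3, 2, 3, 1, 2, 1, 2, 3, 4, 3, 4, 1, 2, 1, 2, 3, 4, 3, 4]), (nc 2 i5, [0, 3, 0, 3, 1, 2, 1, 2, 3, 4, 3, 4, 1, 2, 1, 2, 3, 4, 3, 4, 0, 3, 0, 3, 1, 2, 1, 2, 3, 4, 3, 4, 1, 2, 1, 2, 3, 4, 3, 4]), (nc 4 i5, [0, 1, 2, 1, 2, 3, 4, 3, 4, 1, 2, 1, 2, 3, 4, 3, 4, 0, 1, 2, 1, 2, 3, 4, 3, 4, 1, 2, 1, 2, 3, 4, 3, 4]), (nc 8 i5, [0, 1, 2, 3, 2, 3, 1, 2, 3,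 2, 3, 0, 1, 2, 3, 2, 3, 1, 2, 3, 2, 3]), (nc 16 i5, [0, 3, 0, 3, 2, 3, 4, 3, 4, 2, 3, 4, 3, 4, 0, 3, 0, 3, 2, 3, 4, 3, 4, 2, 3, 4, 3, 4]), (nc 32 i5, [0, 2, 3, 4, 3, 4, 2, 3, 4, 3, 4, 0, 2, 3, 4, 3, 4, 2, 3, 4, 3, 4]), (nc 64 i5, [0, 2, 3, 2, 3, 0, 2, 3, 2, 3]), (nc 128 i5, [0, 3, 4, 3, 4, 0, 3, 4, 3, 4]), (nc 256 i5, [0, 3, 0, 3]), (nc 512 i5, [0])]) (by decide +kernel)
  intro k hk
  refine h _ ?_
  interval_cases k <;> decide +kernel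

end CL.T10
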