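import Cfsg.Agent.SPOR.T10.ApiQ
import Cfsg.Agent.SPOR.T10.ApiO
import Cfsg.Agent.SOLV.Basic

/-!
The images of `A`, `T`, `C_N(s)`; the image of `C(s)` satisfies `XF`.
-/

set_option autoImplicit false
set_option maxRecDepth 100000

namespace CL.T10

open CL.K CL.CG CL.F2M CL.F24 CL.LX CL.MSS Subgroup Cfsg
open CL.J4P (Kv)

attribute [local irreducible] gcode vcode

variable {G : Type*} [Group G] {A : Subgroup G} {φ : NT →* G} {ρ : H1 φ →* GL12}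

namespace AM

theorem pre_of {g : G} {X : ℕ} {Y : Subgroup GL12} (k : Kv ρ g X) (m : Mem gcode Y X) : g ∈ pre ρ Y :=
  mem_pre.2 ⟨k.1, ApiG.of_mem m k.2⟩

theorem pre_mono {Y Z : Subgroup GL12} (h : Y ≤ Z) : pre ρ Y ≤ pre ρ Z := map_mono (comap_mono h)

theorem pre_le {Y : Subgroup GL12} : pre ρ Y ≤ H1 φ := map_subtype_le _

theorem ex_gen {K : Subgroup G} {L : List ℕ} (hL : ∀ c ∈ L, ∃ x ∈ K, Kv ρ x c) {y : GL12}
    (hy : y ∈ gen gcode L) : ∃ x ∈ K, Kv ρ x (gcode y) := by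
  have : gen gcode L ≤ (K.subgroupOf (H1 φ)).map ρ := C12.gen_le fun c hc => by
    obtain ⟨x, hx, k⟩ := hL c hc
    exact ⟨_, ⟨⟨x, k.1⟩, hx, rfl⟩, k.2⟩
  obtain ⟨x, hx, rfl⟩ := this hy
  exact ⟨x, hx, x.2, rfl⟩

theorem gm {L : List ℕ} (h : L ⊆ gY ++ [a34, a35, x35, xZ]) {c : ℕ} (hc : c ∈ L) :
    Mem (gcode : GL12 → ℕ) (gen gcode L) c := ApiG.gen_mem h c hc

theorem Q_le (h : CF A φ ρ) (Y : Subgroup GL12) : Qg φ ≤ pre ρ Y :=
  fun _ hx => pre_of (h.kv_Q hx) (C12.mem_one _)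

theorem kv_div {g k : G} {X : ℕ} (a : Kv ρ g X) (b : Kv ρ k X) : Kv ρ (g * k⁻¹) c1 :=
  ⟨mul_mem a.1 (inv_mem b.1), by
    rw [show (⟨g * k⁻¹, _⟩ : H1 φ) = ⟨g, a.1⟩ * ⟨k, b.1⟩⁻¹ from rfl, map_mul, map_inv,
      C12.inj (a.2.trans b.2.symm), mul_inv_cancel, C12.map_one]⟩

theorem all12 {p : ℕ → Prop} [DecidablePred p] (h : allLt2 (fun v => decide (p v)) 64 64 = true) :
    ∀ v < 4096, p v := fun v hv => of_decide_eq_true (allLt2_iff.1 h v hv)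

theorem Bf_xor (u u' v : ℕ) : Bf (u ^^^ u') v = Bf u v ^^^ Bf u' v := by
  change bt _ _ ^^^ bt _ _ = (bt _ _ ^^^ bt _ _) ^^^ (bt _ _ ^^^ bt _ _)
  rw [bt_xor, bt_xor', J4P.xor4]

/-- an isometry trivial on `Ā2` is an involution -/
theorem sq_of_fix {g : GL12} (hg : Iso g) (h : ∀ v < 4096, v &&& 0xe38 = 0 → sv g v = v) : g * g = 1 := by
  have t : ∀ x < 4096, (∀ w ∈ [1, 2, 4, 64, 128, 256], Bf x w = 0) → x &&& 0xe38 = 0 :=
    all12 (by decide +kernel)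
  have t2 : ∀ w ∈ [1, 2, 4, 64, 128, 256], w < 4096 ∧ w &&& 0xe38 = 0 := by decide
  refine sv_ext fun j hj => ?_
  have hu := pow12_lt hj
  have := h _ (xor12_lt (sv_lt g _) hu) (t _ (xor12_lt (sv_lt g _) hu) fun w hw => by
    rw [Bf_xor, ← hg.bf hu (t2 w hw).1, h w (t2 w hw).1 (t2 w hw).2, Nat.xor_self])
  rw [sv_xor g (sv_lt g _) hu] at this
  rw [sv_mul _ _ hu, sv_one hu]
  exact Nat.xor_right_injective (Nat.xor_comm _ _ ▸ this)

theorem syl_of {X : Type*} [Group X] [Finite X] {P H : Subgroup X} {k m : ℕ} (hle : P ≤ H)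
    (h1 : Nat.card P = 2 ^ k) (h2 : Nat.card H = 2 ^ k * m) (hm : Odd m) : SylIn 2 P H :=
  ⟨hle, IsPGroup.of_card h1, fun R hR a b => by
    obtain ⟨j, hj⟩ := IsPGroup.iff_card.1 hR
    have d := card_dvd_of_le b
    rw [hj, h2] at d
    have := Nat.le_of_dvd (Nat.two_pow_pos k)
      (((Nat.coprime_two_left.2 hm).pow_left j).dvd_of_dvd_mul_right d)
    exact (eq_of_le_of_card_ge a (by rwa [hj, h1])).symm⟩

/-- the images of the basis of `Q_z` -/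
def LZ : List ℕ := [c1, c1, c1, xS, c1, c1, c1, a34, a35, c1, x34, x35]

theorem kvZ (h : CF A φ ρ) {j : ℕ} (hj : j < 12) :
    Kv ρ (ll φ w23 * qq φ (2 ^ j &&& 0xdff) * (ll φ w23)⁻¹) (lget LZ j) := by
  have t : ∀ j < 12, kvB (nm (nm (nc 0 w23) (qc (2 ^ j &&& 0xdff))) (nc 0 w23)) (lget LZ j) = true := by
    decide +kernel
  have i : isN (nc 0 w23) = true := by decide +kernel
  have q := isN_qc (lt_of_le_of_lt (Nat.and_le_left (m := 0xdff)) (pow12_lt hj))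
  have := h.kv_el (t j hj)
  rw [el_mul (isN_nm i q) i, el_mul i q] at this
  rwa [inv_eq_of_mul_eq_one_right w_s.2.2]

theorem z_mem : zg φ ∈ Qg φ := qq_one (φ := φ) ▸ qq_mem (by norm_num)

theorem Qz (h : CF A φ ρ) {x : G} (hx : x ∈ ll φ w23 •ᶜ Qg φ) (hs : x * sg φ = sg φ * x) : x ∈ pre ρ ZB := by
  have zz : ∀ e : ℕ, ∀ y : G, ll φ w23 * (y * sg φ ^ e) * (ll φ w23)⁻¹ =
      ll φ w23 * y * (ll φ w23)⁻¹ * zg φ ^ e := fun e y => by
    rw [← w_s.1, conj_pow]; group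
  have m : ∀ v < 2 ^ 12, ll φ w23 * qq φ (v &&& 0xdff) * (ll φ w23)⁻¹ ∈ pre ρ ZB := by
    refine bits_ind (by rw [Nat.zero_and, qq_zero, mul_one, mul_inv_cancel]; exact one_mem _)
      (fun j hj => pre_of (kvZ h hj) ?_) fun a ha b hb pa pb => ?_
    · have : ∀ j < 12, lget LZ j = c1 ∨ lget LZ j ∈ gZ := by decide +kernel
      exact (this j hj).elim (fun e => e ▸ C12.mem_one _) (gm (by decide +kernel))
    · have e := zz _ _ ▸ congrArg (fun y => ll φ w23 * y * (ll φ w23)⁻¹)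
        (qq_mul (φ := φ) (lt_of_le_of_lt (Nat.and_le_left (m := 0xdff)) ha)
          (lt_of_le_of_lt (Nat.and_le_left (m := 0xdff)) hb))
      rw [Nat.and_xor_distrib_right, ← mul_mem_cancel_right (pow_mem (Q_le h _ z_mem) _), ← e]
      convert mul_mem pa pb using 1
      group
  obtain ⟨y, hy, rfl⟩ := mem_cj'.1 hx
  obtain ⟨v, hv, e, -, rfl⟩ := mem_Q'.1 hy
  have t : ∀ v < 4096, Bf v 1 = 0 → v &&& 0xdff = v := all12 (by decide +kernel)
  have c : qq φ v * qq φ 1 = qq φ 1 * qq φ v := by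
    have c1 : Commute (qq φ v * sg φ ^ e) (zg φ) := by
      have : ll φ w23 * (qq φ v * sg φ ^ e * zg φ) * (ll φ w23)⁻¹ =
          ll φ w23 * (zg φ * (qq φ v * sg φ ^ e)) * (ll φ w23)⁻¹ := by
        calc _ = ll φ w23 * (qq φ v * sg φ ^ e) * (ll φ w23)⁻¹ * (ll φ w23 * zg φ * (ll φ w23)⁻¹) := by group
          _ = ll φ w23 * zg φ * (ll φ w23)⁻¹ * (ll φ w23 * (qq φ v * sg φ ^ e) * (ll φ w23)⁻¹) := by
            rw [w_s.2.1, hs]
          _ = _ := by group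
      exact mul_left_cancel (mul_right_cancel this)
    have c2 : Commute (sg φ ^ e) (zg φ) := (show Commute (sg φ) (zg φ) from (Q_comm_s z_mem).symm).pow_left e
    rw [qq_one]
    simpa using (c1.mul_left c2.inv_left).eq
  rw [zz]
  exact mul_mem (t v hv ((h.toNF.qq_comm hv (by norm_num)).1 c) ▸ m v hv) (pow_mem (Q_le h _ z_mem) _)

end AM

namespace CF
variable (h : CF A φ ρ)
include h

theorem rm_A {x : G} (hx : x ∈ A) : Rm ρ AB x := by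
  have k := chk_kv
  simp only [Bool.and_eq_true] at k
  obtain ⟨a, ha, rfl⟩ := h.toNF.mem_A.1 hx
  refine mem_pre.1 (bits_ind (n := 10) (p := fun a => al φ a ∈ pre ρ AB) (al_zero (φ := φ) ▸ one_mem _)
    (fun j hj => ?_) (fun a ha b hb pa pb => al_xor (φ := φ) ha hb ▸ mul_mem pa pb) a ha)
  have g : gB ⊆ gY ++ [a34, a35, x35, xZ] := by decide +kernel
  by_cases h7 : j < 7
  · exact AM.Q_le h _ ((h.toNF.al_mem_Q (Nat.pow_lt_pow_right (a := 2) (by norm_num) hj)).2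
      (Nat.pow_lt_pow_right (a := 2) (by norm_num) h7))
  · obtain rfl | rfl | rfl : j = 7 ∨ j = 8 ∨ j = 9 := by omega
    exacts [AM.pre_of (h.kv_el k.1.1.2) (AM.gm g (by simp [gB])),
      AM.pre_of (h.kv_el k.1.2) (AM.gm g (by simp [gB])), AM.pre_of (h.kv_el k.2) (AM.gm g (by simp [gB]))]

theorem ex_A {y : GL12} (hy : y ∈ AB) : ∃ x ∈ A, Kv ρ x (gcode y) := by
  have k := chk_kv
  simp only [Bool.and_eq_true] at k
  refine AM.ex_gen (fun c hc => ?_) hy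
  simp only [gB, List.mem_cons, List.not_mem_nil, or_false] at hc
  rcases hc with rfl | rfl | rfl
  exacts [⟨_, h.toNF.al_mem (by norm_num), h.kv_el k.1.1.2⟩, ⟨_, h.toNF.al_mem (by norm_num), h.kv_el k.1.2⟩,
    ⟨_, h.toNF.al_mem (by norm_num), h.kv_el k.2⟩]

theorem rm_T {x : G} (hx : x ∈ Tg φ) : Rm ρ TB x := by
  have k := chk_kv
  simp only [Bool.and_eq_true] at k
  have g : gT ⊆ gY ++ [a34, a35, x35, xZ] := by decide +kernel
  refine mem_pre.1 (map_le_iff_le_comap.2 ((CN.gen_le_iff top_LTN).2 fun c hc => ?_) hx)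
  simp only [LTN, List.mem_cons, List.not_mem_nil, or_false] at hc
  rcases hc with rfl | rfl | rfl | rfl | rfl
  exacts [AM.pre_of (h.kv_el k.2) (AM.gm g (by simp [gT])),
    AM.pre_of (h.kv_el k.1.1.1.1.1.1.1.1.1) (AM.gm g (by simp [gT])),
    AM.pre_of (h.kv_el chk_kv'.2) (C12.mem_one _),
    AM.pre_of (h.kv_el k.1.1.1.1.1.1.1.2) (AM.gm g (by simp [gT])),
    AM.pre_of (h.kv_el k.1.1.1.1.1.2) (AM.gm g (by simp [gT]))]

theorem ex_T {y : GL12} (hy : y ∈ TB) : ∃ x ∈ Tg φ, Kv ρ x (gcode y) := by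
  have k := chk_kv
  simp only [Bool.and_eq_true] at k
  have m : ∀ c ∈ LTN, el φ c ∈ Tg φ := fun c hc => ⟨_, CN.elt_mem (mem_gen top_LTN c hc), rfl⟩
  refine AM.ex_gen (fun c hc => ?_) hy
  simp only [gT, List.mem_cons, List.not_mem_nil, or_false] at hc
  rcases hc with rfl | rfl | rfl | rfl
  exacts [⟨_, m _ (by simp [LTN]), h.kv_el k.1.1.1.1.1.1.1.1.1⟩, ⟨_, m _ (by simp [LTN]), h.kv_el k.1.1.1.1.1.1.1.2⟩,
    ⟨_, m _ (by simp [LTN]), h.kv_el k.1.1.1.1.1.2⟩, ⟨_, m _ (by simp [LTN]), h.kv_el k.2⟩]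

/-- PROOF. `wa_s`, `mem_gP`, `chk_kv`; `t23 ∈ Q`. -/
theorem rm_M (n : NT) (hn : φ n * sg φ = sg φ * φ n) : Rm ρ MB (φ n) := by
  have k := chk_kv
  simp only [Bool.and_eq_true] at k
  have g : gM ⊆ gY ++ [a34, a35, x35, xZ] := by decide +kernel
  rw [phi_eq n, ll_code, ← mem_pre]
  refine mul_mem (AM.pre_mono (le_chain.1.trans le_chain.2.2.2.1)
    (mem_pre.2 (h.rm_A (h.toNF.al_mem n.lt)))) ?_
  have : (gen gcode gP : Subgroup GL5) ≤ (pre ρ MB).comap (φ.comp inl5) :=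
    (C5.gen_le_iff top_gP).2 fun c hc => by
      change φ (inl5 _) ∈ pre ρ MB
      rw [← ll_code, (top_gP c hc).code_elt]
      simp only [gP, List.mem_cons, List.not_mem_nil, or_false] at hc
      rcases hc with rfl | rfl | rfl | rfl | rfl | rfl | rfl
      exacts [AM.pre_of (h.kv_el k.1.1.1.1.1.1.1.1.1) (AM.gm g (by simp [gM])),
        AM.pre_of (h.kv_el chk_kv'.1) (C12.mem_mul (AM.gm g (by simp [gM])) (AM.gm g (by simp [gM]))),
        AM.pre_of (h.kv_el k.1.1.1.1.1.1.1.2) (AM.gm g (by simp [gM])),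
        AM.pre_of (h.kv_el k.1.1.1.1.2) (AM.gm g (by simp [gM])),
        AM.pre_of (h.kv_el k.1.1.1.1.1.2) (AM.gm g (by simp [gM])),
        AM.pre_of (h.kv_el k.1.1.1.2) (AM.gm g (by simp [gM])), AM.pre_of (h.kv_el chk_kv'.2) (C12.mem_one _)]
  exact this ((mem_gP _).2 ((h.toNF.comm_s_iff n).1 hn))

theorem ex_M {y : GL12} (hy : y ∈ MB) : ∃ n, Kv ρ (φ n) (gcode y) := by
  have k := chk_kv
  simp only [Bool.and_eq_true] at k
  obtain ⟨_, ⟨n, rfl⟩, e⟩ := AM.ex_gen (ρ := ρ) (K := φ.range) (fun c hc => by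
    simp only [gM, List.mem_cons, List.not_mem_nil, or_false] at hc
    rcases hc with rfl | rfl | rfl | rfl | rfl | rfl | rfl
    exacts [⟨_, ⟨_, rfl⟩, h.kv_el k.1.1.1.1.1.1.1.1.1⟩, ⟨_, ⟨_, rfl⟩, h.kv_el k.1.1.1.1.1.1.1.1.2⟩,
      ⟨_, ⟨_, rfl⟩, h.kv_el k.1.1.1.1.1.1.1.2⟩, ⟨_, ⟨_, rfl⟩, h.kv_el k.1.1.1.1.1.2⟩,
      ⟨_, ⟨_, rfl⟩, h.kv_el k.1.1.1.1.2⟩, ⟨_, ⟨_, rfl⟩, h.kv_el k.1.1.1.2⟩, ⟨_, ⟨_, rfl⟩, h.kv_el k.2⟩]) hy
  exact ⟨n, e⟩

/-- PROOF. `frattini_A2`: `g = c * φ n`, `φ n ∈ H1`, so `c ∈ C = H1 ⊓ C(A2)`. An isometry trivial on the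
maximal totally singular `Ā2` is trivial on `Q̄ / Ā2`, so `ρ(C)` is a 2-group (exponent 2); `A` is a Sylow
2-subgroup of `C` (`cent_A2`), hence `ρ(C) = ρ(A)`. -/
theorem stab [Finite G] (g : H1 φ) (hg : P2 (ρ g)) : ρ g ∈ MB := by
  have nf := h.toNF
  obtain ⟨c, hc, n, e⟩ := nf.frattini_A2 ((h.P2_iff g).1 hg)
  have cs : c * sg φ = sg φ * c := al_one (φ := φ) ▸ hc 1 (by norm_num)
  have ns : φ n * sg φ = sg φ * φ n := by
    have := (mem_H1.1 g.2).1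
    rw [e, mul_assoc, ← mul_assoc (sg φ), ← cs, mul_assoc] at this
    exact mul_left_cancel this
  have nM := mem_pre.2 (h.rm_M n ns)
  have cH : c ∈ H1 φ := by
    rw [← mul_mem_cancel_right (AM.pre_le nM), ← e]; exact g.2
  have AH : A ≤ H1 φ := fun x hx => (h.rm_A hx).1
  have s := ((nf.syl_A2.inf_of_le AH).subgroupOf inf_le_right).map ρ
  have e2 := s.eq_of_isPGroup (by
    rintro ⟨_, k, hk, rfl⟩
    refine ⟨1, Subtype.ext ?_⟩
    rw [pow_one, pow_two]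
    refine AM.sq_of_fix (h.iso k) fun v hv m => ?_
    have := h.conj k v hv
    have c : qq φ v * k = k * qq φ v := hk.1 _ ⟨_, (NF.qa_lt' hv m).trans (by norm_num), (qq_al hv m).symm⟩
    rw [← c, mul_inv_cancel_right] at this
    exact (nf.qq_inj hv (sv_lt _ _) this).symm)
  have : ρ ⟨c, cH⟩ ∈ (A.subgroupOf (H1 φ)).map ρ := by
    rw [e2]
    exact ⟨_, mem_inf.2 ⟨by rintro _ ⟨a, ha, rfl⟩; exact (hc a ha).symm, cH⟩, rfl⟩
  obtain ⟨a, ha, e3⟩ := this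
  have cM : c ∈ pre ρ MB := mem_pre.2 ⟨cH, e3 ▸ (le_chain.1.trans le_chain.2.2.2.1) (h.rm_A ha).2⟩
  exact (mem_pre.1 (e ▸ mul_mem cM nM : (g : G) ∈ pre ρ MB)).2

end CF

namespace BF
variable [Finite G] (h : BF A φ ρ)
include h

theorem pre_M : pre ρ MB = normalizer (A : Set G) ⊓ centralizer {sg φ} := by
  have nf := h.toNF
  refine le_antisymm (fun g hg => ?_) fun g hg => ?_
  · obtain ⟨g1, g2⟩ := mem_pre.1 hg
    obtain ⟨n, k⟩ := h.toCF.ex_M g2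
    refine mem_inf.2 ⟨?_, mem_centralizer_singleton_iff.2 (h.mem_H.1 g1)⟩
    rw [← mul_mem_cancel_right (inv_mem (nf.phi_mem n))]
    exact nf.T_le_N (nf.Q_le_T (h.ker.1 (AM.kv_div ⟨g1, rfl⟩ k)))
  · obtain ⟨n, rfl⟩ := nf.mem_N.1 hg.1
    exact mem_pre.2 (h.toCF.rm_M n (mem_centralizer_singleton_iff.1 hg.2))

theorem pre_T : pre ρ TB = Tg φ := by
  refine le_antisymm (fun g hg => ?_) fun g hg => mem_pre.2 (h.toCF.rm_T hg)
  obtain ⟨g1, g2⟩ := mem_pre.1 hg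
  obtain ⟨x, hx, k⟩ := h.toCF.ex_T g2
  rw [← mul_mem_cancel_right (inv_mem hx)]
  exact h.toNF.Q_le_T (h.ker.1 (AM.kv_div ⟨g1, rfl⟩ k))

theorem card_pre {Y : Subgroup GL12} (hY : Y ≤ ρ.range) : Nat.card (pre ρ Y) = 2 ^ 13 * Nat.card Y := by
  have e := card_map_mul_card_inf_ker (Y.comap ρ) ρ
  have k : ρ.ker = (Qg φ).subgroupOf (H1 φ) := by
    ext g
    rw [MonoidHom.mem_ker, mem_subgroupOf, ← h.ker]
    exact ⟨fun e => ⟨g.2, by rw [show (⟨g, g.2⟩ : H1 φ) = g from rfl, e, C12.map_one]⟩,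
      fun e => C12.inj (e.2.trans C12.map_one.symm)⟩
  rw [map_comap_eq_self hY, inf_of_le_right (ker_le_comap ρ Y), k, card_subgroupOf_of_le Q_le_H1,
    h.toNF.card_Q] at e
  rw [pre, card_subtype, ← e, mul_comm]

/-- PROOF of `nz`. With `w = ll φ w23`, `Q_z = w Q w⁻¹`; the image of `C_(Q_z)(s)` is `ZB` (lifts `t12`,
`e34`, `e35`, `t34`, `t35`; compute with codes). If `ρ g` fixes the vector 1 then `g z g⁻¹ ∈ {z, z s}`, so
`q g` centralises `z` for some `q ∈ Q`; it normalises `Q_z` (`LX.norm` conjugated) and centralises `s`. -/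
theorem xf : XF ρ.range := by
  refine ⟨fun y hy => ?_, by rintro _ ⟨g, rfl⟩; exact h.toCF.iso g, by rintro _ ⟨g, rfl⟩; exact h.toCF.stab g, ?_⟩
  · obtain ⟨n, k⟩ := h.toCF.ex_M hy
    exact ⟨_, C12.inj k.2⟩
  rintro _ ⟨g, rfl⟩ e u hu
  obtain ⟨k, hk, e1⟩ : ∃ k : H1 φ, (k : G) * zg φ = zg φ * k ∧ ρ k = ρ g := by
    have := h.conj g 1 (by norm_num)
    rw [e, qq_one] at this
    rcases this with i | i
    · exact ⟨g, mul_inv_eq_iff_eq_mul.1 i, rfl⟩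
    · obtain ⟨q, hq, j⟩ := h.lx.toES.exists_conj_eq_mul AM.z_mem h.toNF.z_ne.1 h.toNF.z_ne.2
      refine ⟨(⟨q, Q_le_H1 hq⟩ : H1 φ)⁻¹ * g, ?_, by
        rw [map_mul, map_inv, C12.inj ((h.toCF.kv_Q hq).2.trans C12.map_one.symm), inv_one, one_mul]⟩
      change q⁻¹ * g * zg φ = zg φ * (q⁻¹ * g)
      calc _ = q⁻¹ * (g * zg φ * (g : G)⁻¹) * g := by group
        _ = _ := by rw [i, ← j]; group
  obtain ⟨x, hx, kx⟩ := AM.ex_gen (ρ := ρ) (K := ll φ w23 •ᶜ Qg φ) (fun c hc => by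
    obtain ⟨j, hj, rfl⟩ := (by decide +kernel : ∀ c ∈ gZ, ∃ j < 12, lget AM.LZ j = c) c hc
    exact ⟨_, conj_mem_cj (qq_mem (lt_of_le_of_lt Nat.and_le_left (pow12_lt hj))), AM.kvZ h.toCF hj⟩) hu
  have lz := h.lx.conj (ll φ w23)
  rw [w_s.1] at lz
  have := (mem_pre.1 (AM.Qz h.toCF (lz.norm k hk x hx) (h.mem_H.1 (k * ⟨x, kx.1⟩ * k⁻¹).2))).2
  rwa [show (⟨k * x * (k : G)⁻¹, _⟩ : H1 φ) = k * ⟨x, kx.1⟩ * k⁻¹ from rfl, map_mul, map_mul, map_inv, e1,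
    C12.inj kx.2] at this

/-- PROOF. The fixed space of the image of `P` is non-zero (2-group) and invariant under the whole image;
`inv_MB` and `XF.stab`. -/
theorem o2 (hne : ρ.range ≠ MB) {P : Subgroup G} (hP : IsPGroup 2 P) (h1 : ∀ x ∈ P, x * sg φ = sg φ * x)
    (h2 : ∀ c : G, c * sg φ = sg φ * c → ∀ x ∈ P, c * x * c⁻¹ ∈ P) : P ≤ Qg φ := by
  have PH : P ≤ H1 φ := fun x hx => h.mem_H.2 (h1 x hx)
  let B : Subgroup GL12 := (P.subgroupOf (H1 φ)).map ρ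
  have hB : IsPGroup 2 B := (hP.comap_subtype (K := H1 φ)).map ρ
  let p : Submodule (ZMod 2) W :=
    { carrier := {v | ∀ b ∈ B, b • v = v}
      add_mem' := fun ha hb b m => by rw [smul_add, ha b m, hb b m]
      zero_mem' := fun b _ => smul_zero b
      smul_mem' := fun c v hv b m => by rw [smul_comm, hv b m] }
  have inv : ∀ g ∈ ρ.range, ∀ v ∈ p, g • v ∈ p := by
    rintro _ ⟨g, rfl⟩ v hv _ ⟨b, m, rfl⟩
    have := hv (ρ (g⁻¹ * b * g⁻¹⁻¹)) ⟨_, h2 _ (h.mem_H.1 g⁻¹.2) b m, rfl⟩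
    rw [inv_inv, map_mul, map_mul, map_inv, mul_smul, mul_smul, inv_smul_eq_iff] at this
    exact this
  rcases inv_MB p (fun g hg => inv g (h.xf.le hg)) with e | e | e
  · obtain ⟨v, hv, h0⟩ := hB.exists_fixed_point_of_prime_dvd_card_of_fixed_point W
      (by rw [Nat.card_fun, Nat.card_zmod, Nat.card_fin]; norm_num) (a := 0) fun b => smul_zero _
    have : v ∈ p := fun b m => hv ⟨b, m⟩
    rw [e] at this
    exact absurd this.symm h0
  · intro x hx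
    refine h.ker.1 ⟨PH hx, ?_⟩
    rw [← C12.map_one]
    refine congrArg gcode (sv_ext fun j hj => ?_)
    rw [ApiG.sv_code _ (pow12_lt hj), ApiG.sv_code _ (pow12_lt hj), one_smul,
      (e ▸ Submodule.mem_top : vdec 12 (2 ^ j) ∈ p) _ ⟨_, hx, rfl⟩]
  · refine absurd (le_antisymm (fun g hg => h.xf.stab g hg fun v hv m => ?_) h.xf.le) hne
    rw [ApiG.sv_code _ hv]
    exact (e _).1 (inv g hg _ ((e _).2 (by rwa [vcode_vdec (n := 12) hv])))

theorem o2c (hne : ρ.range ≠ MB) : O2C (sg φ) = Qg φ :=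
  le_antisymm (h.o2 hne (oP_isPGroup _) (fun _ hx => mem_centralizer_singleton_iff.1 (O2C_le _ hx))
    fun _ hc x hx => (mem_normalizer_iff.1 (centralizer_le_normalizer_O2C _
      (mem_centralizer_singleton_iff.2 hc)) x).1 hx)
    (le_O2C h.lx.toES.isPGroup (fun _ hx => mem_centralizer_singleton_iff.2 (Q_comm_s hx))
      fun _ hc => h.lx.mem_normalizer (mem_centralizer_singleton_iff.1 hc))

theorem syl_of {Y : Subgroup GL12} {k m : ℕ} (hY : Y ≤ ρ.range) (h1 : Nat.card Y = 2 ^ k)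
    (h2 : Nat.card ρ.range = 2 ^ k * m) (hm : Odd m) : SylIn 2 (pre ρ Y) ⊤ := by
  have s : SylIn 2 (pre ρ Y) (pre ρ ρ.range) := AM.syl_of (k := 13 + k) (AM.pre_mono hY)
    (by rw [h.card_pre hY, h1, pow_add]) (by rw [h.card_pre le_rfl, h2, pow_add, mul_assoc]) hm
  exact ⟨le_top, s.pgroup, fun R hR a _ => s.max R hR a fun x hx =>
    mem_pre.2 ⟨h.mem_H.2 (h.lx.sylow_le hR ((AM.Q_le h.toCF Y).trans a) x hx), _, rfl⟩⟩

/-- PROOF. A Sylow 2-subgroup of `C(s)` is one of `G` (`LX.sylow_le`), and the index of `TB` is odd. -/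
theorem syl_G (hX : ρ.range = MB ∨ ρ.range = YA) : SylIn 2 (Tg φ) ⊤ := by
  rw [← h.pre_T]
  rcases hX with e | e
  · exact h.syl_of (k := 7) (m := 63) (le_chain.2.2.2.1.trans h.xf.le) cards.2.2.1 (e ▸ card_MB)
      (by decide)
  · exact h.syl_of (k := 7) (m := 945) (le_chain.2.2.2.1.trans h.xf.le) cards.2.2.1 (e ▸ card_YA)
      (by decide)

theorem syl_S (hX : ρ.range = YS) : SylIn 2 (pre ρ SB) ⊤ :=
  h.syl_of (k := 8) (m := 945) (hX ▸ le_chain.2.2.2.2.2.2.2) cards.2.2.2 (hX ▸ card_YS) (by decide)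

end BF

end CL.T10
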