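import Cfsg.Agent.SPOR.T10.ApiL

/-!
Elements of the normaliser by codes; the subgroups `A` and `T`.
-/

set_option autoImplicit false
set_option maxRecDepth 100000

namespace CL.T10

open CL.K CL.CG CL.F2M CL.F24 CL.LX CL.MSS Subgroup Cfsg
open CL.J4P (Kv)

attribute [local irreducible] gcode vcode

variable {G : Type*} [Group G] {A : Subgroup G} {φ : NT →* G} {ρ : H1 φ →* GL12}

theorem isN_code (n : NT) : isN (ncode n) = true := by
  rw [isN, ncode, nc_shift n.lt]; exact isG_code _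

theorem isN_nc {a g : ℕ} (ha : a < 1024) (hg : isG g = true) : isN (nc a g) = true := by
  rw [isN, nc_shift ha]; exact hg

theorem isN_nm {c d : ℕ} (hc : isN c = true) (hd : isN d = true) : isN (nm c d) = true := by
  obtain ⟨n, -, e⟩ := CN.mem_mul (memN hc) (memN hd)
  exact e ▸ isN_code n

theorem isG_i5 : isG i5 = true := by decide +kernel

theorem isG_m5 {g k : ℕ} (hg : isG g = true) (hk : isG k = true) : isG (m5 g k) = true := by
  obtain ⟨n, -, e⟩ := C5.mem_mul (mem5 hg) (mem5 hk)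
  exact e ▸ isG_code n

theorem isG_rc : ∀ u < 64, isG (rc u) = true := by decide +kernel

theorem qc_eq : ∀ v < 4096, qc v = nc (2 * (v &&& 7) + 16 * (v >>> 6 &&& 7))
    (rc ((v >>> 3 &&& 7) + 8 * (v >>> 9))) := by
  have : allLt2 (fun v => Nat.beq (qc v) (nc (2 * (v &&& 7) + 16 * (v >>> 6 &&& 7))
    (rc ((v >>> 3 &&& 7) + 8 * (v >>> 9))))) 64 64 = true := by decide +kernel
  exact fun v hv => eq_of_beq (allLt2_iff.1 this v hv)

theorem qa_lt (v : ℕ) : 2 * (v &&& 7) + 16 * (v >>> 6 &&& 7) < 128 := by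
  have : v &&& 7 ≤ 7 := Nat.and_le_right
  have : v >>> 6 &&& 7 ≤ 7 := Nat.and_le_right
  omega

theorem qr_lt {v : ℕ} (hv : v < 4096) : (v >>> 3 &&& 7) + 8 * (v >>> 9) < 64 := by
  have : v >>> 3 &&& 7 ≤ 7 := Nat.and_le_right
  rw [Nat.shiftRight_eq_div_pow v 9]
  omega

theorem isN_qc {v : ℕ} (hv : v < 4096) : isN (qc v) = true := by
  rw [qc_eq v hv]
  exact isN_nc ((qa_lt v).trans (by norm_num)) (isG_rc _ (qr_lt hv))

theorem el_code (n : NT) : el φ (ncode n) = φ n := by rw [el, CN.elt_code]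

theorem el_mul {c d : ℕ} (hc : isN c = true) (hd : isN d = true) :
    el φ (nm c d) = el φ c * el φ d := by rw [el, CN.elt_mul (memN hc) (memN hd), map_mul, el, el]

theorem el_one : el φ n1 = 1 := by rw [el, CN.elt_one, map_one]

theorem el_inv {c d : ℕ} (hc : isN c = true) (hd : isN d = true) (e : nm c d = n1) :
    (el φ c)⁻¹ = el φ d := inv_eq_of_mul_eq_one_right (by rw [← el_mul hc hd, e, el_one])

theorem m5_one {g : ℕ} (hg : isG g = true) : m5 i5 g = g ∧ m5 g i5 = g := by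
  rw [← code_E5 hg, ← C5.map_one, C5.map_mul, C5.map_mul, one_mul, mul_one]
  exact ⟨rfl, rfl⟩

theorem el_nc {a g : ℕ} (ha : a < 1024) (hg : isG g = true) : el φ (nc a g) = al φ a * ll φ g := by
  rw [al, ll, ← el_mul (isN_nc ha isG_i5) (isN_nc (by norm_num) hg), nm_nc ha (by norm_num), wa_zero,
    Nat.xor_zero, (m5_one hg).1]

theorem al_xor {a b : ℕ} (ha : a < 1024) (hb : b < 1024) : al φ (a ^^^ b) = al φ a * al φ b := by
  rw [al, al, al, ← el_mul (isN_nc ha isG_i5) (isN_nc hb isG_i5), nm_nc ha hb, wa_one hb,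
    (m5_one isG_i5).1]

theorem al_zero : al φ 0 = 1 := el_one

theorem al_one : al φ 1 = sg φ := rfl

theorem al_two : al φ 2 = zg φ := rfl

theorem al_sq {a : ℕ} (ha : a < 1024) : al φ a * al φ a = 1 := by
  rw [← al_xor ha ha, Nat.xor_self, al_zero]

theorem al_comm {a b : ℕ} (ha : a < 1024) (hb : b < 1024) : al φ a * al φ b = al φ b * al φ a := by
  rw [← al_xor ha hb, ← al_xor hb ha, Nat.xor_comm]

theorem al_eq {a : ℕ} (ha : a < 1024) : al φ a = φ ⟨a, 1, ha⟩ := by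
  rw [← el_code, ncode, C5.map_one, al]

theorem ll_code (g : GL5) : ll φ (gcode g) = φ (inl5 g) := el_code (inl5 g)

theorem ll_mul {g k : ℕ} (hg : isG g = true) (hk : isG k = true) :
    ll φ (m5 g k) = ll φ g * ll φ k := by
  rw [ll, ll, ll, ← el_mul (isN_nc (by norm_num) hg) (isN_nc (by norm_num) hk),
    nm_nc (by norm_num) (by norm_num), wa_zero, Nat.xor_zero]

theorem ll_one : ll φ i5 = 1 := el_one

theorem phi_eq (n : NT) : φ n = al φ n.a * ll φ (gcode n.g) := by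
  rw [← el_code, ncode, el_nc n.lt (isG_code _)]

theorem conj_al' (n : NT) {a : ℕ} (ha : a < 1024) :
    φ n * al φ a * (φ n)⁻¹ = al φ (wa (gcode n.g) a) := by
  rw [al_eq ha, al_eq (wa_lt _ _), mul_inv_eq_iff_eq_mul, ← map_mul, ← map_mul]
  refine congrArg φ (NT.ext ?_ ?_)
  · simp only [NT.mul_a]
    rw [C5.map_one, wa_one n.lt, Nat.xor_comm]
  · simp only [NT.mul_g, mul_one, one_mul]

theorem code_g {c : ℕ} (hc : isN c = true) : gcode (elt ncode c).g = c >>> 10 := by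
  conv_rhs => rw [← (memN hc).code_elt]
  exact (nc_shift (elt ncode c).lt _).symm

theorem conj_al {c a : ℕ} (hc : isN c = true) (ha : a < 1024) :
    el φ c * al φ a * (el φ c)⁻¹ = al φ (wa (c >>> 10) a) := by
  rw [el, conj_al' _ ha, code_g hc]

theorem conj_ll {g a : ℕ} (hg : isG g = true) (ha : a < 1024) :
    ll φ g * al φ a * (ll φ g)⁻¹ = al φ (wa g a) := by
  rw [ll, conj_al (isN_nc (by norm_num) hg) ha]
  exact congrArg (fun x => al φ (wa x a)) (nc_shift (by norm_num) g)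

theorem w_s : ll φ w23 * sg φ * (ll φ w23)⁻¹ = zg φ ∧ ll φ w23 * zg φ * (ll φ w23)⁻¹ = sg φ ∧
    ll φ w23 * ll φ w23 = 1 := by
  have hw : isG w23 = true := by decide +kernel
  refine ⟨?_, ?_, ?_⟩
  · rw [← al_one, conj_ll hw (by norm_num), show wa w23 1 = 2 by decide +kernel, al_two]
  · rw [← al_two, conj_ll hw (by norm_num), show wa w23 2 = 1 by decide +kernel, al_one]
  · rw [← ll_mul hw hw, show m5 w23 w23 = i5 by decide +kernel, ll_one]

theorem top_LTN : ∀ c ∈ LTN, Mem ncode ⊤ c := fun c hc => memN (by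
  have : lall isN LTN = true := by decide +kernel
  exact lall_iff.1 this c hc)

/-- induction over the bits -/
theorem bits_ind {n : ℕ} {p : ℕ → Prop} (h0 : p 0) (hb : ∀ i < n, p (2 ^ i))
    (hx : ∀ a < 2 ^ n, ∀ b < 2 ^ n, p a → p b → p (a ^^^ b)) : ∀ a < 2 ^ n, p a := by
  have key : ∀ m ≤ n, ∀ a < 2 ^ m, p a := by
    intro m
    induction m with
    | zero =>
      intro _ a ha
      obtain rfl : a = 0 := by simpa using ha
      exact h0
    | succ m ih =>
      intro hm a ha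
      by_cases hl : a < 2 ^ m
      · exact ih (by omega) a hl
      have hp : 2 ^ m < 2 ^ n := Nat.pow_lt_pow_right (by norm_num) hm
      have hb' : a ^^^ 2 ^ m < 2 ^ m := by
        refine Nat.lt_pow_two_of_testBit _ fun i hi => ?_
        rw [Nat.testBit_xor]
        rcases Nat.eq_or_lt_of_le hi with rfl | hi
        · rw [Nat.testBit_two_pow_self, Nat.testBit_of_two_pow_le_and_two_pow_add_one_gt (not_lt.1 hl) ha]
          rfl
        · rw [Nat.testBit_two_pow_of_ne (by omega),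
            Nat.testBit_lt_two_pow (ha.trans_le (Nat.pow_le_pow_right (by norm_num) hi))]
          rfl
      have e : a = (a ^^^ 2 ^ m) ^^^ 2 ^ m := by rw [Nat.xor_assoc, Nat.xor_self, Nat.xor_zero]
      rw [e]
      exact hx _ (hb'.trans hp) _ hp (ih (by omega) _ hb') (hb m hm)
  exact key n le_rfl

theorem mem_of_basis {K : Subgroup NT} (h : ∀ k < 10, Mem ncode K (nc (2 ^ k) i5)) {a : ℕ} (ha : a < 1024) :
    (⟨a, 1, ha⟩ : NT) ∈ K := by
  have := bits_ind (n := 10) (p := fun a => al (MonoidHom.id NT) a ∈ K) (by rw [al_zero]; exact one_mem _)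
    (fun i hi => CN.elt_mem (h i hi)) (fun a ha b hb x y => by rw [al_xor ha hb]; exact mul_mem x y) a ha
  rwa [al_eq ha] at this

theorem NT.eq_mul (n : NT) : n = (⟨n.a, 1, n.lt⟩ : NT) * inl5 n.g := by
  have := phi_eq (φ := MonoidHom.id NT) n
  rwa [al_eq n.lt, ll_code] at this

theorem TT_eq : gen ncode LTN = (gen gcode gU : Subgroup GL5).comap prj := by
  refine le_antisymm ((CN.gen_le_iff top_LTN).2 fun c hc => (mem_gU _).2 ?_) fun n hn => ?_
  · have : ∀ c ∈ LTN, isN c = true ∧ c >>> 10 &&& 0x10c73df = i5 := by decide +kernel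
    change gcode (elt ncode c).g &&& _ = _
    rw [code_g (this c hc).1, (this c hc).2]
  · rw [n.eq_mul]
    refine mul_mem (mem_of_basis words_A _) ?_
    have : (gen gcode gU : Subgroup GL5) ≤ (gen ncode LTN).comap inl5 :=
      (C5.gen_le_iff top_gU).2 fun c hc => subset_closure (by
        have : ∀ c ∈ gU, nc 0 c ∈ LTN := by decide +kernel
        change nc 0 (gcode (elt gcode c : GL5)) ∈ LTN
        rw [(top_gU c hc).code_elt]; exact this c hc)
    exact this hn

/-- unitriangular linear part -/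
theorem mem_TT (n : NT) : n ∈ gen ncode LTN ↔ gcode n.g &&& 0x10c73df = i5 := by
  rw [TT_eq, ← mem_gU]; rfl

theorem card_comap (K : Subgroup GL5) : Nat.card (K.comap prj) = 1024 * Nat.card K := by
  rw [← Nat.card_fin 1024, ← Nat.card_prod]
  exact Nat.card_congr
    { toFun := fun n => (⟨n.1.a, n.1.lt⟩, ⟨n.1.g, n.2⟩)
      invFun := fun p => ⟨⟨p.1, p.2, p.1.2⟩, p.2.2⟩
      left_inv := fun _ => rfl
      right_inv := fun _ => rfl }

theorem isN_LQ : ∀ c ∈ LQ, isN c = true := by decide +kernel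

namespace NF
variable (h : NF A φ)
include h

theorem el_inj {c d : ℕ} (hc : isN c = true) (hd : isN d = true) (e : el φ c = el φ d) : c = d :=
  elt_inj (memN hc) (memN hd) (h.inj e)

theorem al_inj {a b : ℕ} (ha : a < 1024) (hb : b < 1024) (e : al φ a = al φ b) : a = b := by
  rw [al_eq ha, al_eq hb] at e
  exact congrArg NT.a (h.inj e)

theorem mem_N {x : G} : x ∈ normalizer (A : Set G) ↔ ∃ n, φ n = x := by rw [← h.range]; rfl

theorem phi_mem (n : NT) : φ n ∈ normalizer (A : Set G) := h.mem_N.2 ⟨n, rfl⟩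

theorem el_mem {c : ℕ} : el φ c ∈ normalizer (A : Set G) := h.phi_mem _

theorem al_mem {a : ℕ} (ha : a < 1024) : al φ a ∈ A := al_eq (φ := φ) ha ▸ (h.mem _).2 rfl

theorem mem_A {x : G} : x ∈ A ↔ ∃ a < 1024, al φ a = x := by
  refine ⟨fun hx => ?_, by rintro ⟨a, ha, rfl⟩; exact h.al_mem ha⟩
  obtain ⟨n, rfl⟩ := h.mem_N.1 (le_normalizer hx)
  exact ⟨n.a, n.lt, by rw [phi_eq n, (h.mem n).1 hx, C5.map_one, ll_one, mul_one]⟩

theorem A_eq : A = ((⊥ : Subgroup GL5).comap prj).map φ := by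
  ext x
  refine ⟨fun hx => ?_, by rintro ⟨n, hn, rfl⟩; exact (h.mem n).2 hn⟩
  obtain ⟨n, rfl⟩ := h.mem_N.1 (le_normalizer hx)
  exact ⟨n, (h.mem n).1 hx, rfl⟩

theorem card_A : Nat.card A = 2 ^ 10 := by
  rw [h.A_eq, card_map_of_injective h.inj, card_comap, card_bot]; norm_num

theorem card_N : Nat.card (normalizer (A : Set G)) = 2 ^ 20 * 9765 := by
  rw [← h.range, MonoidHom.range_eq_map, card_map_of_injective h.inj, ← comap_top prj, card_comap,
    card_top, card_GL5]; norm_num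

theorem comm_A {x y : G} (hx : x ∈ A) (hy : y ∈ A) : x * y = y * x := by
  obtain ⟨a, ha, rfl⟩ := h.mem_A.1 hx
  obtain ⟨b, hb, rfl⟩ := h.mem_A.1 hy
  exact al_comm ha hb

theorem mem_of_comm {n : NT} (hc : ∀ a < 128, φ n * al φ a = al φ a * φ n) : φ n ∈ A :=
  (h.mem n).2 (eq_one_of_fix fun a ha => h.al_inj (wa_lt _ _) (by omega) (by
    rw [← conj_al' n (by omega), hc a ha, mul_inv_cancel_right]))

theorem cent_A : centralizer (A : Set G) = A := by
  refine le_antisymm (fun x hx => ?_) fun x hx y hy => h.comm_A hy hx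
  obtain ⟨n, rfl⟩ := h.mem_N.1 (centralizer_le_normalizer _ hx)
  exact h.mem_of_comm fun a ha => (hx _ (h.al_mem (by omega))).symm

/-- `A` is a minimal normal subgroup of its normaliser -/
theorem irr {B : Subgroup G} (hB : B ≤ A) (hn : normalizer (A : Set G) ≤ normalizer (B : Set G)) :
    B = ⊥ ∨ B = A := by
  refine or_iff_not_imp_left.2 fun hb => le_antisymm hB ?_
  have k : ∀ (g : GL5), ∀ a < 1024, al φ (wa (gcode g) a) ∈ B ↔ al φ a ∈ B := fun g a ha => by
    have := conj_al' (φ := φ) (inl5 g) ha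
    exact this ▸ (mem_normalizer_iff.1 (hn (h.phi_mem (inl5 g))) _).symm
  have h1 : al φ 1 ∈ B := by
    obtain ⟨⟨x, hx⟩, h0⟩ := ne_bot_iff_exists_ne_one.1 hb
    obtain ⟨a, ha, rfl⟩ := h.mem_A.1 (hB hx)
    obtain ⟨g, e⟩ := orb_wa ha fun e => h0 (Subtype.ext (by subst e; exact al_zero))
    rw [← e] at hx
    split_ifs at hx
    · exact (k g 1 (by norm_num)).1 hx
    · have a1 := (k g 20 (by norm_num)).1 hx
      have a2 := (k (E5 (tv 5 1)) 20 (by norm_num)).2 a1
      rw [code_E5 (by decide +kernel)] at a2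
      have a3 := mul_mem a1 a2
      rw [← al_xor (by norm_num) (wa_lt _ _), show 20 ^^^ wa (tv 5 1) 20 = 512 by decide +kernel] at a3
      obtain ⟨g', e'⟩ := orb_wa (a := 512) (by norm_num) (by norm_num)
      rw [if_pos (by decide +kernel)] at e'
      exact (k g' 1 (by norm_num)).1 (e' ▸ a3)
  intro x hx
  obtain ⟨a, ha, rfl⟩ := h.mem_A.1 hx
  rw [al_eq ha]
  refine mem_of_basis (K := B.comap φ) (fun j hj => ?_) ha
  have t : ∀ j < 10, dec2 (2 ^ j) = true := by decide +kernel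
  have hp : 2 ^ j < 1024 := Nat.pow_lt_pow_right (a := 2) (by norm_num) hj
  obtain ⟨g, e⟩ := orb_wa hp (by positivity)
  rw [if_pos (t j hj)] at e
  exact (memN (isN_nc hp isG_i5)).of_elt (show al φ (2 ^ j) ∈ B from e ▸ (k g 1 (by norm_num)).2 h1)

theorem card_T : Nat.card (Tg φ) = 2 ^ 20 := by
  rw [Tg, card_map_of_injective h.inj, TT_eq, card_comap, card_gU]; norm_num

theorem T_le_N : Tg φ ≤ normalizer (A : Set G) := by
  rintro _ ⟨n, -, rfl⟩; exact h.phi_mem n

theorem syl_T : SylIn 2 (Tg φ) (normalizer (A : Set G)) := by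
  refine ⟨h.T_le_N, .of_card h.card_T, fun P hP h1 h2 => ?_⟩
  have : Finite (normalizer (A : Set G)) := Nat.finite_of_card_ne_zero (by rw [h.card_N]; norm_num)
  have : Finite P := Finite.of_injective _ (inclusion_injective h2)
  obtain ⟨n, hn⟩ := hP.exists_card_eq
  have h3 := card_dvd_of_le h2
  rw [hn, h.card_N] at h3
  have h4 := (Nat.Coprime.pow_left n (by norm_num : Nat.Coprime 2 9765)).dvd_of_dvd_mul_right h3
  exact (eq_of_le_of_card_ge h1 (by rw [hn, h.card_T]; exact Nat.le_of_dvd (by norm_num) h4)).symm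

theorem phi_mem_T (n : NT) : φ n ∈ Tg φ ↔ gcode n.g &&& 0x10c73df = i5 := by
  rw [← mem_TT, Tg, mem_map_iff_mem h.inj]

theorem A_le_T : A ≤ Tg φ := fun x hx => by
  obtain ⟨n, rfl⟩ := h.mem_N.1 (le_normalizer hx)
  rw [h.phi_mem_T, (h.mem n).1 hx, C5.map_one]
  decide +kernel

omit h in
theorem Q_le_T' : Qg φ ≤ Tg φ :=
  map_mono ((CN.gen_le_iff fun c hc => memN (isN_LQ c hc)).2 fun c hc => (mem_TT _).2 (by
    have : ∀ c ∈ LQ, c >>> 10 &&& 0x10c73df = i5 := by decide +kernel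
    rw [code_g (isN_LQ c hc), this c hc]))

theorem Q_le_T : Qg φ ≤ Tg φ := have _ := h; Q_le_T'

omit h in
theorem comm_of_mask {n : NT} (hn : gcode n.g &&& 0x39c = 0) : φ n * sg φ = sg φ * φ n := by
  rw [← mul_inv_eq_iff_eq_mul, ← al_one, conj_al' n (by norm_num), (wa_s _).2 hn]

theorem comm_s_iff (n : NT) : φ n * sg φ = sg φ * φ n ↔ gcode n.g &&& 0x39c = 0 :=
  ⟨fun e => (wa_s _).1 (h.al_inj (wa_lt _ _) (by norm_num) (by
    rw [← conj_al' n (by norm_num), al_one, e, mul_inv_cancel_right])), comm_of_mask⟩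

theorem T_comm {x : G} (hx : x ∈ Tg φ) : x * sg φ = sg φ * x := by
  obtain ⟨n, hn, rfl⟩ := hx
  refine (h.comm_s_iff n).2 ?_
  rw [show 0x39c = 0x10c73df &&& 0x39c by decide +kernel, ← Nat.and_assoc, (mem_TT n).1 hn]
  decide +kernel

theorem s_ne : sg φ ≠ 1 := fun e =>
  absurd (h.al_inj (a := 1) (b := 0) (by norm_num) (by norm_num) (e.trans al_zero.symm)) (by norm_num)

theorem s_sq : sg φ * sg φ = 1 := have _ := h; al_sq (a := 1) (by norm_num)

theorem z_ne : zg φ ≠ 1 ∧ zg φ ≠ sg φ :=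
  ⟨fun e => absurd (h.al_inj (a := 2) (b := 0) (by norm_num) (by norm_num) (e.trans al_zero.symm))
    (by norm_num), fun e => absurd (h.al_inj (a := 2) (b := 1) (by norm_num) (by norm_num) e) (by norm_num)⟩

/-- `A` is a Sylow 2-subgroup of `C(A2)` -/
theorem syl_A2 [Finite G] : SylIn 2 A (centralizer {x | ∃ a < 128, al φ a = x}) := by
  refine SylIn.of_normalizer ?_
  have e : centralizer {x | ∃ a < 128, al φ a = x} ⊓ normalizer (A : Set G) = A := by
    refine le_antisymm (fun x hx => ?_) (le_inf (fun x hx => ?_) le_normalizer)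
    · obtain ⟨n, rfl⟩ := h.mem_N.1 hx.2
      exact h.mem_of_comm fun a ha => (hx.1 _ ⟨a, ha, rfl⟩).symm
    · rintro _ ⟨a, ha, rfl⟩
      exact h.comm_A (h.al_mem (by omega)) hx
  rw [e]
  exact ⟨le_rfl, .of_card h.card_A, fun _ _ a b => le_antisymm b a⟩

theorem cent_A2 [Finite G] {P : Subgroup G} (hP : IsPGroup 2 P) (hA : A ≤ P) {x : G} (hx : x ∈ P)
    (hc : ∀ a < 128, x * al φ a = al φ a * x) : x ∈ A := by
  rw [← h.syl_A2.max (P ⊓ _) (hP.to_le inf_le_left) (le_inf hA h.syl_A2.le) inf_le_right]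
  exact ⟨hx, by rintro _ ⟨a, ha, rfl⟩; exact (hc a ha).symm⟩

omit h in
theorem norm_cent [Finite G] {x : G} (hc : ∀ a < 128, ∃ b < 128, x * al φ a * x⁻¹ = al φ b) :
    x ∈ normalizer ((centralizer {x | ∃ a < 128, al φ a = x} : Subgroup G) : Set G) := by
  have k : ∀ n : ℕ, ∀ a < 128, ∃ b < 128, x ^ n * al φ a * (x ^ n)⁻¹ = al φ b := fun n => by
    induction n with
    | zero => exact fun a ha => ⟨a, ha, by simp⟩
    | succ n ih =>
      intro a ha
      obtain ⟨b, hb, e⟩ := ih a ha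
      obtain ⟨c, hc, e'⟩ := hc b hb
      exact ⟨c, hc, by rw [← e', ← e, pow_succ']; group⟩
  refine mem_normalizer_fintype fun y hy => ?_
  rintro _ ⟨a, ha, rfl⟩
  obtain ⟨b, hb, e⟩ := k (orderOf x - 1) a ha
  have e1 : x ^ (orderOf x - 1) = x⁻¹ := by
    rw [eq_inv_iff_mul_eq_one, ← pow_succ, Nat.sub_add_cancel (orderOf_pos x), pow_orderOf_eq_one]
  have e2 := hy _ ⟨b, hb, rfl⟩
  rw [← e, e1] at e2
  calc al φ a * (x * y * x⁻¹) = x * (x⁻¹ * al φ a * x⁻¹⁻¹ * y) * x⁻¹ := by group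
    _ = _ := by rw [e2]; group

theorem norm_A2 [Finite G] {P : Subgroup G} (hP : IsPGroup 2 P) (hT : Tg φ ≤ P) {x : G} (hx : x ∈ P)
    (hc : ∀ a < 128, ∃ b < 128, x * al φ a * x⁻¹ = al φ b) : x ∈ Tg φ := by
  rw [← h.syl_T.max (P ⊓ _) (hP.to_le inf_le_left) (le_inf hT h.T_le_N) inf_le_right]
  refine ⟨hx, mem_normalizer_fintype fun y hy => ?_⟩
  have hA := h.A_le_T.trans hT
  exact h.cent_A2 hP hA (mul_mem (mul_mem hx (hA hy)) (inv_mem hx)) fun a ha =>
    ((mem_normalizer_iff.1 (norm_cent hc) y).1 (h.syl_A2.le hy) _ ⟨a, ha, rfl⟩).symm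

theorem frattini_A2 [Finite G] {x : G} (hc : ∀ a < 128, ∃ b < 128, x * al φ a * x⁻¹ = al φ b) :
    ∃ c, (∀ a < 128, c * al φ a = al φ a * c) ∧ ∃ n, x = c * φ n := by
  obtain ⟨c, h1, y, hy, e⟩ := h.syl_A2.frattini (norm_cent hc)
  obtain ⟨n, rfl⟩ := h.mem_N.1 hy
  exact ⟨c, fun a ha => (h1 _ ⟨a, ha, rfl⟩).symm, n, e⟩

end NF

end CL.T10
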