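import Cfsg.Agent.SPOR.T10.ApiN
import Cfsg.Agent.SPOR.T10.ApiG

/-!
The extraspecial group `Q` and the action on `Q / ⟨s⟩`.
-/

set_option autoImplicit false
set_option maxRecDepth 100000

namespace CL.T10

open CL.K CL.CG CL.F2M CL.F24 CL.LX CL.MSS Subgroup Cfsg
open CL.J4P (Kv)

attribute [local irreducible] gcode vcode

variable {G : Type*} [Group G] {A : Subgroup G} {φ : NT →* G} {ρ : H1 φ →* GL12}

theorem ac_eq (X v : ℕ) : ac X v = lc (fld 12 4095 X) 12 v := by rw [ac_def, act, force_eq]; rfl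

theorem ac_xor' (X u v : ℕ) : ac X (u ^^^ v) = ac X u ^^^ ac X v := by simp only [ac_eq, lc_xor]

theorem ac_zero (X : ℕ) : ac X 0 = 0 := by
  have := ac_xor' X 0 0
  rwa [Nat.xor_self, Nat.xor_self] at this

theorem ac_ext {X Y : ℕ} (hX : X < 2 ^ 144) (hY : Y < 2 ^ 144)
    (h : ∀ j < 12, ac X (2 ^ j) = ac Y (2 ^ j)) : X = Y := by
  refine Nat.eq_of_testBit_eq fun i => ?_
  by_cases hi : i < 144
  · have h1 := testBit_fld 12 X (i / 12) (i % 12)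
    have h2 := testBit_fld 12 Y (i / 12) (i % 12)
    have h3 := h (i / 12) (by omega)
    rw [ac_eq, ac_eq, lc_pow _ (by omega), lc_pow _ (by omega)] at h3
    rw [Nat.div_add_mod, decide_eq_true (Nat.mod_lt i (by norm_num)), Bool.true_and] at h1 h2
    rw [← h1, ← h2]
    exact congrArg (Nat.testBit · (i % 12)) h3
  · have := Nat.pow_le_pow_right (n := 2) (by norm_num) (not_lt.1 hi)
    rw [Nat.testBit_lt_two_pow (hX.trans_le this), Nat.testBit_lt_two_pow (hY.trans_le this)]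

theorem gcode12_lt (g : GL12) : gcode g < 2 ^ 144 := by unfold gcode; exact mcode_lt _

theorem pow12_lt {j : ℕ} (hj : j < 12) : 2 ^ j < 4096 := Nat.pow_lt_pow_right (a := 2) (by norm_num) hj

theorem xor12_lt {u v : ℕ} (hu : u < 4096) (hv : v < 4096) : u ^^^ v < 4096 :=
  Nat.xor_lt_two_pow (n := 12) hu hv

/-- the coordinate of an element of `Q` -/
def kap (c : ℕ) : ℕ := (c >>> 1 &&& 7) + 8 * (bit c 20 + 2 * bit c 25 + 4 * bit c 30) +
  64 * (c >>> 4 &&& 7) + 512 * (bit c 21 + 2 * bit c 26 + 4 * bit c 31)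

theorem qc_tab : ∀ v < 4096, nm (qc v) cs = qc v + 1 ∧ nm cs (qc v) = qc v + 1 ∧ kap (qc v) = v ∧
    kap (qc v + 1) = v ∧ (v = 0 ∨ ∃ j < 12, Bf v (2 ^ j) = 1) ∧
    (v &&& 0xe38 = 0 ↔ qc v >>> 10 = i5) ∧ (v &&& 0xe38 = 0 → qc v = nc (2 * (v &&& 7) + 16 * (v >>> 6)) i5) := by
  have : allLt2 (fun v => force (qc v) fun q => Nat.beq (nm q cs) (q + 1) && (Nat.beq (nm cs q) (q + 1) &&
      (Nat.beq (kap q) v && (Nat.beq (kap (q + 1)) v &&
      ((Nat.beq v 0 || anyLt (fun j => Nat.beq (Bf v (2 ^ j)) 1) 12) &&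
      ((Nat.beq (v &&& 0xe38) 0 == Nat.beq (q >>> 10) i5) &&
      (!Nat.beq (v &&& 0xe38) 0 || Nat.beq q (nc (2 * (v &&& 7) + 16 * (v >>> 6)) i5)))))))) 64 64 = true := by
    decide +kernel
  intro v hv
  have := allLt2_iff.1 this v hv
  simp only [force_eq, Bool.and_eq_true, Bool.or_eq_true, anyLt_iff, Nat.beq_eq, beq_iff_eq] at this
  obtain ⟨a, b, c, d, e, f, g⟩ := this
  refine ⟨a, b, c, d, e, ?_, fun k => g.resolve_left (by rw [k]; decide)⟩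
  rw [← Nat.beq_eq, ← Nat.beq_eq, f]

theorem qc_basis : ∀ j < 12, ∀ v < 4096, nm (qc (2 ^ j)) (qc v) = qc (2 ^ j ^^^ v) + bt (2 ^ j) v := by
  have : allLt (fun j => force (2 ^ j) fun p => force (qc p) fun q => allLt2 (fun v =>
      Nat.beq (nm q (qc v)) (Nat.add (qc (Nat.xor p v)) (bt p v))) 64 64) 12 = true := by decide +kernel
  intro j hj v hv
  have := allLt_iff.1 this j hj
  rw [force_eq, force_eq] at this
  exact eq_of_beq (allLt2_iff.1 this v hv)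

theorem isN_cs : isN cs = true := by decide +kernel

theorem s_mul_s : sg φ * sg φ = 1 := al_sq (a := 1) (by norm_num)

theorem el_qc_succ {v : ℕ} (hv : v < 4096) : el φ (qc v + 1) = qq φ v * sg φ := by
  rw [← (qc_tab v hv).1, el_mul (isN_qc hv) isN_cs, qq, sg]

theorem qq_s {v : ℕ} (hv : v < 4096) : qq φ v * sg φ = sg φ * qq φ v := by
  rw [← el_qc_succ hv, ← (qc_tab v hv).2.1, el_mul isN_cs (isN_qc hv), qq, sg]

theorem qq_zero : qq φ 0 = 1 := el_one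

theorem qq_one : qq φ 1 = zg φ := rfl

theorem s_pow_xor {x y : ℕ} (hx : x < 2) (hy : y < 2) : sg φ ^ (x ^^^ y) = sg φ ^ x * sg φ ^ y := by
  interval_cases x <;> interval_cases y <;> simp [s_mul_s]

theorem qq_sp {v : ℕ} (hv : v < 4096) (n : ℕ) : sg φ ^ n * qq φ v = qq φ v * sg φ ^ n :=
  ((show Commute (qq φ v) (sg φ) from qq_s hv).pow_right n).eq.symm

theorem sp_sq (n : ℕ) : sg φ ^ n * sg φ ^ n = 1 := by
  rw [← (Commute.refl (sg φ)).mul_pow, s_mul_s, one_pow]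

theorem el_qc_add {v e : ℕ} (hv : v < 4096) (he : e < 2) : el φ (qc v + e) = qq φ v * sg φ ^ e := by
  interval_cases e
  · rw [pow_zero, mul_one]; rfl
  · rw [pow_one, el_qc_succ hv]

theorem bt_zero (v : ℕ) : bt 0 v = 0 := by
  have := bt_xor 0 0 v
  rwa [Nat.xor_self, Nat.xor_self] at this

theorem qq_mul {u v : ℕ} (hu : u < 4096) (hv : v < 4096) :
    qq φ u * qq φ v = qq φ (u ^^^ v) * sg φ ^ bt u v := by
  refine bits_ind (n := 12) (p := fun u => ∀ v < 4096, qq φ u * qq φ v = qq φ (u ^^^ v) * sg φ ^ bt u v)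
    (fun v _ => by rw [qq_zero, Nat.zero_xor, bt_zero, pow_zero, one_mul, mul_one])
    (fun i hi v hv => by
      rw [← el_qc_add (xor12_lt (pow12_lt hi) hv) (bt_lt _ _), ← qc_basis i hi v hv,
        el_mul (isN_qc (pow12_lt hi)) (isN_qc hv), qq, qq])
    (fun a ha b hb x y v hv => ?_) u hu v hv
  have e : qq φ (a ^^^ b) = qq φ a * qq φ b * sg φ ^ bt a b := by rw [x b hb, mul_assoc, sp_sq, mul_one]
  rw [e, mul_assoc, qq_sp hv, mul_assoc, ← mul_assoc (qq φ b), y v hv, ← mul_assoc, ← mul_assoc,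
    x _ (xor12_lt hb hv), ← Nat.xor_assoc, bt_xor', bt_xor, s_pow_xor (bt_lt _ _) (bt_lt _ _),
    s_pow_xor (bt_lt _ _) (bt_lt _ _), mul_assoc, mul_assoc]
  congr 1
  rw [← pow_add, ← pow_add, ← pow_add, ← pow_add,
    show bt a b + bt a v + (bt b v + bt a b) = bt a v + bt b v + (bt a b + bt a b) by omega, pow_add _ _ (_ + _),
    pow_add _ (bt a b), sp_sq, mul_one]

theorem qq_sq' {v : ℕ} (hv : v < 4096) : qq φ v * qq φ v = sg φ ^ Qf v := by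
  rw [qq_mul hv hv, Nat.xor_self, qq_zero, one_mul, Qf]

theorem qq_inv {v : ℕ} (hv : v < 4096) : (qq φ v)⁻¹ = qq φ v * sg φ ^ Qf v :=
  inv_eq_of_mul_eq_one_right (by rw [← mul_assoc, qq_sq' hv, sp_sq])

theorem s_cases {e : ℕ} (he : e < 2) (x : G) : x * sg φ ^ e = x ∨ x * sg φ ^ e = x * sg φ := by
  interval_cases e <;> simp

theorem of_cases {x y : G} (h : x = y ∨ x = y * sg φ) : ∃ e < 2, x = y * sg φ ^ e := by
  rcases h with e | e
  exacts [⟨0, by norm_num, by simpa using e⟩, ⟨1, by norm_num, by simpa using e⟩]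

theorem basis_mem {j : ℕ} (hj : j < 12) : qq φ (2 ^ j) ∈ Qg φ :=
  ⟨_, CN.elt_mem ((memN (isN_qc (pow12_lt hj))).gen (by interval_cases j <;> decide +kernel)), rfl⟩

theorem s_mem : sg φ ∈ Qg φ := by
  have a := qq_mul (φ := φ) (u := 8) (v := 64) (by norm_num) (by norm_num)
  have b := qq_mul (φ := φ) (u := 64) (v := 8) (by norm_num) (by norm_num)
  rw [show bt 64 8 = 0 by decide +kernel, pow_zero, mul_one, Nat.xor_comm] at b
  rw [show bt 8 64 = 1 by decide +kernel, pow_one, ← b] at a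
  have c := basis_mem (φ := φ) (j := 3) (by norm_num)
  have d := basis_mem (φ := φ) (j := 6) (by norm_num)
  exact (mul_mem_cancel_left (mul_mem d c)).1 (a ▸ mul_mem c d)

theorem qq_mem {v : ℕ} (hv : v < 4096) : qq φ v ∈ Qg φ :=
  bits_ind (n := 12) (p := fun v => qq φ v ∈ Qg φ) (qq_zero (φ := φ) ▸ one_mem _) (fun _ hi => basis_mem hi)
    (fun _ ha _ hb x y => (mul_mem_cancel_right (pow_mem s_mem _)).1 (qq_mul (φ := φ) ha hb ▸ mul_mem x y)) v hv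

theorem mem_Q' {x : G} : x ∈ Qg φ ↔ ∃ v < 4096, ∃ e < 2, x = qq φ v * sg φ ^ e := by
  refine ⟨?_, by rintro ⟨v, hv, e, -, rfl⟩; exact mul_mem (qq_mem hv) (pow_mem s_mem _)⟩
  rintro ⟨n, hn, rfl⟩
  refine gen_induction (Q := fun n => ∃ v < 4096, ∃ e < 2, φ n = qq φ v * sg φ ^ e)
    ⟨0, by norm_num, 0, by norm_num, by simp [qq_zero]⟩ (fun j hj t ht g ⟨v, hv, e, he, hg⟩ => ?_) n hn
  have hj' : j < 12 := hj
  have : lget LQ j = qc (2 ^ j) := by interval_cases j <;> decide +kernel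
  refine ⟨_, xor12_lt (pow12_lt hj') hv, _, Nat.xor_lt_two_pow (n := 1) (bt_lt (2 ^ j) v) he, ?_⟩
  rw [map_mul, hg, ← el_code t, ht, this, ← mul_assoc, s_pow_xor (bt_lt _ _) he, ← mul_assoc,
    ← qq_mul (pow12_lt hj') hv]
  rfl

theorem mem_Q {x : G} : x ∈ Qg φ ↔ ∃ v < 4096, x = qq φ v ∨ x = qq φ v * sg φ := by
  rw [mem_Q']
  exact ⟨fun ⟨v, hv, e, he, h⟩ => ⟨v, hv, h ▸ s_cases he _⟩, fun ⟨v, hv, h⟩ => ⟨v, hv, of_cases h⟩⟩

instance : Finite (Qg φ) := Set.Finite.to_subtype ((Set.toFinite _).image φ)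

instance : Finite ((Qg φ : Subgroup G) : Set G) := inferInstanceAs (Finite (Qg φ))

theorem qq_al {v : ℕ} (hv : v < 4096) (h : v &&& 0xe38 = 0) :
    qq φ v = al φ (2 * (v &&& 7) + 16 * (v >>> 6)) := by rw [qq, (qc_tab v hv).2.2.2.2.2.2 h, al]

theorem aq_tab : ∀ a < 128, (a >>> 1 &&& 7) + 64 * (a >>> 4) < 4096 ∧
    ((a >>> 1 &&& 7) + 64 * (a >>> 4)) &&& 0xe38 = 0 ∧
    nc a i5 = qc ((a >>> 1 &&& 7) + 64 * (a >>> 4)) + a % 2 := by decide +kernel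

theorem al_qq {a : ℕ} (ha : a < 128) :
    al φ a = qq φ ((a >>> 1 &&& 7) + 64 * (a >>> 4)) * sg φ ^ (a % 2) := by
  rw [← el_qc_add (aq_tab a ha).1 (Nat.mod_lt _ (by norm_num)), ← (aq_tab a ha).2.2, al]

theorem Q_comm_s {x : G} (hx : x ∈ Qg φ) : x * sg φ = sg φ * x := by
  obtain ⟨v, hv, e, -, rfl⟩ := mem_Q'.1 hx
  rw [mul_assoc, ← pow_succ, pow_succ', ← mul_assoc, qq_s hv, mul_assoc]

/-- the action on `Q / ⟨s⟩` from the action on the basis -/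
theorem conj_ind {g : G} (hs : g * sg φ = sg φ * g) {X : ℕ}
    (e : ∀ j < 12, g * qq φ (2 ^ j) * g⁻¹ = qq φ (ac X (2 ^ j)) ∨
      g * qq φ (2 ^ j) * g⁻¹ = qq φ (ac X (2 ^ j)) * sg φ) {v : ℕ} (hv : v < 4096) :
    ∃ e < 2, g * qq φ v * g⁻¹ = qq φ (ac X v) * sg φ ^ e := by
  refine bits_ind (n := 12) (p := fun v => ∃ e < 2, g * qq φ v * g⁻¹ = qq φ (ac X v) * sg φ ^ e)
    ⟨0, by norm_num, by simp [ac_zero, qq_zero]⟩ (fun i hi => of_cases (e i hi))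
    (fun a ha b hb ⟨x, hx, e1⟩ ⟨y, hy, e2⟩ => ?_) v hv
  have x2 : ∀ {a b : ℕ}, a < 2 → b < 2 → a ^^^ b < 2 := fun a b => Nat.xor_lt_two_pow (n := 1) a b
  refine ⟨_, x2 (bt_lt (ac X a) (ac X b)) (x2 hx (x2 hy (bt_lt a b))), ?_⟩
  have e : qq φ (a ^^^ b) = qq φ a * qq φ b * sg φ ^ bt a b := by
    rw [qq_mul ha hb, mul_assoc, sp_sq, mul_one]
  have c : g * sg φ ^ bt a b * g⁻¹ = sg φ ^ bt a b := by
    rw [((show Commute g (sg φ) from hs).pow_right _).eq, mul_inv_cancel_right]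
  rw [s_pow_xor (bt_lt _ _) (x2 hx (x2 hy (bt_lt a b))), s_pow_xor hx (x2 hy (bt_lt a b)),
    s_pow_xor hy (bt_lt a b), ac_xor', ← mul_assoc, ← qq_mul (J4.ac_lt _ _) (J4.ac_lt _ _), e]
  calc g * (qq φ a * qq φ b * sg φ ^ bt a b) * g⁻¹
      = g * qq φ a * g⁻¹ * (g * qq φ b * g⁻¹) * (g * sg φ ^ bt a b * g⁻¹) := by group
    _ = _ := by
      rw [e1, e2, c, mul_assoc (qq φ (ac X a)), ← mul_assoc (sg φ ^ x), qq_sp (J4.ac_lt _ _)]
      simp only [mul_assoc]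

theorem mem_H1 {g : G} : g ∈ H1 φ ↔ g * sg φ = sg φ * g ∧ g ∈ normalizer (Qg φ : Set G) := by
  rw [H1, mem_inf, mem_centralizer_singleton_iff]

theorem H1_of {g : G} (hs : g * sg φ = sg φ * g) {X : ℕ}
    (e : ∀ j < 12, g * qq φ (2 ^ j) * g⁻¹ = qq φ (ac X (2 ^ j)) ∨
      g * qq φ (2 ^ j) * g⁻¹ = qq φ (ac X (2 ^ j)) * sg φ) : g ∈ H1 φ := by
  refine mem_H1.2 ⟨hs, mem_normalizer_fintype fun x hx => ?_⟩
  obtain ⟨v, hv, k, -, rfl⟩ := mem_Q'.1 hx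
  obtain ⟨k', -, e'⟩ := conj_ind hs e hv
  have : g * (qq φ v * sg φ ^ k) * g⁻¹ = g * qq φ v * g⁻¹ * sg φ ^ k := by
    rw [mul_assoc _ g⁻¹, ((show Commute g (sg φ) from hs).pow_right _).inv_left.eq]; simp only [mul_assoc]
  rw [SetLike.mem_coe, this, e']
  exact mul_mem (mul_mem (qq_mem (J4.ac_lt _ _)) (pow_mem s_mem _)) (pow_mem s_mem _)

theorem kvB_spec {c X : ℕ} (e : kvB c X = true) : el φ c * sg φ = sg φ * el φ c ∧ X < 2 ^ 144 ∧
    ∀ j < 12, el φ c * qq φ (2 ^ j) * (el φ c)⁻¹ = qq φ (ac X (2 ^ j)) ∨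
      el φ c * qq φ (2 ^ j) * (el φ c)⁻¹ = qq φ (ac X (2 ^ j)) * sg φ := by
  simp only [kvB, force_eq, Bool.and_eq_true, allLt_iff, Bool.or_eq_true, Nat.beq_eq] at e
  obtain ⟨hc, h1, h2, h3⟩ := e
  refine ⟨by rw [sg, ← el_mul hc isN_cs, h1, el_mul isN_cs hc], lt_of_blt h2, fun j hj => ?_⟩
  have hw := J4.ac_lt X (2 ^ j)
  refine (h3 j hj).imp (fun e => ?_) fun e => ?_
  · rw [mul_inv_eq_iff_eq_mul, qq, ← el_mul hc (isN_qc (pow12_lt hj)), e, el_mul (isN_qc hw) hc, qq]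
  · rw [mul_inv_eq_iff_eq_mul, qq, ← el_mul hc (isN_qc (pow12_lt hj)), e, ← el_qc_succ hw,
      ← el_mul ((qc_tab _ hw).1 ▸ isN_nm (isN_qc hw) isN_cs) hc]

theorem H1_of_kvB {c X : ℕ} (e : kvB c X = true) : el φ c ∈ H1 φ :=
  H1_of (kvB_spec e).1 (kvB_spec e).2.2

theorem Q_le_H1 : Qg φ ≤ H1 φ := fun _ hx => mem_H1.2 ⟨Q_comm_s hx, le_normalizer hx⟩

theorem al_mem_H1 {a : ℕ} (ha : a < 1024) : al φ a ∈ H1 φ := by
  have k := chk_kv
  simp only [Bool.and_eq_true] at k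
  refine bits_ind (n := 10) (p := fun a => al φ a ∈ H1 φ) (al_zero (φ := φ) ▸ one_mem _) (fun i hi => ?_)
    (fun a ha b hb x y => al_xor (φ := φ) ha hb ▸ mul_mem x y) a ha
  by_cases h7 : i < 7
  · have : 2 ^ i < 128 := Nat.pow_lt_pow_right (a := 2) (by norm_num) h7
    rw [al_qq this]
    exact Q_le_H1 (mul_mem (qq_mem (aq_tab _ this).1) (pow_mem s_mem _))
  · have : i = 7 ∨ i = 8 ∨ i = 9 := by omega
    rcases this with rfl | rfl | rfl
    exacts [H1_of_kvB k.1.1.2, H1_of_kvB k.1.2, H1_of_kvB k.2]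

theorem chk_kv' : kvB (nc 0 (tv 2 1)) (mm xS xD) = true ∧ kvB (nc 0 (tv 2 3)) c1 = true := by
  decide +kernel

theorem H1_of_mask {n : NT} (hn : gcode n.g &&& 0x39c = 0) : φ n ∈ H1 φ := by
  have k := chk_kv
  simp only [Bool.and_eq_true] at k
  rw [phi_eq n, ll_code]
  refine mul_mem (al_mem_H1 n.lt) ?_
  have : (gen gcode gP : Subgroup GL5) ≤ (H1 φ).comap (φ.comp inl5) :=
    (C5.gen_le_iff top_gP).2 fun c hc => by
      change φ (inl5 _) ∈ H1 φ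
      rw [← ll_code, (top_gP c hc).code_elt]
      simp only [gP, List.mem_cons, List.not_mem_nil, or_false] at hc
      rcases hc with rfl | rfl | rfl | rfl | rfl | rfl | rfl
      exacts [H1_of_kvB k.1.1.1.1.1.1.1.1.1, H1_of_kvB chk_kv'.1, H1_of_kvB k.1.1.1.1.1.1.1.2,
        H1_of_kvB k.1.1.1.1.2, H1_of_kvB k.1.1.1.1.1.2, H1_of_kvB k.1.1.1.2, H1_of_kvB chk_kv'.2]
  exact this ((mem_gP _).2 hn)

namespace NF
variable (h : NF A φ)
include h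

theorem qq_inj' {u v x y : ℕ} (hu : u < 4096) (hv : v < 4096) (hx : x < 2) (hy : y < 2)
    (e : qq φ u * sg φ ^ x = qq φ v * sg φ ^ y) : u = v ∧ x = y := by
  have k : ∀ {u x : ℕ}, u < 4096 → x < 2 → isN (qc u + x) = true ∧ kap (qc u + x) = u := by
    intro u x hu hx
    interval_cases x
    exacts [⟨isN_qc hu, (qc_tab u hu).2.2.1⟩,
      ⟨(qc_tab u hu).1 ▸ isN_nm (isN_qc hu) isN_cs, (qc_tab u hu).2.2.2.1⟩]
  rw [← el_qc_add hu hx, ← el_qc_add hv hy] at e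
  have e1 := h.el_inj (k hu hx).1 (k hv hy).1 e
  obtain rfl : u = v := by rw [← (k hu hx).2, e1, (k hv hy).2]
  exact ⟨rfl, by omega⟩

theorem qq_inj {u v : ℕ} (hu : u < 4096) (hv : v < 4096)
    (e : qq φ u = qq φ v ∨ qq φ u = qq φ v * sg φ) : u = v := by
  obtain ⟨y, hy, e⟩ := of_cases e
  exact (h.qq_inj' hu hv (x := 0) (by norm_num) hy (by simpa using e)).1

theorem qq_comm {u v : ℕ} (hu : u < 4096) (hv : v < 4096) :
    qq φ u * qq φ v = qq φ v * qq φ u ↔ Bf u v = 0 := by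
  rw [qq_mul hu hv, qq_mul hv hu, Nat.xor_comm v u]
  exact ⟨fun e => Nat.xor_eq_zero_iff.2 (h.qq_inj' (xor12_lt hu hv) (xor12_lt hu hv) (bt_lt _ _) (bt_lt _ _) e).2,
    fun e => by rw [Nat.xor_eq_zero_iff.1 e]⟩

theorem qq_sq {v : ℕ} (hv : v < 4096) : qq φ v * qq φ v = 1 ↔ Qf v = 0 := by
  rw [qq_sq' hv]
  have : Qf v < 2 := bt_lt v v
  interval_cases Qf v <;> simp [h.s_ne]

theorem es : ES (Qg φ) (sg φ) where
  z_mem := s_mem
  z_ne := h.s_ne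
  z_sq := s_mul_s
  z_comm _ := Q_comm_s
  cent x hx hc := by
    obtain ⟨v, hv, e, he, rfl⟩ := mem_Q'.1 hx
    rcases (qc_tab v hv).2.2.2.2.1 with rfl | ⟨j, hj, e1⟩
    · simpa [qq_zero] using s_cases (φ := φ) he 1
    · have := hc _ (basis_mem hj)
      rw [mul_assoc, qq_sp (pow12_lt hj), ← mul_assoc, ← mul_assoc, mul_left_inj,
        h.qq_comm hv (pow12_lt hj), e1] at this
      omega
  comm x hx y hy := by
    obtain ⟨u, hu, a, -, rfl⟩ := mem_Q'.1 hx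
    obtain ⟨v, hv, b, -, rfl⟩ := mem_Q'.1 hy
    have e : ∀ {u v : ℕ} (a b : ℕ), u < 4096 → v < 4096 → qq φ u * sg φ ^ a * (qq φ v * sg φ ^ b) =
        qq φ (u ^^^ v) * sg φ ^ (a + b) * sg φ ^ bt u v := fun a b hu hv => by
      rw [mul_assoc, ← mul_assoc (sg φ ^ a), qq_sp hv, ← mul_assoc, ← mul_assoc, qq_mul hu hv]
      simp only [mul_assoc, ← pow_add]
      congr 2; omega
    rw [e a b hu hv, e b a hv hu, Nat.xor_comm v u, Nat.add_comm b a]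
    have := bt_lt u v
    have := bt_lt v u
    interval_cases bt u v <;> interval_cases bt v u <;> simp [mul_assoc, s_mul_s]
  sq x hx := by
    obtain ⟨v, hv, e, -, rfl⟩ := mem_Q'.1 hx
    rw [mul_assoc, ← mul_assoc (sg φ ^ e), qq_sp hv, mul_assoc, sp_sq, mul_one, qq_sq' hv]
    simpa using s_cases (φ := φ) (show Qf v < 2 from bt_lt v v) 1
  nonab := ⟨_, qq_mem (v := 8) (by norm_num), _, qq_mem (v := 64) (by norm_num), fun e =>
    absurd ((h.qq_comm (by norm_num) (by norm_num)).1 e) (by decide +kernel)⟩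

theorem card_Q : Nat.card (Qg φ) = 2 ^ 13 := by
  rw [show 2 ^ 13 = Nat.card (Fin 4096 × Fin 2) by simp]
  refine (Nat.card_eq_of_bijective (fun p : Fin 4096 × Fin 2 => (⟨qq φ p.1 * sg φ ^ (p.2 : ℕ),
    mul_mem (qq_mem p.1.2) (pow_mem s_mem _)⟩ : Qg φ)) ⟨fun p q e => ?_, fun x => ?_⟩).symm
  · have := h.qq_inj' p.1.2 q.1.2 p.2.2 q.2.2 (congrArg Subtype.val e)
    exact Prod.ext (Fin.ext this.1) (Fin.ext this.2)
  · obtain ⟨v, hv, e, he, k⟩ := mem_Q'.1 x.2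
    exact ⟨(⟨v, hv⟩, ⟨e, he⟩), Subtype.ext k.symm⟩

theorem qq_mem_A {v : ℕ} (hv : v < 4096) : qq φ v ∈ A ↔ v &&& 0xe38 = 0 := by
  rw [(qc_tab v hv).2.2.2.2.2.1, ← code_g (isN_qc hv), qq, el, h.mem, ← C5.map_one]
  exact ⟨congrArg _, fun e => C5.inj e⟩

omit h in
theorem qa_lt' {v : ℕ} (hv : v < 4096) (k : v &&& 0xe38 = 0) : 2 * (v &&& 7) + 16 * (v >>> 6) < 127 := by
  have : allLt2 (fun v => !Nat.beq (v &&& 0xe38) 0 || blt (2 * (v &&& 7) + 16 * (v >>> 6)) 127) 64 64 = true := by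
    decide +kernel
  have := allLt2_iff.1 this v hv
  rw [k] at this
  exact lt_of_blt this

theorem al_mem_Q {a : ℕ} (ha : a < 1024) : al φ a ∈ Qg φ ↔ a < 128 := by
  refine ⟨fun hx => ?_, fun k => al_qq (φ := φ) k ▸ mul_mem (qq_mem (aq_tab _ k).1) (pow_mem s_mem _)⟩
  obtain ⟨v, hv, e, he, k⟩ := mem_Q'.1 hx
  have h1 : qq φ v ∈ A := (mul_mem_cancel_right (pow_mem (h.al_mem (a := 1) (by norm_num)) e)).1 (k ▸ h.al_mem ha)
  have h2 := (h.qq_mem_A hv).1 h1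
  have h3 := qa_lt' hv h2
  have h4 : sg φ ^ e = al φ e := by interval_cases e <;> simp [al_zero, al_one]
  rw [qq_al hv h2, h4, ← al_xor (by omega) (by omega)] at k
  have h5 := Nat.xor_lt_two_pow (n := 7) (show 2 * (v &&& 7) + 16 * (v >>> 6) < 128 by omega) (show e < 128 by omega)
  rw [h.al_inj ha (by omega) k]
  exact h5

/-- `C_N(s)` normalises `Q` -/
theorem M_le (n : NT) (hn : φ n * sg φ = sg φ * φ n) : φ n ∈ H1 φ := H1_of_mask ((h.comm_s_iff n).1 hn)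

theorem T_le : Tg φ ≤ H1 φ := fun x hx => by
  obtain ⟨n, rfl⟩ := h.mem_N.1 (h.T_le_N hx)
  exact h.M_le n (h.T_comm hx)

theorem exists_CF : ∃ ρ, CF A φ ρ := by
  have k : ∀ g : H1 φ, ∀ v, v < 4096 → ∃ w < 4096, ∃ e < 2, g * qq φ v * (g : G)⁻¹ = qq φ w * sg φ ^ e :=
    fun g v hv => mem_Q'.1 ((mem_normalizer_iff.1 (mem_H1.1 g.2).2 _).1 (qq_mem hv))
  choose! f f1 ε f2 f3 using k
  have cs : ∀ (g : H1 φ) (n : ℕ), g * sg φ ^ n * (g : G)⁻¹ = sg φ ^ n := fun g n => by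
    rw [((show Commute (g : G) (sg φ) from (mem_H1.1 g.2).1).pow_right _).eq, mul_inv_cancel_right]
  have x2 : ∀ {a b : ℕ}, a < 2 → b < 2 → a ^^^ b < 2 := fun a b => Nat.xor_lt_two_pow (n := 1) a b
  have fx : ∀ g, ∀ a < 4096, ∀ b < 4096, f g (a ^^^ b) = f g a ^^^ f g b := fun g a ha b hb => by
    refine (h.qq_inj' (f1 g _ (xor12_lt ha hb)) (xor12_lt (f1 g a ha) (f1 g b hb))
      (x2 (f2 g _ (xor12_lt ha hb)) (bt_lt a b))
      (x2 (bt_lt (f g a) (f g b)) (x2 (f2 g a ha) (f2 g b hb))) ?_).1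
    rw [s_pow_xor (f2 g _ (xor12_lt ha hb)) (bt_lt a b), s_pow_xor (bt_lt _ _) (x2 (f2 g a ha) (f2 g b hb)),
      s_pow_xor (f2 g a ha) (f2 g b hb), ← mul_assoc, ← mul_assoc, ← f3 g _ (xor12_lt ha hb),
      ← qq_mul (f1 g a ha) (f1 g b hb), ← cs g (bt a b)]
    calc _ = (g : G) * (qq φ (a ^^^ b) * sg φ ^ bt a b) * (g : G)⁻¹ := by group
      _ = g * qq φ a * (g : G)⁻¹ * (g * qq φ b * (g : G)⁻¹) := by rw [← qq_mul ha hb]; group
      _ = _ := by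
        rw [f3 g a ha, f3 g b hb, mul_assoc (qq φ (f g a)), ← mul_assoc (sg φ ^ _), qq_sp (f1 g b hb)]
        simp only [mul_assoc]
  have f0 : ∀ v < 4096, f 1 v = v := fun v hv =>
    (h.qq_inj' (f1 1 v hv) hv (f2 1 v hv) (y := 0) (by norm_num) (by rw [← f3 1 v hv]; simp)).1
  have fm : ∀ g k, ∀ v < 4096, f (g * k) v = f g (f k v) := fun g k v hv => by
    refine (h.qq_inj' (f1 (g * k) v hv) (f1 g _ (f1 k v hv)) (f2 (g * k) v hv) (x2 (f2 g _ (f1 k v hv)) (f2 k v hv)) ?_).1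
    rw [s_pow_xor (f2 g _ (f1 k v hv)) (f2 k v hv), ← mul_assoc, ← f3 (g * k) v hv, ← f3 g _ (f1 k v hv),
      ← cs g (ε k v), coe_mul]
    calc _ = (g : G) * (k * qq φ v * (k : G)⁻¹) * (g : G)⁻¹ := by group
      _ = _ := by rw [f3 k v hv]; group
  letI : DistribMulAction (H1 φ) W :=
    { smul := fun g w => vdec 12 (f g (vcode w))
      one_smul := fun w => (congrArg (vdec 12) (f0 _ (vcode_lt w))).trans (vdec_vcode w)
      mul_smul := fun g k w => congrArg (vdec 12) ((fm g k _ (vcode_lt w)).trans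
        (congrArg (f g) (vcode_vdec (n := 12) (f1 k _ (vcode_lt w))).symm))
      smul_zero := fun g => by
        have := fx g 0 (by norm_num) 0 (by norm_num)
        rw [Nat.xor_self, Nat.xor_self] at this
        change vdec 12 (f g (vcode (0 : W))) = 0
        rw [vcode_zero, this, vdec_zero]
      smul_add := fun g v w => by
        change vdec 12 (f g (vcode (v + w))) = vdec 12 _ + vdec 12 _
        rw [vcode_add, fx g _ (vcode_lt v) _ (vcode_lt w), vdec_xor] }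
  obtain ⟨ρ, hρ⟩ := exists_rho (X := H1 φ) (AddEquiv.refl W)
  refine ⟨ρ, h, fun g v hv => ?_⟩
  have e : sv (ρ g) v = f g v := by
    have := hρ g (vdec 12 v)
    rw [ApiG.sv_code _ hv, ← AddEquiv.refl_apply (vdec 12 v), ← this]
    change vcode (vdec 12 (f g (vcode (vdec 12 v)))) = _
    rw [vcode_vdec (n := 12) hv, vcode_vdec (n := 12) (f1 g v hv)]
  rw [e, f3 g v hv]
  exact s_cases (f2 g v hv) _

end NF

namespace CF
variable (h : CF A φ ρ)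
include h

/-- the action is determined by the action on the basis -/
theorem kv_of {g : G} (hg : g ∈ H1 φ) {X : ℕ} (hX : X < 2 ^ 144)
    (e : ∀ j < 12, g * qq φ (2 ^ j) * g⁻¹ = qq φ (ac X (2 ^ j)) ∨
      g * qq φ (2 ^ j) * g⁻¹ = qq φ (ac X (2 ^ j)) * sg φ) : Kv ρ g X := by
  refine ⟨hg, ac_ext (gcode12_lt _) hX fun j hj => ?_⟩
  obtain ⟨x, hx, e1⟩ := of_cases (h.conj ⟨g, hg⟩ _ (pow12_lt hj))
  obtain ⟨y, hy, e2⟩ := of_cases (e j hj)
  exact (h.toNF.qq_inj' (J4.ac_lt _ _) (J4.ac_lt _ _) hx hy (e1.symm.trans e2)).1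

theorem kv_el {c X : ℕ} (e : kvB c X = true) : Kv ρ (el φ c) X :=
  h.kv_of (H1_of_kvB e) (kvB_spec (φ := φ) e).2.1 (kvB_spec e).2.2

theorem kv_conj {g : G} {X : ℕ} (hg : Kv ρ g X) {v : ℕ} (hv : v < 4096) :
    g * qq φ v * g⁻¹ = qq φ (ac X v) ∨ g * qq φ v * g⁻¹ = qq φ (ac X v) * sg φ :=
  hg.2 ▸ h.conj ⟨g, hg.1⟩ v hv

theorem iso (g : H1 φ) : Iso (ρ g) := fun v hv => by
  obtain ⟨x, hx, e⟩ := of_cases (h.conj g v hv)
  have hw := sv_lt (ρ g) v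
  refine (h.toNF.qq_inj' (u := 0) (v := 0) (by norm_num) (by norm_num) (bt_lt _ _) (bt_lt _ _) ?_).2
  have c := ((show Commute (g : G) (sg φ) from (mem_H1.1 g.2).1).pow_right (Qf v)).eq
  calc _ = qq φ (sv (ρ g) v) * sg φ ^ x * (qq φ (sv (ρ g) v) * sg φ ^ x) := by
        rw [mul_assoc, ← mul_assoc (sg φ ^ x), qq_sp hw, mul_assoc, sp_sq, mul_one, qq_sq' hw, qq_zero,
          one_mul, Qf]
    _ = g * (qq φ v * qq φ v) * (g : G)⁻¹ := by rw [← e]; group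
    _ = _ := by rw [qq_sq' hv, c, mul_inv_cancel_right, qq_zero, one_mul, Qf]

theorem kv_Q {x : G} (hx : x ∈ Qg φ) : Kv ρ x c1 :=
  h.kv_of (Q_le_H1 hx) (by decide +kernel) fun j hj => by
    rw [← C12.map_one, show ac (gcode (1 : GL12)) (2 ^ j) = 2 ^ j from sv_one (pow12_lt hj)]
    exact h.toNF.es.conj_cases (basis_mem hj) hx

theorem kv_triv {g : G} (hg : Kv ρ g c1) {x : G} (hx : x ∈ Qg φ) :
    g * x * g⁻¹ = x ∨ g * x * g⁻¹ = x * sg φ := by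
  obtain ⟨v, hv, k, -, rfl⟩ := mem_Q'.1 hx
  have e := h.kv_conj hg hv
  rw [← C12.map_one, show ac (gcode (1 : GL12)) v = v from sv_one hv] at e
  have : g * (qq φ v * sg φ ^ k) * g⁻¹ = g * qq φ v * g⁻¹ * sg φ ^ k := by
    rw [mul_assoc _ g⁻¹, ((show Commute g (sg φ) from (mem_H1.1 hg.1).1).pow_right _).inv_left.eq]
    simp only [mul_assoc]
  rw [this]
  refine e.imp (fun e => by rw [e]) fun e => ?_
  rw [e, mul_assoc, mul_assoc, ← pow_succ', pow_succ]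

/-- automorphisms trivial on `Q / ⟨s⟩` are inner -/
theorem ker {g : G} (hg : Kv ρ g c1) : ∃ q ∈ Qg φ, ∀ y ∈ Qg φ, q⁻¹ * g * y = y * (q⁻¹ * g) := by
  obtain ⟨q, hq, e⟩ := h.toNF.es.exists_inner fun x hx => h.kv_triv hg hx
  refine ⟨q, hq, fun y hy => ?_⟩
  calc q⁻¹ * g * y = q⁻¹ * (g * y * g⁻¹) * g := by group
    _ = _ := by rw [e y hy]; group

theorem cent_Q {x : G} (hx : x ∈ A) (hc : ∀ y ∈ Qg φ, x * y = y * x) : x = 1 ∨ x = sg φ := by
  obtain ⟨a, ha, rfl⟩ := h.toNF.mem_A.1 hx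
  have t : ∀ a < 1024, a < 2 ∨ ∃ j < 12, wa (qc (2 ^ j) >>> 10) a ≠ a := by
    have : allLt2 (fun a => blt a 2 || anyLt (fun j => !Nat.beq (wa (qc (2 ^ j) >>> 10) a) a) 12) 32 32 = true := by
      decide +kernel
    intro a ha
    have := allLt2_iff.1 this a ha
    simp only [Bool.or_eq_true, anyLt_iff] at this
    exact this.imp lt_of_blt fun ⟨j, hj, k⟩ => ⟨j, hj, fun e => by rw [e, Nat.beq_refl] at k; cases k⟩
  rcases t a ha with k | ⟨j, hj, k⟩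
  · interval_cases a
    exacts [.inl al_zero, .inr al_one]
  · refine absurd (h.toNF.al_inj (wa_lt _ _) ha ?_) k
    rw [← conj_al (isN_qc (pow12_lt hj)) ha, mul_inv_eq_iff_eq_mul]
    exact (hc _ (basis_mem hj)).symm

theorem ker_two [Finite G] {P : Subgroup G} (hP : IsPGroup 2 P) (hA : A ≤ P) (hQ : Qg φ ≤ P) {g : G}
    (hg : g ∈ P) (h1 : Kv ρ g c1) : g ∈ Qg φ := by
  obtain ⟨q, hq, e⟩ := h.ker h1
  have h2 := h.toNF.cent_A2 hP hA (mul_mem (inv_mem (hQ hq)) hg) fun a ha =>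
    e _ ((h.toNF.al_mem_Q (by omega)).2 ha)
  rw [← mul_mem_cancel_left (inv_mem hq)]
  rcases h.cent_Q h2 e with k | k <;> rw [k]
  exacts [one_mem _, s_mem]

/-- `P2` means normalising `A2 = W ∧ V` -/
theorem P2_iff (g : H1 φ) :
    P2 (ρ g) ↔ ∀ a < 128, ∃ b < 128, (g : G) * al φ a * (g : G)⁻¹ = al φ b := by
  have hN := h.toNF
  have hs : sg φ ∈ A := hN.al_mem (a := 1) (by norm_num)
  refine ⟨fun k a ha => ?_, fun k v hv hv' => ?_⟩
  · have hq : (g : G) * al φ a * (g : G)⁻¹ ∈ Qg φ :=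
      (mem_normalizer_iff.1 (mem_H1.1 g.2).2 _).1 ((hN.al_mem_Q (by omega)).2 ha)
    have hA : (g : G) * al φ a * (g : G)⁻¹ ∈ A := by
      obtain ⟨x, -, e⟩ := of_cases (h.conj g _ (aq_tab a ha).1)
      rw [al_qq ha, ← mul_assoc, mul_assoc _ _ (g : G)⁻¹,
        ← ((show Commute (g : G) (sg φ) from (mem_H1.1 g.2).1).pow_right _).inv_left.eq, ← mul_assoc, e]
      exact mul_mem (mul_mem ((hN.qq_mem_A (sv_lt _ _)).2 (k _ (aq_tab a ha).1 (aq_tab a ha).2.1))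
        (pow_mem hs _)) (pow_mem hs _)
    obtain ⟨b, hb, e⟩ := hN.mem_A.1 hA
    exact ⟨b, (hN.al_mem_Q hb).1 (e ▸ hq), e.symm⟩
  · obtain ⟨b, hb, e⟩ := k _ ((NF.qa_lt' hv hv').trans (by norm_num))
    obtain ⟨x, -, e'⟩ := of_cases (h.conj g v hv)
    rw [← qq_al hv hv', e'] at e
    exact (hN.qq_mem_A (sv_lt _ _)).1 ((mul_mem_cancel_right (pow_mem hs x)).1 (e ▸ hN.al_mem (by omega)))

end CF

theorem BF.mem_H (h : BF A φ ρ) {g : G} : g ∈ H1 φ ↔ g * sg φ = sg φ * g :=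
  ⟨fun k => (mem_H1.1 k).1, fun k => mem_H1.2 ⟨k, mem_normalizer_fintype (h.lx.norm g k)⟩⟩

theorem BF.ker (h : BF A φ ρ) {g : G} : Kv ρ g c1 ↔ g ∈ Qg φ := by
  refine ⟨fun k => ?_, h.toCF.kv_Q⟩
  obtain ⟨q, hq, e⟩ := h.toCF.ker k
  rw [← mul_mem_cancel_left (inv_mem hq)]
  rcases h.lx.self_cent _ e with k | k <;> rw [k]
  exacts [one_mem _, s_mem]

end CL.T10
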