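import Cfsg.Agent.SPOR.T10.Defs
import Cfsg.Agent.CHEV.CTRecog
import Cfsg.Agent.CHEV.ClGroups
import Cfsg.Agent.SPOR.D42.CT2
import Cfsg.Agent.SPOR.FiA11

/-!
Curtis-Tits for `D5` over the field of two elements.
-/

set_option autoImplicit false
set_option maxRecDepth 100000

namespace CL.T10

open CL.K CL.CG CL.F2M CL.F24 CL.LX CL.MSS Subgroup Cfsg
open CL.J4P (Kv)

attribute [local irreducible] gcode vcode

variable {G : Type*} [Group G] {A : Subgroup G} {φ : NT →* G} {ρ : H1 φ →* GL12}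

open MatrixGroups CL.Chev.CTM CL.SL2Hom in
/-- the six root elements of `SL3(2)` -/
def hex3 (k : ZMod 6) : SL(3, ZMod 2) :=
  if k = 0 then i1 (upper 1) else if k = 1 then i1 (upper 1) * i2 (upper 1) * i1 (upper 1) * i2 (upper 1)
  else if k = 2 then i2 (upper 1) else if k = 3 then i1 (lower 1)
  else if k = 4 then i1 (lower 1) * i2 (lower 1) * i1 (lower 1) * i2 (lower 1) else i2 (lower 1)

theorem hex3_hex : CL.D42.Hex hex3 := ⟨by decide +kernel, by decide +kernel, by decide +kernel⟩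

open MatrixGroups CL.Chev.CTM CL.SL2Hom in
theorem hex_of_compat {α β : SL(2, ZMod 2) →* G} (h : Compat α β) :
    ∃ k : ZMod 6 → G, CL.D42.Hex k ∧ k 0 = α (upper 1) ∧ k 3 = α (lower 1) ∧ k 2 = β (upper 1) ∧
      k 5 = β (lower 1) := by
  obtain ⟨π, rfl, rfl⟩ := h
  refine ⟨fun k => π (hex3 k), ⟨fun i => ?_, fun i => ?_, fun i => ?_⟩, rfl, rfl, rfl, rfl⟩
  · rw [← map_mul, hex3_hex.sq, map_one]
  · rw [← map_mul, hex3_hex.comm, map_mul]
  · rw [← map_mul, ← map_mul, hex3_hex.conj, map_mul]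

open MatrixGroups CL.Chev.CTM in
/-- PROOF. As `equiv_of_frames` (CHEV/CTRecog) with `S' = omPlusSt (ZMod 2)`, `baseD 3`. The hypothesis
`2 ≠ 0` of `exists_stData_simplyLaced` is only used for `IsA2.eta`, a statement about the root system:
obtain it from the data over `ZMod 3` (see also SPOR/D42/Main). Nodes 0 - 1 - 2 - 3 and 2 - 4. -/
theorem ctD5 [Finite G] [IsSimpleGroup G] (a : Fin 5 → (SL(2, ZMod 2) →* G)) (hgen : ⨆ i, (a i).range = ⊤)
    (hi : Function.Injective (a 0)) (c01 : Compat (a 0) (a 1)) (c12 : Compat (a 1) (a 2))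
    (c23 : Compat (a 2) (a 3)) (c24 : Compat (a 2) (a 4))
    (hc : ∀ p ∈ [((0 : Fin 5), (2 : Fin 5)), (0, 3), (0, 4), (1, 3), (1, 4), (3, 4)], ∀ x y,
      Commute (a p.1 x) (a p.2 y)) :
    Nonempty (G ≃* ↥(Omega (ZMod 2) (quadFormPlus 5 (ZMod 2)))) := by
  have : IsSimpleGroup (Cfsg.Omega (ZMod 2) (Cfsg.quadFormPlus (3 + 2) (ZMod 2))) :=
    (CL.FiA.simple_Omega2 (CL.Orth.QPlus_nondeg 5 (ZMod 2)) (by simp)).1
  have hG : ¬ IsMulCommutative G := fun hG => by
    have := upper_lower_comm (F := ZMod 2) (s := 1) (t := 1) (hi (by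
      rw [map_mul, map_mul]; exact hG.is_comm.comm _ _))
    simp at this
  have c4 : ∀ p ∈ [((0 : Fin 5), (2 : Fin 5)), (0, 3), (0, 4), (1, 3), (1, 4), (3, 4)], ∀ x y,
      Commute (a p.2 x) (a p.1 y) := fun p hp x y => (hc p hp y x).symm
  simp only [List.forall_mem_cons, List.not_mem_nil, IsEmpty.forall_iff, implies_true, and_true] at hc c4
  obtain ⟨h1, h2, h3, h4, h5, h6⟩ := hc
  obtain ⟨k1, k2, k3, k4, k5, k6⟩ := c4
  have c : ∀ i j, (∀ x y, Commute (a i x) (a j y)) → ∀ {u l}, Commute (a i u) (a j u) ∧ Commute (a i u) (a j l) ∧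
      Commute (a i l) (a j u) ∧ Commute (a i l) (a j l) := fun i j e _ _ => ⟨e _ _, e _ _, e _ _, e _ _⟩
  refine CL.D42.exists_hom_two hG (Chev.Cl.omPlusSt_good (ZMod 2) (n := 3) (by decide))
    (Chev.Cl.omPlusSt_top (ZMod 2) (n := 3) (by decide)) (fun k => a k (CL.SL2Hom.upper 1))
    (fun k => a k (CL.SL2Hom.lower 1)) (fun K k => ?_) (fun k => ?_) (fun k => ?_) (fun k => ?_) fun i j ij => ?_
  · rw [eq_top_iff, ← hgen]
    refine iSup_le fun i => ?_
    rintro _ ⟨A, rfl⟩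
    refine mem_of_upper_lower (K := K.comap (a i)) (fun t => ?_) (fun t => ?_) A
    · rcases CL.D42.z2c t with rfl | rfl
      · rw [upper_zero]; exact one_mem _
      · exact (k i).1
    · rcases CL.D42.z2c t with rfl | rfl
      · rw [lower_zero]; exact one_mem _
      · exact (k i).2
  · rw [← map_mul, show (CL.SL2Hom.upper 1 * CL.SL2Hom.upper 1 : SL(2, ZMod 2)) = 1 by decide, map_one]
  · rw [← map_mul, show (CL.SL2Hom.lower 1 * CL.SL2Hom.lower 1 : SL(2, ZMod 2)) = 1 by decide, map_one]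
  · simp only [← map_mul]
    exact congrArg (a k) (by decide)
  · simp only [Chev.Cl.baseD_A]
    fin_cases i <;> fin_cases j <;> first
      | exact absurd rfl ij
      | exact Or.inr ⟨rfl, rfl, hex_of_compat (by assumption)⟩
      | exact Or.inr ⟨rfl, rfl, hex_of_compat (Compat.symm (by assumption))⟩
      | exact Or.inl ⟨rfl, rfl, c _ _ (by assumption)⟩

end CL.T10
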