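import Cfsg.Agent.SPOR.T10.Alf

/-!
The subgroups of `Sp4(2) = S6` in which `S2 × S3` is the centraliser of its transposition (notes/t10/g4.py).
-/

set_option autoImplicit false
set_option maxRecDepth 100000

namespace CL.T10

open CL.K CL.CG CL.F2M CL.F24 CL.LX CL.MSS Subgroup Cfsg
open CL.J4P (Kv)

attribute [local irreducible] gcode vcode

variable {X : Subgroup GL12}


namespace Gam

/-- the elements of `S2 × S3` -/
def T0 (i : ℕ) : ℕ := fld 16 65535 0x69124812f9136f32c8134c32f6239f31c4238c3196218421 i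
/-- representatives of the double cosets -/
def DC : List ℕ := [0x8421, 0x8469, 0x2481, 0x84a5, 0x1a42, 0x124a, 0x184a, 0x1852, 0x1a48, 0x481a, 0x4a12, 0x4a18]
/-- the word `w` gives an element commuting with the transposition outside `S2 × S3` -/
noncomputable def badB (L w : List ℕ) : Bool :=
  lall (fun i => blt i (llen L)) w && force (word m4 L w 0x8421) fun x =>
    Nat.beq (m4 x 0x9621) (m4 0x9621 x) && allLt (fun i => !Nat.beq x (T0 i)) 12

theorem top4 {c d : ℕ} (h : F2M.unitB 4 0x1111 15 c d = true) : Mem (gcode : GL4 → ℕ) ⊤ c := ok4.mem_of_unitB h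

theorem top_L : ∀ c ∈ [0x9621, 0x8c31, 0xc423, 0x8469, 0x2481, 0x84a5], Mem (gcode : GL4 → ℕ) ⊤ c := fun c hc =>
  top4 ((show ∀ c ∈ [0x9621, 0x8c31, 0xc423, 0x8469, 0x2481, 0x84a5], F2M.unitB 4 0x1111 15 c c = true by
    decide +kernel) c hc)

theorem gen_L {L : List ℕ} (h : ∀ c ∈ L, c ∈ [0x9621, 0x8c31, 0xc423, 0x8469, 0x2481, 0x84a5]) :
    ∀ c ∈ L, Mem (gcode : GL4 → ℕ) (gen gcode L) c := mem_gen fun c hc => top_L c (h c hc)

theorem compl0 : Complete (gcode : GL4 → ℕ) (gen gcode L12) 12 T0 :=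
  C4.complete_of_closed (J := fun s i => fld 4 15 0x864b2a19075397b5a3816042ab7698325401 (12 * s + i))
    (by norm_num) (by decide +kernel) (by decide +kernel)

theorem sound0 : Sound (gcode : GL4 → ℕ) (gen gcode L12) 12 T0 :=
  C4.sound_tree (gen_L (by decide)) (m := 3) (A := fld 4 15 0x10021002100) (P := fld 4 15 0xa77623320000)
    le_rfl (C4.mem_one _) (by decide +kernel)

theorem chk : allLt (fun a => allLt (fun b => !Nat.beq (B4 a b) 0 || allLt (fun c => !Nat.beq (B4 a c) 1 ||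
    (!Nat.beq (B4 b c) 0 || allLt (fun d => !Nat.beq (B4 a d) 0 || (!Nat.beq (B4 b d) 1 || (!Nat.beq (B4 c d) 0 ||
      force (a + 16 * b + 256 * c + 4096 * d) fun g => anyLt (fun i => force (m4 (T0 i) g) fun x => anyLt (fun j =>
        force (m4 x (T0 j)) fun y => !lall (fun z => !Nat.beq y z) DC) 12) 12))) 16)) 16) 16) 16 = true := by
  decide +kernel

theorem a4_col (g : ℕ) : a4 g 1 = g % 16 ∧ a4 g 2 = g / 16 % 16 ∧ a4 g 4 = g / 256 % 16 ∧
    a4 g 8 = g / 4096 % 16 := by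
  have e : ∀ j < 4, a4 g (2 ^ j) = g / 2 ^ (4 * j) % 16 := fun j hj => by
    rw [show a4 g (2 ^ j) = lc (fld 4 15 g) 4 (2 ^ j) by unfold a4; rw [act, force_eq]; rfl, lc_pow _ hj, fld_eq,
      Nat.shiftRight_eq_div_pow]
    exact Nat.and_two_pow_sub_one_eq_mod _ 4
  exact ⟨by simpa using e 0 (by norm_num), e 1 (by norm_num), e 2 (by norm_num), e 3 (by norm_num)⟩

theorem dc {γ : GL4} (hs : ∀ u < 16, ∀ v < 16, B4 (a4 (gcode γ) u) (a4 (gcode γ) v) = B4 u v) :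
    ∃ x ∈ (gen gcode L12 : Subgroup GL4), ∃ y ∈ (gen gcode L12 : Subgroup GL4), gcode (x * γ * y) ∈ DC := by
  obtain ⟨e1, e2, e3, e4⟩ := a4_col (gcode γ)
  have l : gcode γ < 2 ^ (4 * 4) := by unfold gcode; exact mcode_lt _
  have m : ∀ x, x % 16 < 16 := fun x => Nat.mod_lt _ (by norm_num)
  have h1 := allLt_iff.1 (allLt_iff.1 chk _ (m (gcode γ))) _ (m (gcode γ / 16))
  have f : ∀ {b p : Bool}, b = true → (!b || p) = true → p = true := by decide
  rw [← e1, ← e2, hs 1 (by norm_num) 2 (by norm_num)] at h1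
  have h2 := allLt_iff.1 (f (by decide) h1) _ (m (gcode γ / 256))
  rw [← e3, hs 1 (by norm_num) 4 (by norm_num), hs 2 (by norm_num) 4 (by norm_num)] at h2
  have h3 := allLt_iff.1 (f (by decide) (f (by decide) h2)) _ (m (gcode γ / 4096))
  rw [← e4, hs 1 (by norm_num) 8 (by norm_num), hs 2 (by norm_num) 8 (by norm_num),
    hs 4 (by norm_num) 8 (by norm_num), e1, e2, e3, e4, force_eq, show gcode γ % 16 + 16 * (gcode γ / 16 % 16) +
      256 * (gcode γ / 256 % 16) + 4096 * (gcode γ / 4096 % 16) = gcode γ by omega] at h3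
  obtain ⟨i, hi, h4⟩ := anyLt_iff.1 (f (by decide) (f (by decide) (f (by decide) h3)))
  rw [force_eq] at h4
  obtain ⟨j, hj, h5⟩ := anyLt_iff.1 h4
  obtain ⟨x, hx, ex⟩ := sound0 i hi
  obtain ⟨y, hy, ey⟩ := sound0 j hj
  refine ⟨x, hx, y, hy, by_contra fun hn => ?_⟩
  rw [force_eq, ← ex, ← ey, C4.map_mul, C4.map_mul, lall_iff.2 fun z hz => by
    rw [ApiG.beq_false fun e : gcode (x * γ * y) = z => hn (e.symm ▸ hz)]; rfl] at h5
  exact absurd h5 (by decide)

end Gam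
open Gam

/-- PROOF. For the 720 symplectic matrices `γ`, `⟨L12, γ⟩` has order 12 (12 times), 36 (24), 72 (36), 120 (108),
48 (36) or 720 (504); in the last two cases it contains an element commuting with `0x9621` outside
`⟨L12⟩`. Use double cosets of `⟨L12⟩` to cut down the certificates. An element of `S5 \ ⟨L12⟩` and one of
`S3 wr 2 \ ⟨L12⟩` generate `S6`. -/
theorem gam4 (Γ : Subgroup GL4) (h0 : gen gcode L12 ≤ Γ)
    (hs : ∀ γ ∈ Γ, ∀ u < 16, ∀ v < 16, B4 (a4 (gcode γ) u) (a4 (gcode γ) v) = B4 u v)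
    (hc : ∀ γ ∈ Γ, m4 (gcode γ) 0x9621 = m4 0x9621 (gcode γ) → γ ∈ (gen gcode L12 : Subgroup GL4)) :
    Γ = gen gcode L12 ∨ Γ = gen gcode L36 ∨ Γ = gen gcode L72 ∨ Γ = gen gcode L120 := by
  have m0 : ∀ L : List ℕ, (∀ c ∈ L, Mem gcode Γ c) → ∀ c ∈ L12 ++ L, Mem gcode Γ c := fun L h c hc =>
    (List.mem_append.1 hc).elim (fun e => (gen_L (by decide) c e).mono h0) (h c)
  have bad : ∀ L w : List ℕ, (∀ c ∈ L, Mem gcode Γ c) → badB (L12 ++ L) w = true → False := fun L w h e => by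
    simp only [badB, force_eq, Bool.and_eq_true, lall_iff, allLt_iff, llen_eq] at e
    obtain ⟨x, hx, ex⟩ := C4.mem_word (m0 L h) (fun i hi => lt_of_blt (e.1 i hi)) (C4.mem_one Γ)
    rw [← ex] at e
    obtain ⟨i, hi, ei⟩ := compl0 x (hc x hx (eq_of_beq e.2.1))
    simpa [ei] using e.2.2 i hi
  have wd : ∀ {H : Subgroup GL4} {L : List ℕ}, (∀ c ∈ L, Mem gcode H c) → ∀ c w,
      wordsB m4 0x8421 L [(c, w)] = true → Mem gcode H c := fun h c w e => C4.mem_of_wordsB h e c (by simp)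
  have s : ∀ {c}, Mem gcode Γ c → ∀ d ∈ [c], Mem gcode Γ d := fun h d hd => List.mem_singleton.1 hd ▸ h
  have le : ∀ {L L' : List ℕ}, (∀ c ∈ L, c ∈ L') → (gen gcode L : Subgroup GL4) ≤ gen gcode L' :=
    fun h => Subgroup.closure_mono fun _ e => h _ e
  have key : ∀ γ ∈ Γ, γ ∈ gen gcode L12 ∨ (Mem gcode Γ 0x8469 ∧ γ ∈ gen gcode L36) ∨
      (Mem gcode Γ 0x8469 ∧ Mem gcode Γ 0x2481 ∧ γ ∈ gen gcode L72) ∨
      (Mem gcode Γ 0x84a5 ∧ γ ∈ gen gcode L120) := fun γ hγ => by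
    obtain ⟨x, hx, y, hy, e⟩ := dc (hs γ hγ)
    have m := mem_code (φ := gcode) (mul_mem (mul_mem (h0 hx) hγ) (h0 hy))
    have b : ∀ {L : List ℕ}, (∀ c ∈ L12, c ∈ L) → Mem gcode (gen gcode L) (gcode (x * γ * y)) →
        γ ∈ (gen gcode L : Subgroup GL4) := fun h e =>
      (mul_mem_cancel_left (le h hx)).1 ((mul_mem_cancel_right (le h hy)).1 (C4.mem_iff.1 e))
    simp only [DC, List.mem_cons, List.not_mem_nil, or_false] at e
    rcases e with e | e | e | e | e | e | e | e | e | e | e | e <;> rw [e] at m b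
    · exact .inl (b (by decide) (C4.mem_one _))
    · exact .inr (.inl ⟨m, b (by decide) (gen_L (by decide) _ (by decide))⟩)
    · exact .inr (.inr (.inl ⟨wd (m0 _ (s m)) _ [3, 2, 3] (by decide +kernel), m,
        b (by decide) (gen_L (by decide) _ (by decide))⟩))
    · exact .inr (.inr (.inr ⟨m, b (by decide) (gen_L (by decide) _ (by decide))⟩))
    · exact .inr (.inr (.inr ⟨wd (m0 _ (s m)) _ [0, 1, 3, 2, 3, 2] (by decide +kernel),
        b (by decide) (wd (gen_L (by decide)) _ [0, 3, 1, 3, 0, 3] (by decide +kernel))⟩))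
    · exact (bad _ [3, 1, 3, 3, 3] (s m) (by decide +kernel)).elim
    · exact (bad _ [3, 3, 3] (s m) (by decide +kernel)).elim
    · exact (bad _ [3, 2, 3, 2, 3, 3] (s m) (by decide +kernel)).elim
    · exact (bad _ [3, 3, 0, 3, 3] (s m) (by decide +kernel)).elim
    · exact (bad _ [3, 0, 1, 2, 3] (s m) (by decide +kernel)).elim
    · exact (bad _ [3] (s m) (by decide +kernel)).elim
    · exact (bad _ [3, 3, 2, 3, 2, 3] (s m) (by decide +kernel)).elim
  by_cases hF : Mem gcode Γ 0x84a5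
  · have hY : ¬ Mem gcode Γ 0x8469 := fun hY => bad [0x8469, 0x84a5] [3, 0, 4, 0, 3] (by simp [hY, hF])
      (by decide +kernel)
    refine .inr (.inr (.inr (le_antisymm (fun γ hγ => ?_) (C4.gen_le (m0 _ (s hF))))))
    rcases key γ hγ with e | e | e | e
    exacts [le (by decide) e, absurd e.1 hY, absurd e.1 hY, e.2]
  by_cases hY : Mem gcode Γ 0x8469
  · by_cases hT : Mem gcode Γ 0x2481
    · refine .inr (.inr (.inl (le_antisymm (fun γ hγ => ?_) (C4.gen_le (m0 [0x8469, 0x2481] (by simp [hY, hT]))))))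
      rcases key γ hγ with e | e | e | e
      exacts [le (by decide) e, le (by decide) e.2, e.2.2, absurd e.1 hF]
    · refine .inr (.inl (le_antisymm (fun γ hγ => ?_) (C4.gen_le (m0 _ (s hY)))))
      rcases key γ hγ with e | e | e | e
      exacts [le (by decide) e, e.2, absurd e.2.1 hT, absurd e.1 hF]
  · refine .inl (le_antisymm (fun γ hγ => ?_) h0)
    rcases key γ hγ with e | e | e | e
    exacts [e, absurd e.1 hY, absurd e.1 hY, absurd e.1 hF]

theorem XF.gam (h : XF X) : (∀ g ∈ X, sv g 1 = 1 → g ∈ MB) ∨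
    ((∀ g ∈ X, sv g 1 = 1 → Al L36 g) ∧ ∃ g ∈ X, sv g 1 = 1 ∧ alf (gcode g) = 0x8469) ∨
    ((∀ g ∈ X, sv g 1 = 1 → Al L72 g) ∧ (∃ g ∈ X, sv g 1 = 1 ∧ alf (gcode g) = 0x8469) ∧
      ∃ g ∈ X, sv g 1 = 1 ∧ alf (gcode g) = 0x2481) ∨ JC X := by
  have o : alf (gcode (1 : GL12)) = gcode (1 : GL4) := by rw [C12.map_one, C4.map_one]; decide +kernel
  let Γ : Subgroup GL4 :=
    { carrier := {γ | ∃ g ∈ X, sv g 1 = 1 ∧ alf (gcode g) = gcode γ}
      one_mem' := ⟨1, one_mem _, sv_one (by norm_num), o⟩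
      mul_mem' := by
        rintro γ δ ⟨g, g1, g2, g3⟩ ⟨k, k1, k2, k3⟩
        exact ⟨g * k, mul_mem g1 k1, by rw [sv_mul _ _ (by norm_num), k2, g2],
          by rw [h.alf_mul g1 g2 k1 k2, g3, k3, C4.map_mul]⟩
      inv_mem' := by
        rintro γ ⟨g, g1, g2, g3⟩
        have k2 : sv g⁻¹ 1 = 1 := by
          rw [← g2, ← sv_mul _ _ (by norm_num), inv_mul_cancel, g2, sv_one (by norm_num)]
        obtain ⟨δ, -, e⟩ := h.alf_top (inv_mem g1) k2
        have := h.alf_mul g1 g2 (inv_mem g1) k2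
        rw [mul_inv_cancel, o, g3, ← e, C4.map_mul] at this
        exact ⟨_, inv_mem g1, k2, by rw [← e, eq_inv_of_mul_eq_one_right (C4.inj this).symm]⟩ }
  have a : ∀ {L}, Γ = gen gcode L → ∀ g ∈ X, sv g 1 = 1 → Al L g := fun e g g1 g2 => by
    obtain ⟨γ, -, e'⟩ := h.alf_top g1 g2
    exact ⟨γ, e.le ⟨g, g1, g2, e'.symm⟩, e'⟩
  have b : ∀ {L}, Γ = gen gcode L → ∀ c, Mem gcode (gen gcode L : Subgroup GL4) c →
      ∃ g ∈ X, sv g 1 = 1 ∧ alf (gcode g) = c := fun e c ⟨γ, hγ, e'⟩ => e' ▸ e.ge hγ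
  rcases gam4 Γ (fun γ hγ => by
      obtain ⟨g, g1, g2⟩ := ex_MB (mem_code hγ)
      exact ⟨g, h.le g1, g2⟩)
    (fun γ ⟨g, g1, g2, g3⟩ u hu v hv => g3 ▸ h.alf_sp g1 g2 hu hv)
    (fun γ ⟨g, g1, g2, g3⟩ e => C4.mem_iff.1 (g3 ▸ al_MB (h.alf_cent g1 g2 (g3.symm ▸ e)) g2)) with e | e | e | e
  · refine .inl fun g g1 g2 => ?_
    obtain ⟨k, k1, k2, k3⟩ := ex_MB (a e g g1 g2)
    exact (mul_mem_cancel_right (inv_mem k1)).1
      (le_chain.2.2.2.1 (le_chain.2.2.1 (h.mul_inv_mem g1 g2 (h.le k1) k2 k3.symm)))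
  · exact .inr (.inl ⟨a e, b e _ (gen_L (by decide) _ (by decide))⟩)
  · exact .inr (.inr (.inl ⟨a e, b e _ (gen_L (by decide) _ (by decide)), b e _ (gen_L (by decide) _ (by decide))⟩))
  · exact .inr (.inr (.inr ⟨a e, b e _ (gen_L (by decide) _ (by decide))⟩))

end CL.T10
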