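import Cfsg.Agent.SPOR.T10.J4a
import Cfsg.Agent.SPOR.T10.ApiM
import Cfsg.Agent.SPOR.J4P.PCx

/-!
The subgroup `L = 2 ^ (3 + 12)`, its centre and coordinates.
-/

set_option autoImplicit false
set_option maxRecDepth 100000
set_option linter.unusedSectionVars false

namespace CL.T10.J4x

open CL.K CL.CG CL.F2M CL.F24 CL.LX CL.MSS CL.J4P Subgroup Cfsg

attribute [local irreducible] gcode vcode

variable {G : Type*} [Group G] {A : Subgroup G} {φ : NT →* G} {ρ : H1 φ →* GL12}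

/-- the action on a section with coordinates -/
theorem exists_rho {K L : Subgroup G} {κ : G → ℕ} (hl : ∀ a ∈ L, κ a < 4096)
    (hm : ∀ a ∈ L, ∀ b ∈ L, κ (a * b) = κ a ^^^ κ b) (hs : ∀ v < 4096, ∃ a ∈ L, κ a = v)
    (hK : ∀ k ∈ K, ∀ a ∈ L, k * a * k⁻¹ ∈ L) (hz : ∀ k ∈ K, ∀ a ∈ L, κ a = 0 → κ (k * a * k⁻¹) = 0) :
    ∃ r : K →* GL12, ∀ k : K, ∀ a ∈ L, κ (k * a * (k : G)⁻¹) = ac (gcode (r k)) (κ a) := by
  let κ' : G → W := fun g => vdec 12 (κ g)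
  have hm' : ∀ x ∈ L, ∀ y ∈ L, κ' (x * y) = κ' x + κ' y := fun x hx y hy => by
    simp only [κ', hm x hx y hy, vdec_xor]
  have hs' : ∀ v : W, ∃ x ∈ L, κ' x = v := fun v => by
    obtain ⟨x, hx, e⟩ := hs _ (vcode_lt v)
    exact ⟨x, hx, by simp only [κ', e, vdec_vcode]⟩
  have hk : ∀ x ∈ L, κ' x = 0 ↔ κ x = 0 := fun x hx =>
    ⟨fun e => eq_of_vdec (n := 12) (hl x hx) (by norm_num) (e.trans vdec_zero.symm),
      fun e => by simp only [κ', e, vdec_zero]⟩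
  choose σ h1 h2 using hs'
  have cj : ∀ g : K, ∀ x ∈ L, g * x * (g : G)⁻¹ ∈ L := fun g => hK g g.2
  have key : ∀ g : K, ∀ x ∈ L, κ' (g * σ (κ' x) * (g : G)⁻¹) = κ' (g * x * (g : G)⁻¹) := by
    intro g x hx
    have a : (σ (κ' x))⁻¹ * x ∈ L := mul_mem (inv_mem (h1 _)) hx
    have b := hm' _ (h1 (κ' x)) _ a
    rw [mul_inv_cancel_left, h2, left_eq_add, hk _ a] at b
    have c := hm' _ (cj g _ (h1 (κ' x))) _ (cj g _ a)
    rw [(hk _ (cj g _ a)).2 (hz g g.2 _ a b), add_zero] at c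
    rw [← c]; congr 1; group
  let f : K → W →ₗ[ZMod 2] W := fun g => AddMonoidHom.toZModLinearMap 2
    (AddMonoidHom.mk' (fun v => κ' (g * σ v * (g : G)⁻¹)) fun u v => by
      rw [← hm' _ (cj g _ (h1 u)) _ (cj g _ (h1 v)), conj_mul, ← key g _ (mul_mem (h1 u) (h1 v)),
        hm' _ (h1 u) _ (h1 v), h2, h2])
  have hf : ∀ g v, f g v = κ' (g * σ v * (g : G)⁻¹) := fun _ _ => rfl
  let F : K →* Matrix (Fin 12) (Fin 12) (ZMod 2) :=
    { toFun := fun g => LinearMap.toMatrix' (f g)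
      map_one' := by
        rw [← LinearMap.toMatrix'_id]; exact congrArg _ (LinearMap.ext fun v => by simp [hf, h2])
      map_mul' := fun g k => by
        rw [← LinearMap.toMatrix'_mul]
        refine congrArg _ (LinearMap.ext fun v => ?_)
        rw [Module.End.mul_apply, hf, hf, hf, key g _ (cj k _ (h1 v))]; simp [mul_assoc] }
  refine ⟨F.toHomUnits, fun g x hx => ?_⟩
  have e : κ' (g * x * (g : G)⁻¹) = F.toHomUnits g • κ' x :=
    ((LinearMap.toMatrix'_mulVec (f g) _).trans (key g x hx)).symm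
  rw [← vcode_vdec (n := 12) (hl x hx), ac_code, ← vcode_vdec (n := 12) (hl _ (cj g x hx))]
  exact congrArg vcode e

/-- elements of `L` -/
noncomputable def lx (φ : NT →* G) (a u : ℕ) : G := el φ (nc a (rl u))
/-- elements of the centre -/
noncomputable def ze (φ : NT →* G) (c : ℕ) : G := al φ (zc c)
/-- coordinates -/
noncomputable def ka (φ : NT →* G) (x : G) : ℕ := kap (ncode (Function.invFun φ x))

theorem isN_lx {a u : ℕ} (ha : a < 512) (hu : u < 64) : isN (nc a (rl u)) = true :=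
  isN_nc (by omega) (rl_tab u hu).1

theorem x6 {a b : ℕ} (ha : a < 64) (hb : b < 64) : a ^^^ b < 64 := Nat.xor_lt_two_pow (n := 6) ha hb

theorem x9 {a b : ℕ} (ha : a < 512) (hb : b < 512) : a ^^^ b < 512 := Nat.xor_lt_two_pow (n := 9) ha hb

theorem wa_rl {a u : ℕ} (ha : a < 512) (hu : u < 64) : wa (rl u) a < 512 ∧ K1 (wa (rl u) a) = K1 a := by
  have := zc_tab _ (sqC_lt (K1 a ^^^ K3 u))
  rw [(L_tab ha hu).1, K1_xor, this.2.1, Nat.xor_zero]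
  exact ⟨x9 ha this.1, rfl⟩

theorem lx_mul {a u b w : ℕ} (ha : a < 512) (hu : u < 64) (hb : b < 512) (hw : w < 64) :
    lx φ a u * lx φ b w = lx φ (a ^^^ wa (rl u) b) (u ^^^ w) := by
  rw [lx, lx, lx, ← el_mul (isN_lx ha hu) (isN_lx hb hw), nm_nc (by omega) (by omega), (rl_tab u hu).2.2 w hw]

theorem lx_zero (a : ℕ) : lx φ a 0 = al φ a := rfl

theorem lx_sq {a u : ℕ} (ha : a < 512) (hu : u < 64) :
    lx φ a u * lx φ a u = ze φ (sqC (K1 a ^^^ K3 u)) := by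
  rw [lx_mul ha hu ha hu, Nat.xor_self, (L_tab ha hu).1, ← Nat.xor_assoc, Nat.xor_self, Nat.zero_xor]
  rfl

theorem ze_mul {c d : ℕ} (hc : c < 8) (hd : d < 8) : ze φ (c ^^^ d) = ze φ c * ze φ d := by
  have h1 := (zc_tab c hc).1
  have h2 := (zc_tab d hd).1
  rw [ze, (zc_tab c hc).2.2.2 d hd, al_xor (by omega) (by omega)]; rfl

theorem ze_zero : ze φ 0 = 1 := al_zero

theorem ze_sq {c : ℕ} (hc : c < 8) : ze φ c * ze φ c = 1 := by rw [← ze_mul hc hc, Nat.xor_self, ze_zero]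

theorem ze_four : ze φ 4 = sg φ := al_one

theorem ze_two : ze φ 2 = qq φ 1 := al_two.trans qq_one.symm

theorem ze_one : ze φ 1 = qq φ 64 := congrArg (el φ) (by decide +kernel)

/-- `L` -/
noncomputable def Lg (φ : NT →* G) : Subgroup G where
  carrier := {x | ∃ a < 512, ∃ u < 64, x = lx φ a u}
  one_mem' := ⟨0, by norm_num, 0, by norm_num, al_zero.symm⟩
  mul_mem' := by
    rintro _ _ ⟨a, ha, u, hu, rfl⟩ ⟨b, hb, w, hw, rfl⟩
    exact ⟨_, x9 ha (wa_rl hb hu).1, _, x6 hu hw, lx_mul ha hu hb hw⟩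
  inv_mem' := by
    rintro _ ⟨a, ha, u, hu, rfl⟩
    have h1 := (zc_tab _ (sqC_lt (K1 a ^^^ K3 u))).1
    refine ⟨_, x9 ha (wa_rl h1 hu).1, _, x6 hu (by norm_num : 0 < 64),
      (inv_eq_of_mul_eq_one_right ?_).trans (lx_mul ha hu h1 (by norm_num))⟩
    rw [← mul_assoc, lx_sq ha hu]
    exact ze_sq (sqC_lt _)

/-- the centre of `L` -/
noncomputable def Zg (φ : NT →* G) : Subgroup G where
  carrier := {x | ∃ c < 8, x = ze φ c}
  one_mem' := ⟨0, by norm_num, ze_zero.symm⟩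
  mul_mem' := by
    rintro _ _ ⟨a, ha, rfl⟩ ⟨b, hb, rfl⟩
    exact ⟨_, xor8 ha hb, (ze_mul ha hb).symm⟩
  inv_mem' := by
    rintro _ ⟨a, ha, rfl⟩
    exact ⟨a, ha, inv_eq_of_mul_eq_one_right (ze_sq ha)⟩

theorem lx_mem {a u : ℕ} (ha : a < 512) (hu : u < 64) : lx φ a u ∈ Lg φ := ⟨a, ha, u, hu, rfl⟩

theorem ze_mem {c : ℕ} (hc : c < 8) : ze φ c ∈ Lg φ := lx_mem (zc_tab c hc).1 (by norm_num : 0 < 64)

theorem ze_memZ {c : ℕ} (hc : c < 8) : ze φ c ∈ Zg φ := ⟨c, hc, rfl⟩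

theorem s_memL : sg φ ∈ Lg φ := ze_four (φ := φ) ▸ ze_mem (by norm_num)

/-- `k` normalises `L` and acts as the matrix `X` -/
def Ac (φ : NT →* G) (k : G) (X : ℕ) : Prop :=
  ∀ x ∈ Lg φ, k * x * k⁻¹ ∈ Lg φ ∧ ka φ (k * x * k⁻¹) = ac X (ka φ x)

theorem mem_C {c : G} (h1 : c * ze φ 1 = ze φ 1 * c) (h2 : c * ze φ 2 = ze φ 2 * c)
    (h4 : c * ze φ 4 = ze φ 4 * c) : c ∈ centralizer (Zg φ : Set G) := by
  rintro _ ⟨d, hd, rfl⟩
  have m : ∀ {a b : ℕ}, a < 8 → b < 8 → c * ze φ a = ze φ a * c → c * ze φ b = ze φ b * c →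
      c * ze φ (a ^^^ b) = ze φ (a ^^^ b) * c := fun ha hb e e' => by
    rw [ze_mul ha hb]; exact Commute.mul_right e e'
  have h3 := m (by norm_num) (by norm_num) h1 h2
  interval_cases d
  exacts [by rw [ze_zero, one_mul, mul_one], h1.symm, h2.symm, h3.symm, h4.symm,
    (m (by norm_num) (by norm_num) h1 h4).symm, (m (by norm_num) (by norm_num) h2 h4).symm,
    (m (by decide) (by norm_num) h3 h4).symm]

theorem C_comm {c : G} (hc : c ∈ centralizer (Zg φ : Set G)) {d : ℕ} (hd : d < 8) :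
    c * ze φ d = ze φ d * c := (hc _ (ze_memZ hd)).symm

theorem C_conj {c w : G} (hc : c ∈ centralizer (Zg φ : Set G)) (hw : w ∈ normalizer (Zg φ : Set G)) :
    w * c * w⁻¹ ∈ centralizer (Zg φ : Set G) := fun z hz => by
  have := hc _ ((mem_normalizer_iff.1 (inv_mem hw) z).1 hz)
  calc z * (w * c * w⁻¹) = w * (w⁻¹ * z * w⁻¹⁻¹ * c) * w⁻¹ := by group
    _ = _ := by rw [this]; group

theorem mem_K [Finite G] {g : G} : g ∈ normalizer (Zg φ : Set G) ↔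
    ∀ c < 8, ∃ d < 8, g * ze φ c * g⁻¹ = ze φ d :=
  ⟨fun h c hc => (mem_normalizer_iff.1 h _).1 (ze_memZ hc),
    fun h => mem_normalizer_fintype (by rintro _ ⟨c, hc, rfl⟩; exact h c hc)⟩

theorem C_le : centralizer (Zg φ : Set G) ≤ normalizer (Zg φ : Set G) := centralizer_le_normalizer _

section NF
variable (h : NF A φ)
include h

theorem ka_lx {a u : ℕ} (ha : a < 512) (hu : u < 64) : ka φ (lx φ a u) = K1 a ^^^ K3 u := by
  rw [ka, lx, el, Function.leftInverse_invFun h.inj, (memN (isN_lx ha hu)).code_elt, kap,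
    nc_and (by omega), nc_shift (by omega), (rl_tab u hu).2.1]
  rfl

theorem ka_lt {x : G} (hx : x ∈ Lg φ) : ka φ x < 4096 := by
  obtain ⟨a, ha, u, hu, rfl⟩ := hx
  rw [ka_lx h ha hu]; exact xor12 (K1_lt _) (K3_lt _)

theorem ka_mul {x y : G} (hx : x ∈ Lg φ) (hy : y ∈ Lg φ) : ka φ (x * y) = ka φ x ^^^ ka φ y := by
  obtain ⟨a, ha, u, hu, rfl⟩ := hx
  obtain ⟨b, hb, w, hw, rfl⟩ := hy
  rw [lx_mul ha hu hb hw, ka_lx h (x9 ha (wa_rl hb hu).1) (x6 hu hw), ka_lx h ha hu, ka_lx h hb hw, K1_xor,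
    K3_xor, (wa_rl hb hu).2, xor4]

theorem ka_surj {v : ℕ} (hv : v < 4096) : ∃ x ∈ Lg φ, ka φ x = v := by
  obtain ⟨h1, h2, h3⟩ := (v_tab hv).1
  exact ⟨_, lx_mem h1 h2, (ka_lx h h1 h2).trans h3⟩

theorem ka_zero {x : G} (hx : x ∈ Lg φ) : ka φ x = 0 ↔ x ∈ Zg φ := by
  constructor
  · obtain ⟨a, ha, u, hu, rfl⟩ := hx
    rw [ka_lx h ha hu]
    intro e
    obtain ⟨rfl, e'⟩ := (L_tab ha hu).2.2 e
    exact ⟨_, cz_lt a, congrArg (al φ) e'⟩
  · rintro ⟨c, hc, rfl⟩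
    exact (ka_lx h (zc_tab c hc).1 (by norm_num : 0 < 64)).trans (by rw [(zc_tab c hc).2.1]; rfl)

theorem ka_inv {x : G} (hx : x ∈ Lg φ) : ka φ x⁻¹ = ka φ x := by
  have := ka_mul h hx (inv_mem hx)
  rw [mul_inv_cancel, (ka_zero h (one_mem _)).2 (one_mem _)] at this
  exact (Nat.xor_eq_zero_iff.1 this.symm).symm

theorem L_sq {x : G} (hx : x ∈ Lg φ) : x * x = ze φ (sqC (ka φ x)) := by
  obtain ⟨a, ha, u, hu, rfl⟩ := hx
  rw [ka_lx h ha hu, lx_sq ha hu]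

theorem ze_inj {c d : ℕ} (hc : c < 8) (hd : d < 8) (e : ze φ c = ze φ d) : c = d := by
  have h1 := zc_tab c hc
  have h2 := zc_tab d hd
  rw [← h1.2.2.1, h.al_inj (by omega) (by omega) e, h2.2.2.1]

theorem L_C {x : G} (hx : x ∈ Lg φ) : x ∈ centralizer (Zg φ : Set G) := by
  obtain ⟨a, ha, u, hu, rfl⟩ := hx
  rintro _ ⟨c, hc, rfl⟩
  have h1 := zc_tab c hc
  have h2 : ∀ u < 64, ∀ c < 8, wa (rl u) (zc c) = zc c := by decide +kernel
  rw [ze, ← lx_zero, lx_mul h1.1 (by norm_num) ha hu, lx_mul ha hu h1.1 (by norm_num), h2 u hu c hc,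
    show rl 0 = i5 from rfl, wa_one (by omega), Nat.xor_comm, Nat.xor_comm u]

theorem L_comm {a b : G} (ha : a ∈ Lg φ) (hb : b ∈ Lg φ) :
    a * b = b * a * ze φ (cmC (ka φ a) (ka φ b)) := by
  have h1 : (b * a)⁻¹ * (a * b) ∈ Lg φ := mul_mem (inv_mem (mul_mem hb ha)) (mul_mem ha hb)
  obtain ⟨c, hc, e⟩ := (ka_zero h h1).1 (by
    rw [ka_mul h (inv_mem (mul_mem hb ha)) (mul_mem ha hb), ka_inv h (mul_mem hb ha), ka_mul h hb ha,
      ka_mul h ha hb, Nat.xor_comm (ka φ a), Nat.xor_self])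
  have e1 : a * b = b * a * ze φ c := by rw [← e, mul_inv_cancel_left]
  have e2 := L_sq h (mul_mem hb ha)
  have e3 : b * a * (b * a) = b * b * (a * a) * ze φ c := by
    calc b * a * (b * a) = b * (a * b) * a := by group
      _ = b * b * a * (ze φ c * a) := by rw [e1]; group
      _ = _ := by rw [← C_comm (L_C h ha) hc]; group
  rw [e3, L_sq h ha, L_sq h hb, ka_mul h hb ha, sqC_xor, ze_mul (xor8 (sqC_lt _) (sqC_lt _)) (cmC_lt _ _),
    ze_mul (sqC_lt _) (sqC_lt _), mul_right_inj] at e2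
  rw [e1, e2, cmC_comm]

theorem ac_ll {w w' X : ℕ} (e : acB w w' X = true) : Ac φ (ll φ w) X := by
  simp only [acB, Bool.and_eq_true, allLt_iff, allLt2_iff, force_eq] at e
  obtain ⟨g1, g2, g3, g4, g5⟩ := e
  rintro _ ⟨a, ha, u, hu, rfl⟩
  obtain ⟨a1, a2⟩ := g4 a ha
  obtain ⟨a3, a4⟩ := g5 u hu
  have i1 : (ll φ w)⁻¹ = ll φ w' := inv_eq_of_mul_eq_one_right (by rw [← ll_mul g1 g2, eq_of_beq g3, ll_one])
  have i2 : isG (m5 w (rl u)) = true := by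
    rw [← code_E5 g1, ← code_E5 (rl_tab u hu).1, C5.map_mul]; exact isG_code _
  have i3 := conj_al (φ := φ) (isN_nc (by norm_num : 0 < 1024) g1) (show a < 1024 by omega)
  rw [show nc 0 w >>> 10 = w from nc_shift (by norm_num) w] at i3
  have i4 : ll φ w * lx φ a u * (ll φ w)⁻¹ = lx φ (wa w a) (ur (m5 (m5 w (rl u)) w')) := by
    rw [lx, lx, el_nc (by omega) (rl_tab u hu).1, el_nc (wa_lt _ _) (rl_tab _ (ur_lt _)).1, ← eq_of_beq a3,
      ll_mul i2 g2, ll_mul g1 (rl_tab u hu).1, ← i1, ← i3, ll]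
    group
  rw [i4, ka_lx h (lt_of_blt a1) (ur_lt _), ka_lx h ha hu, eq_of_beq a2, eq_of_beq a4, ac_xor']
  exact ⟨lx_mem (lt_of_blt a1) (ur_lt _), rfl⟩

theorem Ac.memK [Finite G] {k : G} {X : ℕ} (e : Ac φ k X) : k ∈ normalizer (Zg φ : Set G) :=
  mem_K.2 fun c hc => (ka_zero h (e _ (ze_mem hc)).1).1 (by
    have := ac_xor' X 0 0
    rw [Nat.xor_self, Nat.xor_self] at this
    rw [(e _ (ze_mem hc)).2, (ka_zero h (ze_mem hc)).2 (ze_memZ hc), this])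

theorem acs : Ac φ (ll φ y5) jy ∧ Ac φ (ll φ y5i) jyi ∧ Ac φ (ll φ (tv 1 2)) ju ∧ Ac φ (ll φ (tv 1 3)) jt1 ∧
    Ac φ (ll φ (tv 2 3)) jt2 ∧ Ac φ (ll φ (tv 3 2)) j32 ∧ Ac φ (ll φ (tv 3 1)) j31 := by
  have := chk_ac
  simp only [Bool.and_eq_true] at this
  obtain ⟨⟨⟨⟨⟨⟨a, b⟩, c⟩, d⟩, e⟩, f⟩, g⟩ := this
  exact ⟨ac_ll h a, ac_ll h b, ac_ll h c, ac_ll h d, ac_ll h e, ac_ll h f, ac_ll h g⟩

theorem qq_memL {v : ℕ} (hv : v < 4096) (e : v &&& 520 = 0) : qq φ v ∈ Lg φ := by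
  obtain ⟨a, ha, u, hu, e'⟩ := (v_tab hv).2.1 e
  exact ⟨a, ha, u, hu, congrArg (el φ) e'⟩

theorem memL_of_Q {x : G} (hx : x ∈ Qg φ) (hc : x ∈ centralizer (Zg φ : Set G)) : x ∈ Lg φ := by
  obtain ⟨v, hv, e⟩ := mem_Q.1 hx
  have h1 : qq φ v ∈ centralizer (Zg φ : Set G) := by
    rcases e with rfl | rfl
    exacts [hc, (mul_mem_cancel_right (L_C h s_memL)).1 hc]
  have h2 := qq_memL h hv ((v_tab hv).2.2.1
    ((h.qq_comm hv (by norm_num)).1 (ze_two (φ := φ) ▸ C_comm h1 (by norm_num)))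
    ((h.qq_comm hv (by norm_num)).1 (ze_one (φ := φ) ▸ C_comm h1 (by norm_num))))
  rcases e with rfl | rfl
  exacts [h2, mul_mem h2 s_memL]

theorem memQ_of_L {x : G} (hx : x ∈ Lg φ) (e : ka φ x < 256) : x ∈ Qg φ := by
  obtain ⟨a, ha, u, hu, rfl⟩ := hx
  rw [ka_lx h ha hu] at e
  obtain ⟨e1, e2⟩ := (L_tab ha hu).2.1 e
  have := bit_lt a 0
  rw [lx, e1]
  rcases (by omega : bit a 0 = 0 ∨ bit a 0 = 1) with e3 | e3 <;> rw [e3]
  · exact qq_mem e2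
  · rw [el_qc_succ e2]; exact mul_mem (qq_mem e2) s_mem

/-- `K = GL(e1, e2, e3) C(Z)` -/
theorem dec [Finite G] {k : G} (hk : k ∈ normalizer (Zg φ : Set G)) :
    ∃ g ∈ (gen gcode [y5, tv 1 2] : Subgroup GL5), (φ (inl5 g))⁻¹ * k ∈ centralizer (Zg φ : Set G) := by
  choose! f f1 f2 using mem_K.1 hk
  have f3 : ∀ c < 8, ∀ d < 8, f (c ^^^ d) = f c ^^^ f d := fun c hc d hd =>
    ze_inj h (f1 _ (xor8 hc hd)) (xor8 (f1 c hc) (f1 d hd)) (by
      rw [ze_mul (f1 c hc) (f1 d hd), ← f2 _ (xor8 hc hd), ← f2 c hc, ← f2 d hd, ze_mul hc hd, conj_mul])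
  have f4 : ∀ c < 8, c ≠ 0 → f c ≠ 0 := fun c hc h0 e => h0 (ze_inj h hc (by norm_num) (by
    have := f2 c hc
    rw [e, ze_zero] at this
    rw [ze_zero]; exact conj_eq_one_iff.1 this))
  have g3 := f3 1 (by norm_num) 2 (by norm_num)
  obtain ⟨j, hj, e1, e2, e3⟩ := TV_tab (f1 1 (by norm_num)) (f1 2 (by norm_num)) (f1 4 (by norm_num))
    (f4 1 (by norm_num) (by norm_num)) (f4 2 (by norm_num) (by norm_num)) (f4 4 (by norm_num) (by norm_num))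
    (g3 ▸ f4 _ (by decide) (by decide))
    (f3 1 (by norm_num) 4 (by norm_num) ▸ f4 _ (by decide) (by decide))
    (f3 2 (by norm_num) 4 (by norm_num) ▸ f4 _ (by decide) (by decide))
    (g3 ▸ f3 _ (by decide : 1 ^^^ 2 < 8) 4 (by norm_num) ▸ f4 _ (by decide) (by decide))
  obtain ⟨g, hg, e⟩ := sound_TV j hj
  have k : ∀ c < 8, wa (TV j) (zc c) = zc (f c) →
      (φ (inl5 g))⁻¹ * k * ze φ c = ze φ c * ((φ (inl5 g))⁻¹ * k) := fun c hc e' => by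
    have := conj_al' (φ := φ) (inl5 g) (show zc c < 1024 by have := (zc_tab c hc).1; omega)
    rw [show (inl5 g).g = g from rfl, e, e'] at this
    have h2 := (f2 c hc).trans this.symm
    calc (φ (inl5 g))⁻¹ * k * ze φ c = (φ (inl5 g))⁻¹ * (k * ze φ c * k⁻¹) * k := by group
      _ = _ := by rw [h2, ze]; group
  exact ⟨g, hg, mem_C (k 1 (by norm_num) e1) (k 2 (by norm_num) e2) (k 4 (by norm_num) e3)⟩

end NF

end CL.T10.J4x
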