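import Cfsg.Agent.SPOR.T10.J4b
import Cfsg.Agent.SPOR.T10.Alf

/-!
The centraliser of `Z(L)` normalises `L` and acts on `L / Z(L)` as `1 ⊗ γ`.
-/

set_option autoImplicit false
set_option maxRecDepth 100000
set_option linter.unusedSectionVars false

namespace CL.T10.J4x

open CL.K CL.CG CL.F2M CL.F24 CL.LX CL.MSS CL.J4P Subgroup Cfsg

attribute [local irreducible] gcode vcode

variable {G : Type*} [Group G] [Finite G] {A : Subgroup G} {φ : NT →* G} {ρ : H1 φ →* GL12}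

theorem nib2 {v : ℕ} (hv : v < 4096) : nib v 2 = v >>> 8 := by
  change (v >>> 8) &&& (2 ^ 4 - 1) = v >>> 8
  rw [Nat.and_two_pow_sub_one_eq_mod, Nat.shiftRight_eq_div_pow]; omega

theorem lt256 {v : ℕ} : v < 256 ↔ v >>> 8 = 0 := by
  rw [Nat.shiftRight_eq_div_pow]; omega

theorem nib_tab : ∀ m < 16, (nib (256 * m) 0 = 0 ∧ nib (256 * m) 1 = 0 ∧ nib (256 * m) 2 = m) ∧
    (nib (272 * m) 0 = 0 ∧ nib (272 * m) 1 = m ∧ nib (272 * m) 2 = m ∧ 272 * m = 16 * m ^^^ 256 * m) ∧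
    (nib (257 * m) 0 = m ∧ nib (257 * m) 1 = 0 ∧ nib (257 * m) 2 = m ∧ 257 * m = m ^^^ 256 * m) ∧
    ac jy (256 * m) < 256 := by decide +kernel

variable (h : BF A φ ρ)
include h

theorem C_H {c : G} (hc : c ∈ centralizer (Zg φ : Set G)) : c ∈ H1 φ :=
  h.mem_H.2 (ze_four (φ := φ) ▸ C_comm hc (by norm_num))

theorem sv_fix {c : G} {Y v : ℕ} (hc : Kv ρ c Y) (hv : v < 4096) (e : c * qq φ v = qq φ v * c) :
    ac Y v = v := by
  have := h.kv_conj hc hv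
  rw [e, mul_inv_cancel_right] at this
  exact (h.qq_inj hv (CL.J4.ac_lt _ _) this).symm

/-- the image of an element of `L` in `EB` -/
theorem kv_L {x : G} (hx : x ∈ Lg φ) : Kv ρ x (eE (pi (nib (ka φ x) 2))) ∧
    ∃ e ∈ Lg φ, ka φ e = 256 * nib (ka φ x) 2 ∧ ka φ (x * e⁻¹) < 256 := by
  obtain ⟨e1, e2, e3, e4, -⟩ := e_tab _ (pi_lt (nib (ka φ x) 2))
  have m := lx_mem (φ := φ) e2 e3
  have k := ka_lx h.toNF e2 e3
  have e1 : Kv ρ (lx φ _ _) _ := h.kv_el e1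
  rw [e4, (pp_pi _ (nib_lt _ _)).1] at k
  generalize lx φ _ _ = y at e1 m k
  have h1 : ka φ (x * y⁻¹) < 256 := by
    rw [ka_mul h.toNF hx (inv_mem m), ka_inv h.toNF m, k, lt256, Nat.shiftRight_xor_distrib,
      ← nib2 (ka_lt h.toNF hx), ← nib2 (k ▸ ka_lt h.toNF m), (nib_tab _ (nib_lt _ _)).1.2.2, Nat.xor_self]
  have h2 := (h.kv_Q (memQ_of_L h.toNF (mul_mem hx (inv_mem m)) h1)).mul e1
  refine ⟨?_, _, m, k, h1⟩
  rwa [X6.c1_mm e1, inv_mul_cancel_right] at h2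

theorem eE_inj {m n : ℕ} (hm : m < 16) (hn : n < 16) (e : eE m = eE n) : m = n := by
  rw [← (e_tab m hm).2.2.2.2.1, e, (e_tab n hn).2.2.2.2.1]

theorem Q_iff {x : G} (hx : x ∈ Lg φ) : x ∈ Qg φ ↔ ka φ x < 256 := by
  refine ⟨fun e => ?_, memQ_of_L h.toNF hx⟩
  have := eE_inj h (pi_lt _) (by norm_num : 0 < 16) (((kv_L h hx).1.unique (h.kv_Q e)).trans (by decide +kernel))
  rw [lt256, ← nib2 (ka_lt h.toNF hx), ← (pp_pi _ (nib_lt (ka φ x) 2)).1, this]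
  decide +kernel

/-- the planes are invariant -/
theorem plane {c w : G} {X : ℕ} (hc : c ∈ centralizer (Zg φ : Set G)) (hw : Ac φ w X) {x : G} (hx : x ∈ Lg φ)
    (e : ac X (ka φ x) < 256) : w * (c * x * c⁻¹) * w⁻¹ ∈ Lg φ ∧ ka φ (w * (c * x * c⁻¹) * w⁻¹) < 256 := by
  have h1 := C_conj hc (hw.memK h.toNF)
  have h2 := memQ_of_L h.toNF (hw x hx).1 ((hw x hx).2 ▸ e)
  have h3 := (mem_normalizer_iff.1 (C_H h h1).2 _).1 h2
  have h4 := C_conj (L_C h.toNF (hw x hx).1) (C_le h1)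
  have h5 : w * c * w⁻¹ * (w * x * w⁻¹) * (w * c * w⁻¹)⁻¹ = w * (c * x * c⁻¹) * w⁻¹ := by group
  rw [h5] at h3 h4
  exact ⟨memL_of_Q h.toNF h3 h4, (Q_iff h (memL_of_Q h.toNF h3 h4)).1 h3⟩

theorem Ac.memN {k : G} {X : ℕ} (e : Ac φ k X) : k ∈ normalizer (Lg φ : Set G) :=
  mem_normalizer_fintype fun x hx => (e x hx).1

theorem C_conj_L {c : G} (hc : c ∈ centralizer (Zg φ : Set G)) {x : G} (hx : x ∈ Lg φ) :
    c * x * c⁻¹ ∈ Lg φ := by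
  obtain ⟨-, e, he, e1, e2⟩ := kv_L h hx
  have h1 := mul_mem hx (inv_mem he)
  have h2 := memL_of_Q h.toNF ((mem_normalizer_iff.1 (C_H h hc).2 _).1 (memQ_of_L h.toNF h1 e2))
    (C_conj (L_C h.toNF h1) (C_le hc))
  have h3 := (mem_normalizer_iff.1 ((acs h.toNF).1.memN h) _).2 (plane h hc (acs h.toNF).1 he
    (e1 ▸ (nib_tab _ (nib_lt _ _)).2.2.2)).1
  have := mul_mem h2 h3
  rwa [conj_mul, inv_mul_cancel_right] at this

theorem K_conj_L {k : G} (hk : k ∈ normalizer (Zg φ : Set G)) {x : G} (hx : x ∈ Lg φ) :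
    k * x * k⁻¹ ∈ Lg φ := by
  obtain ⟨g, hg, hc⟩ := dec h.toNF hk
  have h1 : (gen gcode [y5, tv 1 2] : Subgroup GL5) ≤ (normalizer (Lg φ : Set G)).comap (φ.comp inl5) := by
    refine (C5.gen_le_iff top_V).2 fun c hc => ?_
    have e : φ.comp inl5 (elt gcode c) = ll φ c := by
      rw [← (top_V c hc).code_elt, ll_code, C5.elt_code]; rfl
    rw [mem_comap, e]
    simp only [List.mem_cons, List.not_mem_nil, or_false] at hc
    rcases hc with rfl | rfl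
    exacts [(acs h.toNF).1.memN h, (acs h.toNF).2.2.1.memN h]
  have := (mem_normalizer_iff.1 (show φ (inl5 g) ∈ _ from h1 hg) _).1 (C_conj_L h hc hx)
  rwa [show φ (inl5 g) * ((φ (inl5 g))⁻¹ * k * x * ((φ (inl5 g))⁻¹ * k)⁻¹) * (φ (inl5 g))⁻¹ = k * x * k⁻¹
    by group] at this

/-- the third nibble -/
theorem third {c : G} {Y : ℕ} (hc : c ∈ centralizer (Zg φ : Set G)) (hY : Kv ρ c Y) {x : G} (hx : x ∈ Lg φ) :
    nib (ka φ (c * x * c⁻¹)) 2 = pp (a4 (alf Y) (pi (nib (ka φ x) 2))) := by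
  have h1 := sv_fix h hY (by norm_num : 1 < 4096) (ze_two (φ := φ) ▸ C_comm hc (by norm_num))
  obtain ⟨hH, rfl⟩ := hY
  obtain ⟨hx1, e1⟩ := (kv_L h hx).1
  obtain ⟨hx2, e2⟩ := (kv_L h (C_conj_L h hc hx)).1
  have h2 := h.xf.alf_conj ⟨⟨c, hH⟩, rfl⟩ h1 (pi_lt (nib (ka φ x) 2))
  rw [← e1, E12, C12.elt_code, ← map_inv, ← map_mul, ← map_mul] at h2
  have h3 := (e2.symm.trans (congrArg gcode h2)).trans (top_eE (a4_lt _ _)).code_elt
  rw [← eE_inj h (pi_lt _) (a4_lt _ _) h3, (pp_pi _ (nib_lt _ _)).1]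

variable {r : normalizer (Zg φ : Set G) →* GL12}
  (hr : ∀ k : normalizer (Zg φ : Set G), ∀ a ∈ Lg φ, ka φ (k * a * (k : G)⁻¹) = ac (gcode (r k)) (ka φ a))
include hr

theorem Ac.kv {k : G} {X : ℕ} (e : Ac φ k X) (hX : Mem (gcode : GL12 → ℕ) ⊤ X) : Kv r k X := by
  obtain ⟨g, -, rfl⟩ := hX
  refine ⟨e.memK h.toNF, congrArg gcode (sv_ext fun j hj => ?_)⟩
  obtain ⟨x, hx, e'⟩ := ka_surj h.toNF (Nat.pow_lt_pow_right (a := 2) (by norm_num) hj)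
  rw [← e']
  exact (hr ⟨k, _⟩ x hx).symm.trans (e x hx).2

/-- the action of `C(Z)` -/
theorem kv_C {c : G} {Y i : ℕ} (hc : c ∈ centralizer (Zg φ : Set G)) (hY : Kv ρ c Y) (hi : i < 120)
    (e : alf Y = TA i) : Kv r c (TN i) := by
  obtain ⟨g, -, hg⟩ := sound_TN i hi
  refine ⟨C_le hc, ?_⟩
  rw [← hg]
  refine congrArg gcode (sv_ext fun j hj => ?_)
  generalize hX : gcode (r ⟨c, C_le hc⟩) = X
  have k1 : ∀ x ∈ Lg φ, ka φ (c * x * c⁻¹) = ac X (ka φ x) := fun x hx => hX ▸ hr ⟨c, C_le hc⟩ x hx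
  have k2 : ∀ v < 4096, nib (ac X v) 2 = pp (a4 (TA i) (pi (nib v 2))) := fun v hv => by
    obtain ⟨x, hx, rfl⟩ := ka_surj h.toNF hv
    rw [← k1 x hx, third h hc hY hx, e]
  have k3 : ∀ {w : G} {W : ℕ}, Ac φ w W → ∀ v < 4096, ac W v >>> 8 = 0 → ac W (ac X v) >>> 8 = 0 :=
    fun hw v hv e' => by
      obtain ⟨x, hx, rfl⟩ := ka_surj h.toNF hv
      rw [← k1 x hx, ← (hw _ (C_conj_L h hc hx)).2]
      exact lt256.1 (plane h hc hw hx (lt256.2 e')).2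
  obtain ⟨a1, a2, -, -, -, a3, a4⟩ := acs h.toNF
  have t := fun v => (v_tab (CL.J4.ac_lt X v)).2.2.2.2.2
  have p1 : ∀ v < 4096, nib v 1 = 0 → nib (ac X v) 1 = 0 := fun v hv e' =>
    (t v).1.1.symm.trans (k3 a1 v hv ((v_tab hv).2.2.2.2.2.1.1.trans e'))
  have p0 : ∀ v < 4096, nib v 0 = 0 → nib (ac X v) 0 = 0 := fun v hv e' =>
    (t v).1.2.1.symm.trans (k3 a2 v hv ((v_tab hv).2.2.2.2.2.1.2.1.trans e'))
  have p12 : ∀ v < 4096, nib v 1 = nib v 2 → nib (ac X v) 1 = nib (ac X v) 2 := fun v hv e' =>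
    Nat.xor_eq_zero_iff.1 ((t v).1.2.2.1.symm.trans (k3 a3 v hv ((v_tab hv).2.2.2.2.2.1.2.2.1.trans
      (Nat.xor_eq_zero_iff.2 e'))))
  have p02 : ∀ v < 4096, nib v 0 = nib v 2 → nib (ac X v) 0 = nib (ac X v) 2 := fun v hv e' =>
    Nat.xor_eq_zero_iff.1 ((t v).1.2.2.2.symm.trans (k3 a4 v hv ((v_tab hv).2.2.2.2.2.1.2.2.2.trans
      (Nat.xor_eq_zero_iff.2 e'))))
  have q : ∀ m < 16, ac X m = pp (T10.a4 (TA i) (pi m)) ∧ ac X (16 * m) = 16 * pp (T10.a4 (TA i) (pi m)) ∧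
      ac X (256 * m) = 256 * pp (T10.a4 (TA i) (pi m)) := fun m hm => by
    obtain ⟨⟨b1, b2, b3⟩, ⟨b4, b5, b6, b7⟩, ⟨b8, b9, b10, b11⟩, -⟩ := nib_tab m hm
    obtain ⟨-, ⟨-, -, -, d7⟩, ⟨-, -, -, d11⟩, -⟩ := nib_tab _ (pp_lt (T10.a4 (TA i) (pi m)))
    have q1 : ac X (256 * m) = 256 * pp (T10.a4 (TA i) (pi m)) := by
      rw [(t _).2.1, p0 _ (by omega) b1, p1 _ (by omega) b2, k2 _ (by omega), b3]; omega
    have q2 : ac X (272 * m) = 272 * pp (T10.a4 (TA i) (pi m)) := by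
      rw [(t _).2.1, p0 _ (by omega) b4, p12 _ (by omega) (b5.trans b6.symm), k2 _ (by omega), b6]; omega
    have q3 : ac X (257 * m) = 257 * pp (T10.a4 (TA i) (pi m)) := by
      rw [(t _).2.1, p02 _ (by omega) (b8.trans b10.symm), p1 _ (by omega) b9, k2 _ (by omega), b10]; omega
    rw [b7, d7, ac_xor', q1] at q2
    rw [b11, d11, ac_xor', q1] at q3
    exact ⟨Nat.xor_left_inj.1 q3, Nat.xor_left_inj.1 q2, q1⟩
  have s : ∀ k < 4, ac X (2 ^ k) = ac (TN i) (2 ^ k) ∧ ac X (2 ^ (k + 4)) = ac (TN i) (2 ^ (k + 4)) ∧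
      ac X (2 ^ (k + 8)) = ac (TN i) (2 ^ (k + 8)) := fun k hk => by
    have := TA_tab i hi k hk
    simp only [force_eq, Bool.and_eq_true] at this
    obtain ⟨q1, q2, q3⟩ := q _ (Nat.pow_lt_pow_right (a := 2) (by norm_num) hk)
    rw [eq_of_beq this.1, eq_of_beq this.2.1, eq_of_beq this.2.2, ← q2, ← q3, ← q1, pow_add, pow_add,
      mul_comm _ (2 ^ 4), mul_comm _ (2 ^ 8)]
    exact ⟨rfl, rfl, rfl⟩
  rw [sv, sv, hX, hg]
  rcases (by omega : j < 4 ∨ (j - 4 < 4 ∧ j = j - 4 + 4) ∨ (j - 8 < 4 ∧ j = j - 8 + 8)) with e | ⟨e, e'⟩ | ⟨e, e'⟩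
  exacts [(s j e).1, e' ▸ (s _ e).2.1, e' ▸ (s _ e).2.2]

end CL.T10.J4x
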