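import Cfsg.Agent.SPOR.T10.Alf
import Cfsg.Agent.SPOR.T10.Gam

/-!
Lifting `xY` and `xT`. `d4 = x45 * x54` has order 3, `C(d4) = W ⊗ ⟨e3, e3*⟩` (bits 0, 3, 6, 9).
-/

set_option autoImplicit false
set_option maxRecDepth 100000

namespace CL.T10

open CL.K CL.CG CL.F2M CL.F24 CL.LX CL.MSS Subgroup Cfsg
open CL.J4P (Kv)

attribute [local irreducible] gcode vcode

variable {X : Subgroup GL12}


namespace Lift

/-- `(x + 1) v` -/
noncomputable def op (x v : ℕ) : ℕ := Nat.xor (ac x v) v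
/-- the six columns determined by the image `p` of `w ⊗ e3*` -/
noncomputable def col (p j : ℕ) : ℕ := lget [op a34 (op x34 p), op a34 p, op a35 p, p, op x34 p, op x35 p] j
/-- the columns agree with those of `x` -/
noncomputable def eqB (p q x : ℕ) : Bool :=
  allLt (fun j => Nat.beq (col p j) (ac x (2 ^ j)) && Nat.beq (col q j) (ac x (2 ^ (j + 6)))) 6

theorem chk : force (mm x45 x54) (fun d => allLt2 (fun p => !Nat.beq (ac d p) p || (!Nat.beq (col p 0) 1 ||
    (!Nat.beq (Qf p) 0 || allLt2 (fun q => !Nat.beq (ac d q) q || (!Nat.beq (Qf q) 0 || (!Nat.beq (Bf p q) 0 ||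
      (!Nat.beq (Bf 1 q) 1 || (!Nat.beq (Bf p (col q 0)) 1 ||
        (eqB p q c1 || (eqB p q xS || (eqB p q xZ || eqB p q (mm xS xZ))))))))) 64 64))) 64 64) = true := by
  decide +kernel

theorem top {c : ℕ} (h : c ∈ gY ++ [a34, a35, x35, xZ]) : Mem (gcode : GL12 → ℕ) ⊤ c := ApiG.top_all c h

theorem cd {c : ℕ} (h : c ∈ gY ++ [a34, a35, x35, xZ]) : gcode (E12 c) = c := (top h).code_elt

theorem mM {c : ℕ} (h : c ∈ gM) : E12 c ∈ MB :=
  C12.elt_mem ((top (List.mem_append_left _ (List.mem_append_left [xY, xT] h))).gen h)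

theorem d4_eq : E12 (mm x45 x54) = E12 x45 * E12 x54 := C12.elt_mul (top (by decide)) (top (by decide))

theorem d4_code : gcode (E12 (mm x45 x54)) = mm x45 x54 :=
  (C12.mem_mul (top (by decide)) (top (by decide))).code_elt

end Lift
open Lift

/-- PROOF. `c` is determined by the images `p, q ∈ C(d4)` of the vectors 8 and 512, since
`(eE n + 1)(w ⊗ e3*) = w ⊗ n + q(n) w ⊗ e3` and `(a34 + 1)(x34 + 1)(w ⊗ e3*) = w ⊗ e3`; 256 cases. -/
theorem cent4 {c : GL12} (hc : Iso c) (h1 : sv c 1 = 1)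
    (hd : c * E12 (mm x45 x54) = E12 (mm x45 x54) * c) (hE : ∀ a ∈ EB, c * a = a * c) :
    gcode c = c1 ∨ gcode c = xS ∨ gcode c = xZ ∨ gcode c = mm xS xZ := by
  have o : ∀ x ∈ gE, ∀ v < 4096, sv c (op x v) = op x (sv c v) := fun x hx v hv => by
    obtain ⟨a, ha, rfl⟩ := ApiG.gen_mem (L := gE) (by decide) x hx
    exact (sv_xor c (sv_lt a v) hv).trans (by rw [← sv_mul _ _ hv, hE a ha, sv_mul _ _ hv]; rfl)
  have l : ∀ x, ∀ v < 4096, op x v < 4096 := fun x v hv => Nat.xor_lt_two_pow (n := 12) (J4.ac_lt x v) hv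
  have k : ∀ v < 4096, ∀ j < 6, sv c (col v j) = col (sv c v) j := fun v hv j hj => by
    interval_cases j
    exacts [(o a34 (by decide) _ (l _ v hv)).trans (congrArg _ (o x34 (by decide) v hv)), o a34 (by decide) v hv,
      o a35 (by decide) v hv, rfl, o x34 (by decide) v hv, o x35 (by decide) v hv]
  have t : ∀ j < 6, col 8 j = 2 ^ j ∧ col 512 j = 2 ^ (j + 6) := by decide +kernel
  have d : ∀ v < 4096, ac (mm x45 x54) v = v → ac (mm x45 x54) (sv c v) = sv c v := fun v hv e => by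
    rw [← d4_code] at e ⊢
    exact (sv_mul _ _ hv).symm.trans (by rw [← hd, sv_mul _ _ hv]; exact congrArg _ e)
  have f : ∀ {a b : ℕ} {p : Bool}, a = b → (!Nat.beq a b || p) = true → p = true := fun e h => by
    simpa [e] using h
  have e0 : col (sv c 512) 0 = sv c 64 := (k 512 (by norm_num) 0 (by norm_num)).symm.trans
    (congrArg _ (t 0 (by norm_num)).2)
  have h2 := chk
  rw [force_eq] at h2
  have h3 := f ((hc 8 (by norm_num)).trans (by decide)) (f ((k 8 (by norm_num) 0 (by norm_num)).symm.trans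
    ((congrArg _ (t 0 (by norm_num)).1).trans h1)) (f (d 8 (by norm_num) (by decide +kernel))
      (allLt2_iff.1 h2 _ (sv_lt c 8))))
  have b1 : Bf (sv c 8) (col (sv c 512) 0) = 1 := e0 ▸ (hc.bf (by norm_num) (by norm_num)).trans (by decide)
  have b2 : Bf (sv c 1) (sv c 512) = 1 := (hc.bf (by norm_num) (by norm_num)).trans (by decide)
  have b3 : Bf (sv c 8) (sv c 512) = 0 := (hc.bf (by norm_num) (by norm_num)).trans (by decide)
  have b4 : Qf (sv c 512) = 0 := (hc 512 (by norm_num)).trans (by decide)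
  rw [h1] at b2
  have h4 := f b1 (f b2 (f b3 (f b4
    (f (d 512 (by norm_num) (by decide +kernel)) (allLt2_iff.1 h3 _ (sv_lt c 512))))))
  have g : ∀ {x}, Mem (gcode : GL12 → ℕ) ⊤ x → eqB (sv c 8) (sv c 512) x = true → gcode c = x := by
    rintro _ ⟨x, -, rfl⟩ e
    simp only [eqB, allLt_iff, Bool.and_eq_true] at e
    refine congrArg gcode (sv_ext fun j hj => ?_)
    rcases (by omega : j < 6 ∨ (j - 6 < 6 ∧ j = j - 6 + 6)) with a | ⟨a, b⟩
    · exact ((congrArg _ (t j a).1).symm.trans (k 8 (by norm_num) j a)).trans (eq_of_beq (e j a).1)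
    · rw [b]
      exact ((congrArg _ (t _ a).2).symm.trans (k 512 (by norm_num) _ a)).trans (eq_of_beq (e _ a).2)
  simp only [Bool.or_eq_true] at h4
  exact h4.imp (g (C12.mem_one _)) (Or.imp (g (top (by decide))) (Or.imp (g (top (by decide)))
    (g (C12.mem_mul (top (by decide)) (top (by decide))))))

theorem XF.not_xZ (h : XF X) : E12 xZ ∉ X := fun e => by
  have := (mem_ZB _).1 (h.alf_ker e (by rw [sv, cd (by decide)]; decide +kernel)
    (by rw [cd (by decide)]; decide +kernel))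
  rw [cd (by decide)] at this
  exact absurd this (by decide +kernel)

theorem Lift.core (h : XF X) {t g : GL12} (ht : t ∈ YS) (t1 : sv t 1 = 1) (hg : g ∈ X) (h1 : sv g 1 = 1)
    (h2 : alf (gcode g) = alf (gcode t)) {e : ℕ} (he : Mem gcode X e) (he' : Mem gcode YS e) (e1 : ac e 1 = 1)
    (e2 : mm (gcode t) (mm x45 x54) = mm e (gcode t))
    (tab : ∀ m < 32, force (mm (ApiG.tZ m) e) (fun x => !Nat.beq (mm x (mm x x)) c1 ||
      anyLt (fun k => force (ApiG.tZ k) fun w => Nat.beq (mm w x) (mm e w)) 32) = true) :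
    t ∈ X ∨ t * E12 xZ ∈ X := by
  obtain ⟨e, he, rfl⟩ := he
  have he' := C12.mem_iff.1 he'
  obtain ⟨-, -, l1, l2, -, l3, l4, -⟩ := le_chain
  set d := E12 (mm x45 x54)
  have dM : d ∈ MB := by rw [show d = _ from d4_eq]; exact mul_mem (mM (by decide)) (mM (by decide))
  have d1 : sv d 1 = 1 := by rw [sv, d4_code]; decide +kernel
  have d3 : d * (d * d) = 1 := C12.inj (by
    rw [← C12.map_mul, ← C12.map_mul, d4_code, C12.map_one]; decide +kernel)
  have e3 : t * d = e * t := C12.inj (by rw [← C12.map_mul, ← C12.map_mul, d4_code, e2])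
  have m : ∀ {a b : GL12}, sv a 1 = 1 → sv b 1 = 1 → sv (a * b) 1 = 1 := fun ea eb => by
    rw [sv_mul _ _ (by norm_num), eb, ea]
  have a1 := h.mul_inv_mem (mul_mem hg (h.le dM)) (m h1 d1) (mul_mem he hg) (m e1 h1) (by
    rw [h.alf_mul hg h1 (h.le dM) d1, h.alf_mul he e1 hg h1, h2, ← xf_YS.alf_mul ht t1 (l4 (l3 dM)) d1,
      ← xf_YS.alf_mul he' e1 ht t1, e3])
  obtain ⟨i, hi, ei⟩ := ApiG.compl_Z _ a1
  have a2 := tab i hi
  rw [force_eq, ← ei, C12.map_mul, C12.map_mul, C12.map_mul,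
    show g * d * (e * g)⁻¹ * e = g * d * g⁻¹ by group, conj_mul, conj_mul, d3, mul_one, mul_inv_cancel,
    C12.map_one] at a2
  obtain ⟨k, hk, a3⟩ := anyLt_iff.1 (by simpa using a2)
  obtain ⟨w, hw, ew⟩ := ApiG.sound_Z k hk
  rw [force_eq, ← ew, C12.map_mul, C12.map_mul] at a3
  have a4 := C12.inj (eq_of_beq a3)
  have tz : ∀ k < 32, ac (ApiG.tZ k) 1 = 1 ∧ alf (ApiG.tZ k) = 0x8421 := by decide +kernel
  have w1 : sv w 1 = 1 := by rw [sv, ew, (tz k hk).1]
  have wX := h.le (l2 (l1 hw))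
  have gX := mul_mem wX hg
  have g1 := m w1 h1
  have g2 : alf (gcode (w * g)) = alf (gcode t) := by
    obtain ⟨γ, -, eγ⟩ := h.alf_top hg h1
    rw [h.alf_mul wX w1 hg h1, ew, (tz k hk).2, ← h2, ← eγ, ← C4.map_one, C4.map_mul, one_mul]
  have a5 : w * g * d = e * (w * g) := by rw [← mul_assoc, ← a4]; group
  generalize w * g = g at gX g1 g2 a5
  have i1 : sv g⁻¹ 1 = 1 := by rw [← g1, ← sv_mul _ _ (by norm_num), inv_mul_cancel, g1, sv_one (by norm_num)]
  have sX := h.le (mM (c := xS) (by decide))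
  have zz : E12 xZ * E12 xZ = 1 := C12.inj (by rw [← C12.map_mul, cd (by decide), C12.map_one]; decide +kernel)
  have r : ∀ {c}, gcode (g⁻¹ * t) = gcode c → t = g * c := fun e => by rw [← C12.inj e, mul_inv_cancel_left]
  rcases cent4 ((h.iso g gX).inv.mul (iso_YS ht)) (m i1 t1) (by
      rw [mul_assoc, e3, ← mul_assoc, ← mul_assoc, mul_left_inj, inv_mul_eq_iff_eq_mul, ← mul_assoc, a5,
        mul_inv_cancel_right])
    (fun a ha => by
      obtain ⟨n, hn, en⟩ := (mem_EB a).1 ha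
      have b1 := h.alf_conj gX g1 hn
      rw [g2, ← xf_YS.alf_conj ht t1 hn, ← en, E12, C12.elt_code] at b1
      calc g⁻¹ * t * a = g⁻¹ * (t * a * t⁻¹) * t := by group
        _ = _ := by rw [← b1]; group) with e | e | e | e
  · exact .inl (r (e.trans C12.map_one.symm) ▸ mul_mem gX (one_mem _))
  · exact .inl (r (e.trans (cd (by decide)).symm) ▸ mul_mem gX sX)
  · exact .inr (by rw [r (e.trans (cd (by decide)).symm), mul_assoc, zz]; exact mul_mem gX (one_mem _))
  · refine .inr ?_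
    rw [r (c := E12 xS * E12 xZ) (by rw [e, ← C12.map_mul, cd (by decide), cd (by decide)]), mul_assoc, mul_assoc,
      zz, mul_one]
    exact mul_mem gX sX

/-- PROOF. `g d4 g⁻¹ ∈ d4 ZB` has order 3, so it is conjugate to `d4` under `ZB` (32 cases); so assume `g`
centralises `d4`. `cent4` for `g⁻¹ xY` (`alf_conj` for `X` and for `YS`, `xf_YS`). If `xY xZ ∈ X` then
`(a45 xY xZ) ^ 3 = xZ ∈ X`. -/
theorem XF.liftY (h : XF X) {g : GL12} (hg : g ∈ X) (h1 : sv g 1 = 1) (h2 : alf (gcode g) = 0x8469) :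
    YA ≤ X := by
  obtain ⟨-, -, -, -, -, l3, l4, -⟩ := le_chain
  have dM : Mem gcode MB (mm x45 x54) := (C12.mem_mul (top (by decide)) (top (by decide))).of_elt
    (d4_eq.symm ▸ mul_mem (mM (by decide)) (mM (by decide)) : E12 _ ∈ MB)
  have c := cd (c := xY) (by decide)
  have y : E12 xY ∈ X := (Lift.core h (t := E12 xY) (C12.elt_mem ((top (by decide)).gen (by decide)))
      (by rw [sv, c]; decide +kernel) hg h1 (by rw [c, h2]; decide +kernel) (dM.mono h.le) (dM.mono (l3.trans l4))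
      (by decide +kernel) (by rw [c]; decide +kernel) (by decide +kernel)).resolve_right fun e => by
    have m := mul_mem (h.le (mM (c := a45) (by decide))) e
    refine h.not_xZ (ApiG.of_mem (mem_code (mul_mem m (mul_mem m m))) ?_)
    simp only [← C12.map_mul, c, cd (c := xZ) (by decide), cd (c := a45) (by decide)]
    decide +kernel
  refine (C12.gen_le_iff fun c hc => top_gY c (List.mem_append_left [xT] hc)).2 fun c hc => ?_
  rcases List.mem_append.1 (show c ∈ gM ++ [xY] from hc) with e | e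
  exacts [h.le (mM e), List.mem_singleton.1 e ▸ y]

/-- PROOF. `g d4 g⁻¹ ∈ (xT d4 xT) ZB` (`xT d4 xT ∈ YA`); adjust so that `g d4 g⁻¹ = xT d4 xT`; `cent4` for
`g⁻¹ xT`. If `θ = xT xZ ∈ X`, then with `k = x34 x43 x34`, `θ k θ k` is the product of the symplectic
transvections along `e3` and `e4` (check; otherwise conjugate suitably): it satisfies `P2`, fixes 1, but
its `alf` is not in `⟨L12⟩`. -/
theorem XF.liftT (h : XF X) (hA : YA ≤ X) {g : GL12} (hg : g ∈ X) (h1 : sv g 1 = 1)
    (h2 : alf (gcode g) = 0x2481) : YS ≤ X := by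
  obtain ⟨-, -, -, -, -, -, l4, -⟩ := le_chain
  have mA := mem_gen (H := ⊤) (L := gA) fun c hc => top_gY c (List.mem_append_left [xT] hc)
  have dM : Mem gcode YA (mm a45 xY) := C12.mem_mul (mA _ (by decide)) (mA _ (by decide))
  have c := cd (c := xT) (by decide)
  have y : E12 xT ∈ X := (Lift.core h (t := E12 xT) (C12.elt_mem ((top (by decide)).gen (by decide)))
      (by rw [sv, c]; decide +kernel) hg h1 (by rw [c, h2]; decide +kernel) (dM.mono hA) (dM.mono l4)
      (by decide +kernel) (by rw [c]; decide +kernel) (by decide +kernel)).resolve_right fun e => by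
    have k := h.le (mM (c := x34) (by decide))
    have m := mul_mem e (mul_mem k (mul_mem (h.le (mM (c := x43) (by decide))) k))
    have m := mul_mem m m
    obtain ⟨η, m, cη⟩ : ∃ η ∈ X, gcode η = force (mm (mm xT xZ) (mm x34 (mm x43 x34))) fun x => mm x x :=
      ⟨_, m, by simp only [force_eq, ← C12.map_mul, c, cd (c := xZ) (by decide), cd (c := x34) (by decide),
        cd (c := x43) (by decide)]⟩
    have t : force (force (mm (mm xT xZ) (mm x34 (mm x43 x34))) fun x => mm x x) (fun η =>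
        allLt2 (fun v => !Nat.beq (Nat.land v 0xe38) 0 || Nat.beq (Nat.land (ac η v) 0xe38) 0) 64 64 &&
        (Nat.beq (ac η 1) 1 && allLt (fun i => !Nat.beq (alf η) (Gam.T0 i)) 12)) = true := by decide +kernel
    rw [← cη, force_eq, Bool.and_eq_true, Bool.and_eq_true, allLt2_iff, allLt_iff] at t
    obtain ⟨γ, hγ, eγ⟩ := al_MB (h.stab η m fun v hv e => CG.eq_of_beq (by
      have := t.1 v hv
      rwa [show Nat.land v 0xe38 = 0 from e] at this)) (eq_of_beq t.2.1)
    obtain ⟨i, hi, ei⟩ := Gam.compl0 γ hγ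
    simpa [← eγ, ei] using t.2.2 i hi
  refine (C12.gen_le_iff top_gY).2 fun c hc => ?_
  rcases List.mem_append.1 (show c ∈ gA ++ [xT] from hc) with e | e
  exacts [hA (C12.elt_mem (mA c e)), List.mem_singleton.1 e ▸ y]

end CL.T10
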