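import Cfsg.Agent.SPOR.T10.Gam

/-!
The orbit of the vector 1. KILL CRITERION: let `x ∈ X`, `v = sv x 1`. If `u ∈ X` fixes `v` and
`alf (x⁻¹ u x) = 1`, `u ≠ 1`, then `v ∈ [W, u]` (`alf_ker`, `z_mem_ZB`).
-/

set_option autoImplicit false
set_option maxRecDepth 100000

namespace CL.T10

open CL.K CL.CG CL.F2M CL.F24 CL.LX CL.MSS Subgroup Cfsg
open CL.J4P (Kv)

attribute [local irreducible] gcode vcode

variable {X : Subgroup GL12}


namespace LM

theorem gMm : ∀ c ∈ gM, Mem (gcode : GL12 → ℕ) MB c := ApiG.gen_mem (by decide +kernel)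

theorem wM {I : List ℕ} (h : ∀ i ∈ I, i < 7) : Mem (gcode : GL12 → ℕ) MB (word mm gM I c1) :=
  C12.mem_word gMm h (C12.mem_one _)

theorem inv_sv (g : GL12) {v : ℕ} (hv : v < 4096) : sv g⁻¹ (sv g v) = v := by
  rw [← sv_mul _ _ hv, inv_mul_cancel, sv_one hv]

theorem six (h : XF X) {g : GL12} (hg : g ∈ MB) (h1 : sv g 1 = 1) : g ^ 6 ∈ ZB := by
  have f : ∀ {a b : GL12}, sv a 1 = 1 → sv b 1 = 1 → sv (a * b) 1 = 1 := fun i j => by
    rw [sv_mul _ _ (by norm_num), j, i]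
  obtain ⟨γ, hγ, e⟩ := al_MB hg h1
  obtain ⟨i, hi, e'⟩ := Gam.compl0 γ hγ
  have t : ∀ i < 12, m4 (m4 (m4 (Gam.T0 i) (Gam.T0 i)) (m4 (Gam.T0 i) (Gam.T0 i)))
    (m4 (Gam.T0 i) (Gam.T0 i)) = 0x8421 := by decide +kernel
  have x := h.le hg
  have x2 := mul_mem x x
  rw [show g ^ 6 = g * g * (g * g) * (g * g) by simp only [pow_succ, pow_zero, one_mul, mul_assoc]]
  refine h.alf_ker (mul_mem (mul_mem x2 x2) x2) (f (f (f h1 h1) (f h1 h1)) (f h1 h1)) ?_
  rw [h.alf_mul (mul_mem x2 x2) (f (f h1 h1) (f h1 h1)) x2 (f h1 h1), h.alf_mul x2 (f h1 h1) x2 (f h1 h1),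
    h.alf_mul x h1 x h1, ← e, e', t i hi]

/-- the certificate against `v` -/
noncomputable def kB (v : ℕ) (I : List ℕ) : Bool :=
  lall (fun i => blt i 7) I && force (word mm gM I c1) fun c => Nat.beq (ac c v) v &&
    force (powC mm c1 c 6) fun u => !Nat.beq u c1 &&
      allLt2 (fun w => !Nat.beq (Nat.xor (ac u w) w) v) 64 64

theorem kB_spec {v : ℕ} {I : List ℕ} (k : kB v I = true) : ∃ g ∈ MB, sv g v = v ∧ g ^ 6 ≠ 1 ∧
    ∀ w < 4096, sv (g ^ 6) w ^^^ w ≠ v := by
  rw [kB, Bool.and_eq_true, lall_iff, force_eq] at k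
  obtain ⟨g, hg, e⟩ := wM fun i hi => lt_of_blt (k.1 i hi)
  have k2 := k.2
  rw [← e, Bool.and_eq_true, force_eq, C12.powC_eq, Bool.and_eq_true, allLt2_iff] at k2
  refine ⟨g, hg, eq_of_beq k2.1, fun i => ?_, fun w hw => ne_of_beq (Bool.not_eq_true' _ ▸ k2.2.2 w hw)⟩
  have := k2.2.1
  rw [i, C12.map_one, Nat.beq_refl] at this
  exact absurd this (by decide)

theorem kill (h : XF X) (hz : ∀ g ∈ X, sv g 1 = 1 → g ∈ MB) {x : GL12} (hx : x ∈ X) {I : List ℕ}
    (k : kB (sv x 1) I = true) : False := by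
  obtain ⟨g, hg, k2, k3, k4⟩ := kB_spec k
  have h1 : sv (x⁻¹ * g * x) 1 = 1 := by
    rw [sv_mul _ _ (by norm_num), sv_mul _ _ (sv_lt _ _), k2, inv_sv _ (by norm_num)]
  have p : (x⁻¹ * g * x) ^ 6 = x⁻¹ * g ^ 6 * x := by simpa using conj_pow (a := x⁻¹) (b := g) (i := 6)
  obtain ⟨w, hw, e1⟩ := z_mem_ZB (six h (hz _ (mul_mem (mul_mem (inv_mem hx) (h.le hg)) hx) h1) h1) fun i =>
    k3 (by rwa [p, mul_assoc, inv_mul_eq_one, right_eq_mul] at i)
  refine k4 _ (sv_lt x w) ?_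
  have := congrArg (sv x) e1
  rwa [sv_xor _ (sv_lt _ _) hw, ← sv_mul _ _ hw, p, mul_assoc, mul_inv_cancel_left, sv_mul _ _ hw] at this

/-- the orbits of the members of `R` and the mask cover the singular vectors -/
noncomputable def cov (R : List ℕ) : ℕ → Bool :=
  List.rec (fun S => allLt2 (fun v => Nat.beq v 0 || (Nat.beq (Qf v) 1 || S.testBit v)) 64 64)
    (fun r _ ih S => blt r 4096 && orbA ac (2 ^ 12) gM r fun S' _ => force (Nat.lor S S') ih) R

theorem cov_spec (R : List ℕ) : ∀ S, cov R S = true → ∀ v < 4096, v ≠ 0 → Qf v = 0 →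
    S.testBit v = true ∨ ∃ r ∈ R, ∃ m ∈ MB, sv m r = v := by
  induction R with
  | nil =>
    intro S h v hv h0 h1
    have := (allLt2_iff (p := fun v => Nat.beq v 0 || (Nat.beq (Qf v) 1 || S.testBit v)) (a := 64) (b := 64)).1
      h v hv
    simp only [Bool.or_eq_true, Nat.beq_eq, h0, h1, false_or, zero_ne_one] at this
    exact Or.inl this
  | cons r R ih =>
    intro S h v hv h0 h1
    change (blt r 4096 && orbA ac (2 ^ 12) gM r fun S' _ => force (Nat.lor S S') (cov R)) = true at h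
    rw [Bool.and_eq_true] at h
    obtain ⟨S', -, k, -, o⟩ := A12.orbA_eq C12 gMm (lt_of_blt h.1) h.2
    rw [force_eq] at k
    rcases ih _ k v hv h0 h1 with e | ⟨r', m, e⟩
    · rw [Nat.lor_eq, Nat.testBit_or, Bool.or_eq_true] at e
      refine e.imp_right fun e => ?_
      obtain ⟨g, e'⟩ := (o (vdec 12 v)).2 (by rwa [show (enc 12).enc (vdec 12 v) = v from vcode_vdec hv])
      exact ⟨r, List.mem_cons_self, g, g.2, by
        rw [ApiG.sv_code _ (lt_of_blt h.1), ← vcode_vdec (n := 12) hv]; exact congrArg vcode e'⟩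
    · exact Or.inr ⟨r', List.mem_cons_of_mem _ m, e⟩

theorem two (h : XF X) (hz : ∀ g ∈ X, sv g 1 = 1 → g ∈ MB) {x : GL12} (hx : x ∈ X) :
    x ∈ MB ∨ ∃ m ∈ MB, sv (m⁻¹ * x) 1 = 8 := by
  obtain ⟨r, hr, m, hm, e⟩ := (cov_spec [1, 8, 9, 0x42, 0x50, 0x52, 0x210, 0x212] 0 (by decide +kernel)
    (sv x 1) (sv_lt _ _) (fun e => by
      have := inv_sv x (v := 1) (by norm_num)
      have z := sv_xor x⁻¹ (u := 0) (v := 0) (by norm_num) (by norm_num)
      rw [Nat.xor_self, Nat.xor_self] at z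
      rw [e, z] at this
      exact absurd this (by decide)) ((h.iso x hx 1 (by norm_num)).trans (by decide))).resolve_left (by simp)
  have y := mul_mem (inv_mem (h.le hm)) hx
  have e1 : sv (m⁻¹ * x) 1 = r := by
    rw [sv_mul _ _ (by norm_num), ← e, inv_sv _ ((by decide : ∀ r ∈ _, r < 4096) r hr)]
  simp only [List.mem_cons, List.not_mem_nil, or_false] at hr
  rcases hr with rfl | rfl | rfl | rfl | rfl | rfl | rfl | rfl
  · exact Or.inl ((mul_mem_cancel_left (inv_mem hm)).1 (hz _ y e1))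
  · exact Or.inr ⟨m, hm, e1⟩
  · exact (kill h hz y (I := [2, 4, 5, 4, 6, 2, 3]) (by rw [e1]; decide +kernel)).elim
  · exact (kill h hz y (I := [0, 2, 3]) (by rw [e1]; decide +kernel)).elim
  · exact (kill h hz y (I := [0, 3, 6, 2, 3, 5, 6]) (by rw [e1]; decide +kernel)).elim
  · exact (kill h hz y (I := [0, 2, 5, 6]) (by rw [e1]; decide +kernel)).elim
  · exact (kill h hz y (I := [0, 4, 5]) (by rw [e1]; decide +kernel)).elim
  · exact (kill h hz y (I := [0, 4, 5, 6]) (by rw [e1]; decide +kernel)).elim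

theorem idx0 {Y α : Type*} [Group Y] [MulAction Y α] [Finite α] {M X : Subgroup Y} (hle : M ≤ X) {a b : α}
    (hz : ∀ g ∈ X, g • a = a → g ∈ M) (h2 : ∀ x ∈ X, x ∈ M ∨ ∃ m ∈ M, m • b = x • a) :
    (MulAction.orbit M a).ncard * M.relIndex X ≤ (MulAction.orbit M a).ncard + (MulAction.orbit M b).ncard := by
  have s : ∀ Z : Subgroup Y, (MulAction.stabilizer Y a).relIndex Z = (MulAction.orbit Z a).ncard :=
    fun Z => MulAction.index_stabilizer Z _
  have e : MulAction.stabilizer Y a ⊓ X = MulAction.stabilizer Y a ⊓ M :=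
    le_antisymm (fun g hg => ⟨hg.1, hz g hg.2 hg.1⟩) (inf_le_inf_left _ hle)
  have m := relIndex_mul_relIndex _ M X (e.le.trans inf_le_right) hle
  rw [inf_relIndex_right, e, inf_relIndex_right, s, s] at m
  rw [m]
  refine (Set.ncard_le_ncard ?_ (Set.toFinite _)).trans (Set.ncard_union_le _ _)
  rintro _ ⟨x, rfl⟩
  rcases h2 x x.2 with i | ⟨k, hk, i⟩
  exacts [Or.inl ⟨⟨x, i⟩, rfl⟩, Or.inr ⟨⟨k, hk⟩, i⟩]

theorem idx (h : XF X) (hz : ∀ g ∈ X, sv g 1 = 1 → g ∈ MB) : MB.relIndex X ≤ 5 := by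
  obtain ⟨-, _, k1, o1, -⟩ := A12.orbA_eq C12 gMm (b := 1) (by norm_num) (k := fun _ m => Nat.beq m 21)
    (by decide +kernel)
  obtain ⟨-, _, k2, o2, -⟩ := A12.orbA_eq C12 gMm (b := 8) (by norm_num) (k := fun _ m => Nat.beq m 84)
    (by decide +kernel)
  have := idx0 h.le (a := (enc 12).dec 1) (b := (enc 12).dec 8) (fun g hg e => hz g hg (by
    rw [ApiG.sv_code _ (by norm_num)]
    exact (congrArg vcode e).trans (vcode_vdec (by norm_num)))) fun x hx => (two h hz hx).imp_right (by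
      rintro ⟨k, hk, i⟩
      rw [ApiG.sv_code _ (by norm_num)] at i
      have j := congrArg (vdec 12) i
      rw [vdec_vcode, mul_smul, inv_smul_eq_iff] at j
      exact ⟨k, hk, j.symm⟩)
  rw [o1, o2, eq_of_beq k1, eq_of_beq k2] at this
  omega

theorem core {Y : Type*} [Group Y] [Finite Y] {H : Subgroup Y} (hi : H.index ≤ 5) {f : Y} (hf : f ^ 7 = 1) :
    f ∈ H.normalCore := by
  rw [normalCore_eq_ker, MonoidHom.mem_ker, ← orderOf_eq_one_iff]
  have c : Nat.Coprime 7 H.index.factorial :=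
    (Nat.Prime.coprime_iff_not_dvd (by norm_num)).2 fun d => by
      have := (Nat.Prime.dvd_factorial (by norm_num)).1 d
      omega
  refine Nat.eq_one_of_dvd_coprimes c (orderOf_dvd_of_pow_eq_one (by rw [← map_pow, hf, map_one])) ?_
  rw [index, ← Nat.card_perm]
  exact orderOf_dvd_natCard _

end LM

/-- PROOF. The orbits of `MB` on non-zero singular vectors have representatives (lengths) 0x1 (21), 0x8 (84),
0x9 (84), 0x42 (42), 0x50 (252), 0x52 (252), 0x210 (336), 0x212 (1008) (notes/t10/m.py). `⟨L12⟩` has no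
element of order 4, so for `g ∈ MB` of order 4 fixing the representative `v`, `u = g²` is as in the
criterion; also `u = [b, c]` with `c³ = 1`, `u² = 1` (`⟨L12⟩` is 3-closed). This kills all but 0x1, 0x8. So the
orbit of `X` has at most 105 points, the stabiliser lies in `MB`, `|X : MB| ≤ 5`. Elements of order 7 act
trivially on `X ⧸ MB`, so the normal closure `2 ^ 3 : L3(2)` of `f` in `MB` (generated by elements of order 7)
lies in every conjugate of `MB`. If `sv x 1 = 8` then its orbit of 8, of length 28, lies in `x` times the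
orbit of length 21. So `sv x 1` is in the `MB`-orbit of 1. -/
theorem XF.linM (h : XF X) (hz : ∀ g ∈ X, sv g 1 = 1 → g ∈ MB) : X = MB := by
  refine le_antisymm (fun x hx => (LM.two h hz hx).resolve_right ?_) h.le
  rintro ⟨m, hm, e⟩
  have y := mul_mem (inv_mem (h.le hm)) hx
  generalize m⁻¹ * x = x at e y
  have c : ∀ I : List ℕ, (∀ i ∈ I, i < 7) → powC mm c1 (word mm gM I c1) 7 = c1 →
      sv x⁻¹ (ac (word mm gM I c1) 8) &&& 0xe38 = 0 := fun I i j => by
    obtain ⟨f, hf, e'⟩ := LM.wM i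
    rw [← e', C12.powC_eq, ← C12.map_one] at j
    have := P2_MB (LM.core (LM.idx h hz) (f := ⟨f, h.le hf⟩) (Subtype.ext (C12.inj j)) ⟨x, y⟩⁻¹) 1
      (by norm_num) (by decide)
    change sv (x⁻¹ * f * x⁻¹⁻¹) 1 &&& _ = _ at this
    rwa [inv_inv, sv_mul _ _ (by norm_num), e, sv_mul _ _ (by norm_num), sv, sv, e'] at this
  have c1 := c [3, 5, 4, 2] (by decide) (by decide +kernel)
  have c2 := c [2, 6, 2, 3, 5, 4, 6, 2, 6] (by decide) (by decide +kernel)
  have c3 : sv x⁻¹ 1 &&& 0xe38 = 0 := by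
    rw [show 1 = ac (word mm gM [3, 5, 4, 2] F24.c1) 8 ^^^ ac (word mm gM [2, 6, 2, 3, 5, 4, 6, 2, 6] F24.c1) 8 by
      decide +kernel, sv_xor _ (by decide +kernel) (by decide +kernel), Nat.and_xor_distrib_right, c1, c2]
    rfl
  rcases LM.two h hz (inv_mem y) with i | ⟨k, hk, i⟩
  · have := P2_MB (inv_mem_iff.1 i) 1 (by norm_num) (by decide)
    rw [e] at this
    exact absurd this (by decide)
  · have := P2_MB (inv_mem hk) _ (sv_lt _ _) c3
    rw [← sv_mul _ _ (by norm_num), i] at this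
    exact absurd this (by decide)

end CL.T10
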