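import Cfsg.Agent.SPOR.T10.ApiN

/-!
Modules for `L5(2)` over the field with two elements: a highest weight vector. `U` is the group of upper
unitriangular matrices, `a_k = t_(k,k+1)`, `s_k` the transposition. The operators `T_k = (a_k + 1) s_k` act on
`C_V(U)`, are idempotent and satisfy the braid relations, so they have a common eigenvector.
-/

set_option autoImplicit false
set_option maxRecDepth 100000
set_option synthInstance.maxSize 2048

namespace CL.T10.HR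

open CL.K CL.CG CL.F2M Subgroup Cfsg

attribute [local irreducible] gcode vcode

section Hecke

variable {X : Type*} {A B C D : X → X}

theorem hk1 (hA : ∀ x, A (A x) = A x) (p : X → Prop) (h : ∃ x, p x) :
    ∃ y, p y ∧ (A y = y ∨ ¬p (A y)) := by
  by_cases h1 : ∃ x, p (A x)
  · obtain ⟨x, hx⟩ := h1
    exact ⟨A x, hx, .inl (hA x)⟩
  · obtain ⟨x, hx⟩ := h
    exact ⟨x, hx, .inr fun e => h1 ⟨x, e⟩⟩

theorem hk2 (hA : ∀ x, A (A x) = A x) (hB : ∀ x, B (B x) = B x)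
    (hAB : ∀ x, A (B (A x)) = B (A (B x))) (p : X → Prop) (h : ∃ x, p x) :
    ∃ y, p y ∧ (A y = y ∨ ¬p (A y)) ∧ (B y = y ∨ ¬p (B y)) := by
  by_cases h1 : ∃ x, p (A (B x))
  · obtain ⟨x, hx, a⟩ := hk1 hA (fun x => p (A (B x))) h1
    refine ⟨_, hx, .inl (hA _), ?_⟩
    rw [← hAB]
    exact a.imp (fun e => by rw [e]) id
  by_cases h2 : ∃ x, p (B x)
  · obtain ⟨x, hx⟩ := h2
    exact ⟨_, hx, .inr fun e => h1 ⟨x, e⟩, .inl (hB x)⟩
  · obtain ⟨x, hx, a⟩ := hk1 hA p h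
    exact ⟨x, hx, a, .inr fun e => h2 ⟨x, e⟩⟩

theorem hk3 (hA : ∀ x, A (A x) = A x) (hB : ∀ x, B (B x) = B x) (hC : ∀ x, C (C x) = C x)
    (hAB : ∀ x, A (B (A x)) = B (A (B x))) (hBC : ∀ x, B (C (B x)) = C (B (C x)))
    (hAC : ∀ x, A (C x) = C (A x)) (p : X → Prop) (h : ∃ x, p x) :
    ∃ y, p y ∧ (A y = y ∨ ¬p (A y)) ∧ (B y = y ∨ ¬p (B y)) ∧ (C y = y ∨ ¬p (C y)) := by
  by_cases h1 : ∃ x, p (A (B (C x)))
  · obtain ⟨x, hx, a, b⟩ := hk2 hA hB hAB (fun x => p (A (B (C x)))) h1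
    refine ⟨_, hx, .inl (hA _), ?_, ?_⟩
    · rw [← hAB, hAC]
      exact a.imp (fun e => by rw [e]) id
    · rw [← hAC, ← hBC]
      exact b.imp (fun e => by rw [e]) id
  by_cases h2 : ∃ x, p (B (C x))
  · obtain ⟨x, hx, -, b⟩ := hk2 hA hB hAB (fun x => p (B (C x))) h2
    refine ⟨_, hx, .inr fun e => h1 ⟨x, e⟩, .inl (hB _), ?_⟩
    rw [← hBC]
    exact b.imp (fun e => by rw [e]) id
  by_cases h3 : ∃ x, p (C x)
  · obtain ⟨x, hx, a, -⟩ := hk2 hA hB hAB (fun x => p (C x)) h3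
    refine ⟨_, hx, ?_, .inr fun e => h2 ⟨x, e⟩, .inl (hC _)⟩
    rw [hAC]
    exact a.imp (fun e => by rw [e]) id
  · obtain ⟨x, hx, a, b⟩ := hk2 hA hB hAB p h
    exact ⟨x, hx, a, b, .inr fun e => h3 ⟨x, e⟩⟩

theorem hk4 (hA : ∀ x, A (A x) = A x) (hB : ∀ x, B (B x) = B x) (hC : ∀ x, C (C x) = C x)
    (hD : ∀ x, D (D x) = D x)
    (hAB : ∀ x, A (B (A x)) = B (A (B x))) (hBC : ∀ x, B (C (B x)) = C (B (C x)))
    (hCD : ∀ x, C (D (C x)) = D (C (D x))) (hAC : ∀ x, A (C x) = C (A x))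
    (hAD : ∀ x, A (D x) = D (A x)) (hBD : ∀ x, B (D x) = D (B x)) (p : X → Prop) (h : ∃ x, p x) :
    ∃ y, p y ∧ (A y = y ∨ ¬p (A y)) ∧ (B y = y ∨ ¬p (B y)) ∧ (C y = y ∨ ¬p (C y)) ∧
      (D y = y ∨ ¬p (D y)) := by
  have K := hk3 hA hB hC hAB hBC hAC
  by_cases h1 : ∃ x, p (A (B (C (D x))))
  · obtain ⟨x, hx, a, b, c⟩ := K (fun x => p (A (B (C (D x))))) h1
    refine ⟨_, hx, .inl (hA _), ?_, ?_, ?_⟩
    · rw [← hAB, hAC, hAD]
      exact a.imp (fun e => by rw [e]) id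
    · rw [← hAC, ← hBC, hBD]
      exact b.imp (fun e => by rw [e]) id
    · rw [← hAD, ← hBD, ← hCD]
      exact c.imp (fun e => by rw [e]) id
  by_cases h2 : ∃ x, p (B (C (D x)))
  · obtain ⟨x, hx, -, b, c⟩ := K (fun x => p (B (C (D x)))) h2
    refine ⟨_, hx, .inr fun e => h1 ⟨x, e⟩, .inl (hB _), ?_, ?_⟩
    · rw [← hBC, hBD]
      exact b.imp (fun e => by rw [e]) id
    · rw [← hBD, ← hCD]
      exact c.imp (fun e => by rw [e]) id
  by_cases h3 : ∃ x, p (C (D x))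
  · obtain ⟨x, hx, a, -, c⟩ := K (fun x => p (C (D x))) h3
    refine ⟨_, hx, ?_, .inr fun e => h2 ⟨x, e⟩, .inl (hC _), ?_⟩
    · rw [hAC, hAD]
      exact a.imp (fun e => by rw [e]) id
    · rw [← hCD]
      exact c.imp (fun e => by rw [e]) id
  by_cases h4 : ∃ x, p (D x)
  · obtain ⟨x, hx, a, b, -⟩ := K (fun x => p (D x)) h4
    refine ⟨_, hx, ?_, ?_, .inr fun e => h3 ⟨x, e⟩, .inl (hD _)⟩
    · rw [hAD]
      exact a.imp (fun e => by rw [e]) id
    · rw [hBD]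
      exact b.imp (fun e => by rw [e]) id
  · obtain ⟨x, hx, a, b, c⟩ := K p h
    exact ⟨x, hx, a, b, c, .inr fun e => h4 ⟨x, e⟩⟩

end Hecke

variable {V : Type*} [AddCommGroup V] [Module (ZMod 2) V] (ρ : GL5 →* Module.End (ZMod 2) V)

/-- the operator of the element with code `c` -/
noncomputable def op (c : ℕ) : Module.End (ZMod 2) V := ρ (E5 c)

/-- codes of elements -/
abbrev Gc (c : ℕ) : Prop := Mem (gcode : GL5 → ℕ) ⊤ c

/-- `a_(k+1)` -/
def ak (k : ℕ) : ℕ := tv (k + 1) (k + 2)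
/-- `b_(k+1)` -/
def bk (k : ℕ) : ℕ := tv (k + 2) (k + 1)
/-- `s_(k+1)` -/
noncomputable def sk (k : ℕ) : ℕ := m5 (ak k) (m5 (bk k) (ak k))
/-- `a_(k+1) s_(k+1)` -/
noncomputable def ck (k : ℕ) : ℕ := m5 (ak k) (sk k)

/-- the stabiliser of a vector -/
def St (v : V) : Subgroup GL5 where
  carrier := {g | ρ g v = v}
  mul_mem' {a b} ha hb := by
    change ρ (a * b) v = v
    rw [map_mul, Module.End.mul_apply, show ρ b v = v from hb]
    exact ha
  one_mem' := by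
    change ρ 1 v = v
    rw [map_one]
    rfl
  inv_mem' {a} ha := by
    change ρ a⁻¹ v = v
    conv_lhs => rw [← show ρ a v = v from ha]
    rw [← Module.End.mul_apply, ← map_mul, inv_mul_cancel, map_one]
    rfl

/-- the code `c` fixes `v` -/
abbrev Fi (v : V) (c : ℕ) : Prop := Mem (gcode : GL5 → ℕ) (St ρ v) c

variable {ρ}

theorem add_self (v : V) : v + v = 0 := by
  rw [← two_smul (ZMod 2) v, show (2 : ZMod 2) = 0 from rfl, zero_smul]

theorem op_mul {a b : ℕ} (ha : Gc a) (hb : Gc b) : op ρ (m5 a b) = op ρ a * op ρ b := by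
  rw [op, op, op, E5, C5.elt_mul ha hb, map_mul]

theorem op_mul' {a b : ℕ} (ha : Gc a) (hb : Gc b) (v : V) :
    op ρ (m5 a b) v = op ρ a (op ρ b v) := by rw [op_mul ha hb]; rfl

theorem op_one : op ρ i5 = 1 := by rw [op, E5, C5.elt_one, map_one]

theorem Gc.mul {a b : ℕ} (ha : Gc a) (hb : Gc b) : Gc (m5 a b) := C5.mem_mul ha hb

theorem Fi.eq {v : V} {c : ℕ} (h : Fi ρ v c) : op ρ c v = v := C5.elt_mem h

theorem Fi.of {v : V} {c : ℕ} (hc : Gc c) (h : op ρ c v = v) : Fi ρ v c := hc.of_elt h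

theorem Fi.mul {v : V} {a b : ℕ} (ha : Fi ρ v a) (hb : Fi ρ v b) : Fi ρ v (m5 a b) := C5.mem_mul ha hb

theorem Fi.op_mul {v : V} {a b : ℕ} (ha : Gc a) (hb : Fi ρ v b) : op ρ (m5 a b) v = op ρ a v := by
  rw [op_mul' ha hb.top, hb.eq]

theorem op_inj {c : ℕ} {u v : V} (h : op ρ c u = op ρ c v) : u = v := by
  have e : ∀ w, ρ (E5 c)⁻¹ (op ρ c w) = w := fun w => by
    rw [op, ← Module.End.mul_apply, ← map_mul, inv_mul_cancel, map_one]
    rfl
  rw [← e u, h, e]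

theorem g_tv {a b : ℕ} (ha : a < 5) (hb : b < 5) (h : a ≠ b) : Gc (tv (a + 1) (b + 1)) := by
  have : ∀ a < 5, ∀ b < 5, a ≠ b → isG (tv (a + 1) (b + 1)) = true := by decide +kernel
  exact mem5 (this a ha b hb h)

theorem g_one : Gc i5 := C5.mem_one _

theorem g_ak {k : ℕ} (hk : k < 4) : Gc (ak k) := g_tv (by omega) (by omega) (by omega)

theorem g_bk {k : ℕ} (hk : k < 4) : Gc (bk k) := g_tv (by omega) (by omega) (by omega)

theorem g_sk {k : ℕ} (hk : k < 4) : Gc (sk k) := (g_ak hk).mul ((g_bk hk).mul (g_ak hk))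

theorem g_ck {k : ℕ} (hk : k < 4) : Gc (ck k) := (g_ak hk).mul (g_sk hk)

variable (ρ) in
/-- `t_(a+1,b+1)` fixes `v` -/
def Rl (v : V) (a b : ℕ) : Prop := a = b ∨ Fi ρ v (tv (a + 1) (b + 1))

theorem Rl.trans {v : V} {a b c : ℕ} (ha : a < 5) (hb : b < 5) (hc : c < 5) (h : Rl ρ v a b)
    (h' : Rl ρ v b c) : Rl ρ v a c := by
  have : ∀ a < 5, ∀ b < 5, ∀ c < 5, a ≠ b → b ≠ c → a ≠ c → tv (a + 1) (c + 1) =
      m5 (m5 (tv (a + 1) (b + 1)) (tv (b + 1) (c + 1))) (m5 (tv (a + 1) (b + 1)) (tv (b + 1) (c + 1))) := by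
    decide +kernel
  by_cases e1 : a = b
  · rwa [e1]
  by_cases e2 : b = c
  · rwa [← e2]
  by_cases e3 : a = c
  · exact .inl e3
  have k := (h.resolve_left e1).mul (h'.resolve_left e2)
  exact .inr (this a ha b hb c hc e1 e2 e3 ▸ k.mul k)

variable (ρ) in
/-- fixed by `U` -/
def UF (v : V) : Prop := ∀ k < 4, Fi ρ v (ak k)

theorem UF.rl {v : V} (h : UF ρ v) {a b : ℕ} (hab : a ≤ b) (hb : b < 5) : Rl ρ v a b := by
  induction b, hab using Nat.le_induction with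
  | base => exact .inl rfl
  | succ b hab ih => exact (ih (by omega)).trans (by omega) (by omega) hb (.inr (h b (by omega)))

/-- the identity and the upper transvections -/
def LU : List ℕ := [i5, tv 1 2, tv 1 3, tv 1 4, tv 1 5, tv 2 3, tv 2 4, tv 2 5, tv 3 4, tv 3 5, tv 4 5]

theorem UF.lu {v : V} (h : UF ρ v) : ∀ c ∈ LU, Fi ρ v c := by
  have k : ∀ a b, a < b → b < 5 → Fi ρ v (tv (a + 1) (b + 1)) := fun a b h1 h2 =>
    (h.rl h1.le h2).resolve_left h1.ne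
  simp only [LU, List.forall_mem_cons]
  exact ⟨C5.mem_one _, k 0 1 (by omega) (by omega), k 0 2 (by omega) (by omega),
    k 0 3 (by omega) (by omega), k 0 4 (by omega) (by omega), k 1 2 (by omega) (by omega),
    k 1 3 (by omega) (by omega), k 1 4 (by omega) (by omega), k 2 3 (by omega) (by omega),
    k 2 4 (by omega) (by omega), k 3 4 (by omega) (by omega), by simp⟩

variable (ρ) in
/-- sum of operators -/
noncomputable def so (L : List ℕ) : Module.End (ZMod 2) V := (L.map (op ρ)).sum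

/-- all products -/
noncomputable def pr (L L' : List ℕ) : List ℕ := L.flatMap fun a => L'.map (m5 a)

theorem g_pr {L L' : List ℕ} (h : ∀ c ∈ L, Gc c) (h' : ∀ c ∈ L', Gc c) : ∀ c ∈ pr L L', Gc c := by
  intro c hc
  simp only [pr, List.mem_flatMap, List.mem_map] at hc
  obtain ⟨a, ha, b, hb, rfl⟩ := hc
  exact (h a ha).mul (h' b hb)

theorem so_pr {L L' : List ℕ} (h : ∀ c ∈ L, Gc c) (h' : ∀ c ∈ L', Gc c) :
    so ρ (pr L L') = so ρ L * so ρ L' := by
  induction L with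
  | nil => simp [so, pr]
  | cons a L ih =>
    have e := ih fun c hc => h c (List.mem_cons_of_mem _ hc)
    simp only [so, pr, List.flatMap_cons, List.map_append, List.sum_append, List.map_cons,
      List.sum_cons, add_mul] at e ⊢
    rw [e, List.map_map, List.map_congr_left (f := op ρ ∘ m5 a) (g := fun b => op ρ a * op ρ b)
        fun b hb => op_mul (h a List.mem_cons_self) (h' b hb), List.sum_map_mul_left]

theorem so_perm {L L' : List ℕ} (h : L.Perm L') : so ρ L = so ρ L' := (h.map _).sum_eq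

/-- the two terms of `T_(k+1)` -/
noncomputable def tk (k : ℕ) : List ℕ := [ck k, sk k]

theorem g_tk {k : ℕ} (hk : k < 4) : ∀ c ∈ tk k, Gc c := by
  simp only [tk, List.forall_mem_cons]
  exact ⟨g_ck hk, g_sk hk, by simp⟩

variable (ρ) in
/-- the operator `T_(k+1)` -/
noncomputable def Tk (k : ℕ) : Module.End (ZMod 2) V := so ρ (tk k)

theorem Tk_eq (k : ℕ) (v : V) : Tk ρ k v = op ρ (ck k) v + op ρ (sk k) v := by
  simp [Tk, so, tk]

theorem Tk_comm {j k : ℕ} (hk : k < 4) (h : j + 2 ≤ k) (v : V) :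
    Tk ρ j (Tk ρ k v) = Tk ρ k (Tk ρ j v) := by
  have : ∀ k < 4, ∀ j < 4, j + 2 ≤ k → (pr (tk j) (tk k)).Perm (pr (tk k) (tk j)) := by decide +kernel
  have hj : j < 4 := by omega
  have e := so_perm (ρ := ρ) (this k hk j hj h)
  rw [so_pr (g_tk hj) (g_tk hk), so_pr (g_tk hk) (g_tk hj)] at e
  exact congrArg (· v) e

theorem Tk_braid {k : ℕ} (hk : k < 3) (v : V) :
    Tk ρ k (Tk ρ (k + 1) (Tk ρ k v)) = Tk ρ (k + 1) (Tk ρ k (Tk ρ (k + 1) v)) := by
  have : ∀ k < 3, (pr (tk k) (pr (tk (k + 1)) (tk k))).Perm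
      (pr (tk (k + 1)) (pr (tk k) (tk (k + 1)))) := by decide +kernel
  have h0 := g_tk (k := k) (by omega)
  have h1 := g_tk (k := k + 1) (by omega)
  have e := so_perm (ρ := ρ) (this k hk)
  rw [so_pr h0 (g_pr h1 h0), so_pr h1 (g_pr h0 h1), so_pr h0 h1, so_pr h1 h0] at e
  exact congrArg (· v) e

theorem UF.tk {v : V} (h : UF ρ v) {k : ℕ} (hk : k < 4) : UF ρ (Tk ρ k v) := by
  have : ∀ k < 4, ∀ j < 4, (m5 (ak j) (ck k) = sk k ∧ m5 (ak j) (sk k) = ck k) ∨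
      ((∃ t ∈ LU, m5 (ak j) (sk k) = m5 (sk k) t) ∧
        ∃ t ∈ LU, ∃ t' ∈ LU, m5 (ak j) (ck k) = m5 (m5 (ck k) t) t') := by decide +kernel
  intro j hj
  refine Fi.of (g_ak hj) ?_
  rw [Tk_eq, map_add, ← op_mul' (g_ak hj) (g_ck hk), ← op_mul' (g_ak hj) (g_sk hk)]
  rcases this k hk j hj with ⟨e1, e2⟩ | ⟨⟨t, ht, e1⟩, u, hu, u', hu', e2⟩
  · rw [e1, e2, add_comm]
  · rw [e1, e2, Fi.op_mul (g_sk hk) (h.lu t ht), Fi.op_mul ((g_ck hk).mul (h.lu u hu).top) (h.lu u' hu'),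
      Fi.op_mul (g_ck hk) (h.lu u hu)]

theorem UF.idem {v : V} (h : UF ρ v) {k : ℕ} (hk : k < 4) : Tk ρ k (Tk ρ k v) = Tk ρ k v := by
  have : ∀ k < 4, m5 (ck k) (sk k) = ak k ∧ m5 (sk k) (sk k) = i5 ∧
      ck k = m5 (m5 (sk k) (ck k)) (ak k) ∧ sk k = m5 (m5 (ck k) (ck k)) (ak k) := by decide +kernel
  obtain ⟨e1, e2, e3, e4⟩ := this k hk
  have c := g_ck hk
  have s := g_sk hk
  have f3 : op ρ (ck k) v = op ρ (m5 (sk k) (ck k)) v := by
    conv_lhs => rw [e3, Fi.op_mul (s.mul c) (h k hk)]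
  have f4 : op ρ (sk k) v = op ρ (m5 (ck k) (ck k)) v := by
    conv_lhs => rw [e4, Fi.op_mul (c.mul c) (h k hk)]
  rw [Tk_eq, Tk_eq, map_add, map_add, ← op_mul' c c, ← op_mul' c s, ← op_mul' s c, ← op_mul' s s, e1, e2,
    ← f3, ← f4, (h k hk).eq, op_one, Module.End.one_apply]
  calc _ = op ρ (ck k) v + op ρ (sk k) v + (v + v) := by abel
    _ = _ := by rw [add_self, add_zero]

variable (ρ) in
/-- a highest weight vector; the bits of `n` are the active nodes -/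
structure HW (v : V) (n : ℕ) : Prop where
  ne : v ≠ 0
  up : UF ρ v
  on : ∀ k < 4, n.testBit k = true → Tk ρ k v = v
  off : ∀ k < 4, n.testBit k = false → Tk ρ k v = 0

theorem UF.exists_HW {u : V} (hu : UF ρ u) (h0 : u ≠ 0) : ∃ v, ∃ n < 16, HW ρ v n := by
  classical
  let T : (k : Fin 4) → {v // UF ρ v} → {v // UF ρ v} := fun k v => ⟨Tk ρ k v.1, v.2.tk k.2⟩
  have hi : ∀ k x, T k (T k x) = T k x := fun k x => Subtype.ext (x.2.idem k.2)
  obtain ⟨y, hy, a, b, c, d⟩ := hk4 (hi 0) (hi 1) (hi 2) (hi 3)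
    (fun x => Subtype.ext (Tk_braid (k := 0) (by omega) x.1))
    (fun x => Subtype.ext (Tk_braid (k := 1) (by omega) x.1))
    (fun x => Subtype.ext (Tk_braid (k := 2) (by omega) x.1))
    (fun x => Subtype.ext (Tk_comm (j := 0) (k := 2) (by omega) (by omega) x.1))
    (fun x => Subtype.ext (Tk_comm (j := 0) (k := 3) (by omega) (by omega) x.1))
    (fun x => Subtype.ext (Tk_comm (j := 1) (k := 3) (by omega) (by omega) x.1))
    (fun x => x.1 ≠ 0) ⟨⟨u, hu⟩, h0⟩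
  have k : ∀ k < 4, Tk ρ k y.1 = y.1 ∨ Tk ρ k y.1 = 0 := fun k hk => by
    interval_cases k
    exacts [a.imp (congrArg Subtype.val) not_not.1, b.imp (congrArg Subtype.val) not_not.1,
      c.imp (congrArg Subtype.val) not_not.1, d.imp (congrArg Subtype.val) not_not.1]
  refine ⟨y.1, Nat.ofBits fun i : Fin 4 => decide (Tk ρ i y.1 = y.1), Nat.ofBits_lt_two_pow _, hy, y.2,
    fun i hi e => ?_, fun i hi e => ?_⟩
  · rw [Nat.testBit_ofBits_lt _ _ hi] at e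
    exact of_decide_eq_true e
  · rw [Nat.testBit_ofBits_lt _ _ hi] at e
    exact (k i hi).resolve_left (of_decide_eq_false e)

theorem fix_step {L : List ℕ} (t : ℕ) (hc : isG t = true ∧ m5 t t = i5 ∧
    ∀ c ∈ L, m5 c t = m5 t c ∨ ∃ z ∈ L, m5 c t = m5 (m5 t c) z)
    (h : ∃ u : V, u ≠ 0 ∧ ∀ c ∈ L, Fi ρ u c) : ∃ u : V, u ≠ 0 ∧ ∀ c ∈ t :: L, Fi ρ u c := by
  obtain ⟨u, h0, hu⟩ := h
  have ht : Gc t := mem5 hc.1
  by_cases e : op ρ t u = u
  · exact ⟨u, h0, List.forall_mem_cons.2 ⟨.of ht e, hu⟩⟩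
  refine ⟨op ρ t u + u, fun e' => e ?_, List.forall_mem_cons.2 ⟨.of ht ?_, fun c h => .of (hu c h).top ?_⟩⟩
  · rw [← add_left_inj u, e', add_self]
  · rw [map_add, ← op_mul' ht ht, hc.2.1, op_one, add_comm]
    rfl
  · rw [map_add, (hu c h).eq, ← op_mul' (hu c h).top ht]
    rcases hc.2.2 c h with e | ⟨z, hz, e⟩
    · rw [e, Fi.op_mul ht (hu c h)]
    · rw [e, Fi.op_mul (ht.mul (hu c h).top) (hu z hz), Fi.op_mul ht (hu c h)]

theorem exists_HW [Nontrivial V] : ∃ v, ∃ n < 16, HW ρ v n := by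
  have h : ∃ u : V, u ≠ 0 ∧ ∀ c ∈ ([] : List ℕ), Fi ρ u c := (exists_ne 0).imp fun _ h => ⟨h, by simp⟩
  replace h := fix_step (tv 1 5) (by decide +kernel) h
  replace h := fix_step (tv 1 4) (by decide +kernel) h
  replace h := fix_step (tv 2 5) (by decide +kernel) h
  replace h := fix_step (tv 1 3) (by decide +kernel) h
  replace h := fix_step (tv 2 4) (by decide +kernel) h
  replace h := fix_step (tv 3 5) (by decide +kernel) h
  replace h := fix_step (ak 0) (by decide +kernel) h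
  replace h := fix_step (ak 1) (by decide +kernel) h
  replace h := fix_step (ak 2) (by decide +kernel) h
  obtain ⟨u, h0, hu⟩ := fix_step (ak 3) (by decide +kernel) h
  refine UF.exists_HW (u := u) (fun k hk => hu _ ?_) h0
  interval_cases k <;> simp

end CL.T10.HR
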