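import Cfsg.Agent.SPOR.T10.ModA

/-!
Modules for `L5(2)`: if the highest weight vector has two active nodes then a transvection has rank at least 6,
so the dimension is at least 12.
-/

set_option autoImplicit false
set_option maxRecDepth 100000

namespace CL.T10.HR

open CL.K CL.CG CL.F2M Subgroup Cfsg

attribute [local irreducible] gcode vcode

variable {V : Type*} [AddCommGroup V] [Module (ZMod 2) V] {ρ : GL5 →* Module.End (ZMod 2) V} {v : V} {n : ℕ}

/-- no active node between `b` and `a` -/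
noncomputable def Fb (n a b : ℕ) : Bool :=
  allLt (fun k => !(Nat.ble b k && blt k a && n.testBit k)) 4

theorem eq_of_add {a b : V} (h : a + b = 0) : a = b := by rw [← add_left_inj b, h, add_self]

theorem HW.bk (h : HW ρ v n) {k : ℕ} (hk : k < 4) (e : n.testBit k = false) : Fi ρ v (bk k) := by
  have : ∀ k < 4, ck k = m5 (HR.bk k) (ak k) ∧ m5 (sk k) (ck k) = HR.bk k ∧ m5 (sk k) (sk k) = i5 := by
    decide +kernel
  obtain ⟨-, e2, e3⟩ := this k hk
  have f := congrArg (op ρ (sk k)) (eq_of_add (Tk_eq k v ▸ h.off k hk e))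
  rw [← op_mul' (g_sk hk) (g_ck hk), ← op_mul' (g_sk hk) (g_sk hk), e2, e3, op_one] at f
  exact .of (g_bk hk) f

theorem HW.sk (h : HW ρ v n) {k : ℕ} (hk : k < 4) (e : Fi ρ v (HR.bk k)) : Fi ρ v (sk k) :=
  (h.up k hk).mul (e.mul (h.up k hk))

theorem HW.not_bk (h : HW ρ v n) {k : ℕ} (hk : k < 4) (e : n.testBit k = true) : ¬Fi ρ v (HR.bk k) := by
  intro f
  have s := h.sk hk f
  have := h.on k hk e
  rw [Tk_eq, s.eq, ck, ((h.up k hk).mul s).eq, add_self] at this
  exact h.ne this.symm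

theorem HW.rl (h : HW ρ v n) {a b : ℕ} (ha : a < 5) (hb : b < 5) (e : Fb n a b = true) : Rl ρ v a b := by
  rcases le_total a b with hab | hab
  · exact h.up.rl hab hb
  rw [Fb, allLt_iff] at e
  have k : ∀ k, b ≤ k → k < a → n.testBit k = false := fun k h1 h2 => by
    have := e k (by omega)
    rw [Nat.ble_eq_true_of_le h1, show blt k a = true from Nat.ble_eq_true_of_le h2] at this
    simpa using this
  clear e
  induction a, hab using Nat.le_induction with
  | base => exact .inl rfl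
  | succ a hab ih =>
    exact Rl.trans ha (by omega) hb (.inr (h.bk (k := a) (by omega) (k a hab (by omega))))
      (ih (by omega) fun j h1 h2 => k j h1 (by omega))

theorem HW.not_rl (h : HW ρ v n) {a b : ℕ} (ha : a < 5) (hb : b < 5) (e : Fb n a b = false) :
    ¬Rl ρ v a b := by
  intro r
  obtain ⟨k, hk, h1, h2, h3⟩ : ∃ k < 4, b ≤ k ∧ k < a ∧ n.testBit k = true := by
    by_contra hn
    refine Bool.false_ne_true (e.symm.trans (allLt_iff.2 fun k hk => ?_))
    rw [Bool.not_eq_true', ← Bool.not_eq_true, Bool.and_eq_true, Bool.and_eq_true]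
    exact fun f => hn ⟨k, hk, Nat.le_of_ble_eq_true f.1.1, lt_of_blt f.1.2, f.2⟩
  have := ((h.up.rl (a := k + 1) h2 ha).trans (by omega) ha hb r).trans (by omega) hb (by omega)
    (h.up.rl h1 (by omega))
  exact h.not_bk hk h3 (this.resolve_left (by omega))

/-- `g⁻¹ t g` is a transvection `t_ab` with `P a b` -/
noncomputable def cjB (P : ℕ → ℕ → Bool) (t g : ℕ) : Bool :=
  force (m5 t g) fun c => anyLt (fun a => anyLt (fun b =>
    !Nat.beq a b && P a b && Nat.beq c (m5 g (tv (a + 1) (b + 1)))) 5) 5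

theorem cjB_spec {P : ℕ → ℕ → Bool} {t g : ℕ} (h : cjB P t g = true) :
    ∃ a < 5, ∃ b < 5, a ≠ b ∧ P a b = true ∧ m5 t g = m5 g (tv (a + 1) (b + 1)) := by
  simp only [cjB, force_eq, anyLt_iff, Bool.and_eq_true, Bool.not_eq_true'] at h
  obtain ⟨a, ha, b, hb, ⟨h1, h2⟩, h3⟩ := h
  exact ⟨a, ha, b, hb, ne_of_beq h1, h2, CG.eq_of_beq h3⟩

theorem HW.fx (h : HW ρ v n) {t g : ℕ} (ht : Gc t) (hg : Gc g) (e : cjB (Fb n) t g = true) :
    op ρ t (op ρ g v) = op ρ g v := by
  obtain ⟨a, ha, b, hb, h1, h2, h3⟩ := cjB_spec e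
  rw [← op_mul' ht hg, h3, Fi.op_mul hg ((h.rl ha hb h2).resolve_left h1)]

theorem HW.mv (h : HW ρ v n) {t g : ℕ} (ht : Gc t) (hg : Gc g)
    (e : cjB (fun a b => !Fb n a b) t g = true) : op ρ t (op ρ g v) ≠ op ρ g v := by
  obtain ⟨a, ha, b, hb, h1, h2, h3⟩ := cjB_spec e
  rw [← op_mul' ht hg, h3, op_mul' hg (g_tv ha hb h1)]
  exact fun f => h.not_rl ha hb (by simpa using h2) (.inr (.of (g_tv ha hb h1) (op_inj f)))

theorem HW.rel (h : HW ρ v n) {t g k : ℕ} (ht : Gc t) (hg : Gc g) (hk : k < 4) (hn : n.testBit k = true)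
    (e : m5 t g = m5 g (ak k)) :
    op ρ g v = op ρ t (op ρ (m5 g (HR.sk k)) v) + op ρ (m5 g (HR.sk k)) v := by
  conv_lhs => rw [← h.on k hk hn, Tk_eq, map_add, ck, op_mul' (g_ak hk) (g_sk hk), ← op_mul' hg (g_ak hk),
    ← e, op_mul' ht hg, ← op_mul' hg (g_sk hk)]

/-- `t = g a_k g⁻¹` for an active node `k` -/
noncomputable def dirB (n t g : ℕ) : Bool :=
  anyLt (fun k => n.testBit k && Nat.beq (m5 t g) (m5 g (ak k))) 4

/-- `g v ∈ [V, t15]` -/
noncomputable def inB (n g : ℕ) : Bool :=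
  dirB n (tv 1 5) g || anyLt (fun k => n.testBit k && dirB n (tv 1 5) (m5 g (sk k)) &&
    lany (fun t => isG t && Nat.beq (m5 t g) (m5 g (ak k)) && Nat.beq (m5 t (tv 1 5)) (m5 (tv 1 5) t)) LU) 4

variable (ρ) in
/-- `[V, t15]` -/
noncomputable def IZ : Submodule (ZMod 2) V := LinearMap.range (op ρ (tv 1 5) + 1)

theorem g_z : Gc (tv 1 5) := g_tv (a := 0) (b := 4) (by omega) (by omega) (by omega)

theorem HW.dir (h : HW ρ v n) {g : ℕ} (hg : Gc g) (e : dirB n (tv 1 5) g = true) : op ρ g v ∈ IZ ρ := by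
  simp only [dirB, anyLt_iff, Bool.and_eq_true] at e
  obtain ⟨k, hk, h1, h2⟩ := e
  exact ⟨_, (h.rel g_z hg hk h1 (CG.eq_of_beq h2)).symm⟩

theorem HW.mem_IZ (h : HW ρ v n) {g : ℕ} (hg : Gc g) (e : inB n g = true) : op ρ g v ∈ IZ ρ := by
  simp only [inB, anyLt_iff, lany_iff, Bool.and_eq_true, Bool.or_eq_true] at e
  rcases e with e | ⟨k, hk, ⟨h1, h2⟩, t, -, ⟨h3, h4⟩, h5⟩
  · exact h.dir hg e
  have ht : Gc t := mem5 h3
  have m := h.dir (hg.mul (g_sk hk)) h2
  rw [h.rel ht hg hk h1 (CG.eq_of_beq h4)]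
  refine add_mem ?_ m
  obtain ⟨w, hw⟩ := m
  refine ⟨op ρ t w, ?_⟩
  rw [← hw]
  simp only [LinearMap.add_apply, Module.End.one_apply, map_add]
  rw [← op_mul' ht g_z, CG.eq_of_beq h5, op_mul' g_z ht]

/-- a triangular system -/
noncomputable def chB (n : ℕ) (L : List (ℕ × ℕ)) : Bool :=
  List.rec true (fun p L ih => isG p.1 && cjB (fun a b => !Fb n a b) p.1 p.2 &&
    lall (fun q => cjB (Fb n) p.1 q.2) L && ih) L

theorem HW.chain [Module.Finite (ZMod 2) V] (h : HW ρ v n) (L : List (ℕ × ℕ)) (hL : chB n L = true)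
    (I : Submodule (ZMod 2) V) (hI : ∀ p ∈ L, Gc p.2 ∧ op ρ p.2 v ∈ I) :
    L.length ≤ Module.finrank (ZMod 2) I := by
  induction L generalizing I with
  | nil => exact Nat.zero_le _
  | cons p L ih =>
    replace hL : (isG p.1 && cjB (fun a b => !Fb n a b) p.1 p.2 &&
      lall (fun q => cjB (Fb n) p.1 q.2) L && chB n L) = true := hL
    simp only [Bool.and_eq_true, lall_iff] at hL
    obtain ⟨⟨⟨h1, h2⟩, h3⟩, h4⟩ := hL
    have hp := hI p List.mem_cons_self
    have := ih h4 (I ⊓ LinearMap.eqLocus (op ρ p.1) LinearMap.id) fun q hq =>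
      have hq' := hI q (List.mem_cons_of_mem _ hq)
      ⟨hq'.1, hq'.2, h.fx (mem5 h1) hq'.1 (h3 q hq)⟩
    have lt : I ⊓ LinearMap.eqLocus (op ρ p.1) LinearMap.id < I :=
      lt_of_le_of_ne inf_le_left fun e => h.mv (mem5 h1) hp.1 h2 (e.symm ▸ hp.2).2
    exact Nat.succ_le_of_lt (this.trans_lt (Submodule.finrank_lt_finrank_of_lt lt))

theorem rank_IZ [Module.Finite (ZMod 2) V] :
    2 * Module.finrank (ZMod 2) (IZ ρ) ≤ Module.finrank (ZMod 2) V := by
  have e := LinearMap.finrank_range_add_finrank_ker (op ρ (tv 1 5) + 1)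
  have l : IZ ρ ≤ LinearMap.ker (op ρ (tv 1 5) + 1) := by
    rintro _ ⟨w, rfl⟩
    simp only [LinearMap.mem_ker, LinearMap.add_apply, Module.End.one_apply, map_add]
    rw [← op_mul' g_z g_z, show m5 (tv 1 5) (tv 1 5) = i5 by decide +kernel, op_one, Module.End.one_apply,
      add_comm w, add_self]
  have := Submodule.finrank_mono l
  rw [IZ] at this ⊢
  omega

/-- the certificates -/
def certs : List (List (ℕ × ℕ)) := [[], [], [],
  [(0x1041061, 0x824022), (0x1041441, 0x814024), (0x1049041, 0x414028), (0x1041841, 0x814081), (0x1051041, 0x414101), (0x1041043, 0x820a01)],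
  [],
  [(0x1041061, 0x880482), (0x1041441, 0x880444), (0x1049041, 0x480448), (0x1041841, 0x811201), (0x1051041, 0x412201), (0x1041043, 0x820a01)],
  [(0x1041061, 0x880482), (0x1041441, 0x280504), (0x1041043, 0x814024), (0x1061041, 0x482022), (0x1441041, 0x824022), (0x1041045, 0x881022)],
  [(0x1041061, 0x824022), (0x1041441, 0x814024), (0x1049041, 0x414028), (0x1041841, 0x811201), (0x1051041, 0x412201), (0x1041043, 0x820a01)],
  [],
  [(0x1041061, 0x100a082), (0x1041441, 0x100a044), (0x1049041, 0x1009048), (0x1041841, 0x241201), (0x10410c1, 0x440a01), (0x1041043, 0x820a01)],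
  [(0x1041061, 0x100a082), (0x1041441, 0x1008904), (0x1041841, 0x814024), (0x1041043, 0x414028), (0x1061041, 0x444022), (0x1041045, 0x824022)],
  [(0x1041061, 0x824022), (0x1041441, 0x814024), (0x1049041, 0x414028), (0x1041841, 0x241201), (0x1051041, 0x414101), (0x1041043, 0x820a01)],
  [(0x1041061, 0x100a082), (0x1041043, 0x280504), (0x1441041, 0x480502), (0x1041045, 0x1020502), (0x1841041, 0x880482), (0x1041049, 0x1040482)],
  [(0x1041061, 0x880482), (0x1041441, 0x880444), (0x1049041, 0x480448), (0x1041841, 0x811201), (0x1051041, 0x412201), (0x1041043, 0x820a01)],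
  [(0x1041061, 0x880482), (0x1041441, 0x280504), (0x1041043, 0x814024), (0x1061041, 0x444022), (0x1441041, 0x824022), (0x1041045, 0x881022)],
  [(0x1041061, 0x824022), (0x1041441, 0x814024), (0x1049041, 0x414028), (0x1041841, 0x811201), (0x1051041, 0x412201), (0x1041043, 0x820a01)]]

theorem chk_certs : ∀ n < 16, n ∈ [0, 1, 2, 4, 8] ∨ ((certs.getD n []).length = 6 ∧
    chB n (certs.getD n []) = true ∧ lall (fun p => isG p.2 && inB n p.2) (certs.getD n []) = true) := by
  decide +kernel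

theorem HW.single [Module.Finite (ZMod 2) V] (h : HW ρ v n) (hn : n < 16)
    (hV : Module.finrank (ZMod 2) V < 12) : n ∈ [0, 1, 2, 4, 8] := by
  refine (chk_certs n hn).resolve_right fun ⟨h1, h2, h3⟩ => ?_
  simp only [lall_iff, Bool.and_eq_true] at h3
  have := h.chain _ h2 (IZ ρ) fun p hp => ⟨mem5 (h3 p hp).1, h.mem_IZ (mem5 (h3 p hp).1) (h3 p hp).2⟩
  have := rank_IZ (ρ := ρ)
  omega

end CL.T10.HR
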