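import Cfsg.Agent.SPOR.T10.ModB

/-!
Irreducible modules of degree 10 for `L5(2)`: exactly one node is active, the second or the third, and the module
is the exterior square of the natural module or its dual.
-/

set_option autoImplicit false
set_option maxRecDepth 100000
set_option synthInstance.maxSize 2048

namespace CL.T10.HR

open CL.K CL.CG CL.F2M Subgroup Cfsg
open scoped Matrix

attribute [local irreducible] gcode vcode

variable {V : Type*} [AddCommGroup V] [Module (ZMod 2) V] {ρ : GL5 →* Module.End (ZMod 2) V} {v : V} {n : ℕ}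

/-- one step of sorting the columns inside a block -/
noncomputable def sw (n k g : ℕ) : ℕ :=
  force g fun g => cond (!n.testBit k && blt (cl g (k + 1)) (cl g k)) (m5 g (sk k)) g

/-- sorting the columns inside the blocks -/
noncomputable def red (n g : ℕ) (L : List ℕ) : ℕ := List.rec g (fun k _ ih => sw n k ih) L

/-- the passes -/
def LR : List ℕ := [3, 2, 1, 0, 3, 2, 1, 0, 3, 2, 1, 0]

theorem HW.red (h : HW ρ v n) {g : ℕ} (hg : Gc g) (L : List ℕ) (hL : ∀ k ∈ L, k < 4) :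
    Gc (red n g L) ∧ op ρ (red n g L) v = op ρ g v := by
  induction L with
  | nil => exact ⟨hg, rfl⟩
  | cons k L ih =>
    have hk := hL k List.mem_cons_self
    obtain ⟨h1, h2⟩ := ih fun j hj => hL j (List.mem_cons_of_mem _ hj)
    rw [show HR.red n g (k :: L) = sw n k (HR.red n g L) from rfl, sw, force_eq]
    cases e : n.testBit k
    · cases blt (cl (HR.red n g L) (k + 1)) (cl (HR.red n g L) k)
      · exact ⟨h1, h2⟩
      · exact ⟨h1.mul (g_sk hk), (Fi.op_mul h1 (h.sk hk (h.bk hk e))).trans h2⟩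
    · exact ⟨h1, h2⟩

/-- `t g v = g v + g' v` -/
noncomputable def relB (n : ℕ) (H : List ℕ) (t g g' : ℕ) : Bool :=
  lany (fun c => anyLt (fun k => n.testBit k && Nat.beq (m5 t c) (m5 c (ak k)) &&
    Nat.beq (red n (m5 c (sk k)) LR) g && Nat.beq (red n c LR) g' && isG c) 4) H

theorem HW.relB (h : HW ρ v n) {H : List ℕ} {t g g' : ℕ} (ht : Gc t) (e : relB n H t g g' = true) :
    op ρ t (op ρ g v) = op ρ g v + op ρ g' v := by
  simp only [HR.relB, lany_iff, anyLt_iff, Bool.and_eq_true] at e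
  obtain ⟨c, -, k, hk, ⟨⟨⟨h1, h2⟩, h3⟩, h4⟩, h5⟩ := e
  have hc : Gc c := mem5 h5
  rw [← CG.eq_of_beq h3, ← CG.eq_of_beq h4, (h.red hc LR (by decide)).2,
    (h.red (hc.mul (g_sk hk)) LR (by decide)).2, h.rel ht hc hk h1 (CG.eq_of_beq h2), add_comm, add_assoc,
    add_self, add_zero]

/-- the generators -/
def G8 : List ℕ := [tv 1 2, tv 2 1, tv 2 3, tv 3 2, tv 3 4, tv 4 3, tv 4 5, tv 5 4]

theorem g_G8 : ∀ t ∈ G8, Gc t := fun t ht =>
  mem5 ((by decide +kernel : ∀ t ∈ G8, isG t = true) t ht)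

theorem ind5 {Q : GL5 → Prop} (h1 : Q 1) (hs : ∀ t ∈ G8, ∀ g, Q g → Q (E5 t * g)) (g : GL5) : Q g := by
  refine gen_induction (φ := gcode) (L := G8) h1 (fun j hj s e g hg => ?_) g
    (by rw [G8, gen_L5]; trivial)
  have := hs _ (lget_mem hj) g hg
  rwa [← e, E5, C5.elt_code] at this

variable (ρ) in
/-- irreducible -/
def Irr : Prop := ∀ p : Submodule (ZMod 2) V, (∀ g, ∀ u ∈ p, ρ g u ∈ p) → p = ⊥ ∨ p = ⊤

theorem Irr.surj (hI : Irr ρ) {m : ℕ} (x : Fin (m + 1) → V) (h0 : x 0 ≠ 0)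
    (hx : ∀ t ∈ G8, ∀ i, op ρ t (x i) = x i ∨ ∃ j, op ρ t (x i) = x i + x j) :
    Function.Surjective (Fintype.linearCombination (ZMod 2) x) := by
  have m : ∀ i, x i ∈ Submodule.span (ZMod 2) (Set.range x) := fun i => Submodule.subset_span ⟨i, rfl⟩
  rw [← LinearMap.range_eq_top, Fintype.range_linearCombination]
  refine (hI _ (ind5 (fun u hu => by rwa [map_one]) fun t ht g hg u hu => ?_)).resolve_left fun e => ?_
  · rw [map_mul, Module.End.mul_apply]
    refine (Submodule.map_span_le (op ρ t) _ _).2 ?_ (Submodule.mem_map_of_mem (hg u hu))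
    rintro _ ⟨i, rfl⟩
    rcases hx t ht i with e | ⟨j, e⟩ <;> rw [e]
    exacts [m i, add_mem (m i) (m j)]
  · exact h0 ((Submodule.mem_bot _).1 (e ▸ m 0))

theorem HW.le (h : HW ρ v n) (hI : Irr ρ) (m : ℕ) (L H : List ℕ) (hc : ∀ i < m + 1, isG (lget L i) = true ∧
    ∀ t ∈ G8, cjB (Fb n) t (lget L i) = true ∨ ∃ j < m + 1, HR.relB n H t (lget L i) (lget L j) = true) :
    Module.finrank (ZMod 2) V ≤ m + 1 := by
  have := hI.surj (fun i : Fin (m + 1) => op ρ (lget L i) v) (fun e => h.ne (op_inj (e.trans (map_zero _).symm)))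
    fun t ht i => ((hc i i.2).2 t ht).imp (h.fx (g_G8 t ht) (mem5 (hc i i.2).1))
      fun ⟨j, hj, e⟩ => ⟨⟨j, hj⟩, h.relB (g_G8 t ht) e⟩
  simpa using LinearMap.finrank_le_finrank_of_surjective this

/-- the action on `Λ² V` as a linear map -/
noncomputable def Wl (c : ℕ) : (Fin 10 → ZMod 2) →ₗ[ZMod 2] (Fin 10 → ZMod 2) :=
  AddMonoidHom.toZModLinearMap 2 (AddMonoidHom.mk' (fun w => vdec 10 (wa c (vcode w)))
    fun a b => by rw [vcode_add, wa_xor, vdec_xor])

theorem Wl_vdec (c : ℕ) {a : ℕ} (ha : a < 1024) : Wl c (vdec 10 a) = vdec 10 (wa c a) := by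
  change vdec 10 (wa c (vcode (vdec 10 a))) = _
  rw [vcode_vdec (n := 10) ha]

theorem HW.chart (h : HW ρ v n) (hI : Irr ρ) (hV : Module.finrank (ZMod 2) V = 10) (θ : GL5 ≃* GL5)
    (f : ℕ → ℕ) (hf : ∀ t ∈ G8, gcode (θ (E5 t)) = f t) (L H : List ℕ)
    (hc : ∀ i < 10, isG (lget L i) = true ∧ ∀ t ∈ G8,
      (wa (f t) (2 ^ i) = 2 ^ i ∧ cjB (Fb n) t (lget L i) = true) ∨
      ∃ j < 10, wa (f t) (2 ^ i) = 2 ^ i ^^^ 2 ^ j ∧ HR.relB n H t (lget L i) (lget L j) = true) :
    ∃ β : ℕ → V, (∀ a b, β (a ^^^ b) = β a + β b) ∧ (∀ a < 1024, β a = 0 → a = 0) ∧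
      (∀ u, ∃ a < 1024, β a = u) ∧ ∀ g, ∀ a < 1024, ρ g (β a) = β (wa (gcode (θ g)) a) := by
  have : Module.Finite (ZMod 2) V := Module.finite_of_finrank_pos (by omega)
  set x : Fin 10 → V := fun i => op ρ (lget L i) v with hx
  have hs := hI.surj x (fun e => h.ne (op_inj (e.trans (map_zero _).symm)))
    fun t ht i => ((hc i i.2).2 t ht).imp (fun e => h.fx (g_G8 t ht) (mem5 (hc i i.2).1) e.2)
      fun ⟨j, hj, e⟩ => ⟨⟨j, hj⟩, h.relB (g_G8 t ht) e.2⟩
  set B := Fintype.linearCombination (ZMod 2) x with hB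
  have hi : Function.Injective B :=
    (LinearMap.injective_iff_surjective_of_finrank_eq_finrank (by simp [hV])).2 hs
  have bx : ∀ i : Fin 10, B (vdec 10 (2 ^ (i : ℕ))) = x i := fun i => by
    rw [vdec_two_pow, hB, Fintype.linearCombination_apply_single, one_smul]
  have gen : ∀ t ∈ G8, (op ρ t).comp B = B.comp (Wl (f t)) := fun t ht => by
    refine LinearMap.pi_ext' fun i => LinearMap.ext_ring ?_
    change op ρ t (B (Pi.single i 1)) = B (Wl (f t) (Pi.single i 1))
    rw [← vdec_two_pow, Wl_vdec _ (Nat.pow_lt_pow_right (a := 2) (n := 10) (by norm_num) i.2), bx]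
    rcases (hc i i.2).2 t ht with ⟨e1, e2⟩ | ⟨j, hj, e1, e2⟩
    · rw [e1, bx]
      exact h.fx (g_G8 t ht) (mem5 (hc i i.2).1) e2
    · rw [e1, vdec_xor, map_add, bx, bx ⟨j, hj⟩]
      exact h.relB (g_G8 t ht) e2
  refine ⟨fun a => B (vdec 10 a), fun a b => by simp only [vdec_xor, map_add], fun a ha e => ?_, fun u => ?_,
    ind5 (fun a ha => ?_) fun t ht g hg a ha => ?_⟩
  · exact eq_of_vdec (n := 10) ha (by norm_num) (hi (by rw [vdec_zero, map_zero]; exact e))
  · obtain ⟨w, rfl⟩ := hs u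
    exact ⟨vcode w, vcode_lt w, congrArg B (vdec_vcode w)⟩
  · rw [map_one, map_one, C5.map_one, wa_one ha]
    rfl
  · rw [map_mul, map_mul, Module.End.mul_apply, hg a ha, wa_mul _ _ ha, hf t ht]
    exact (LinearMap.congr_fun (gen t ht) _).trans (congrArg B (Wl_vdec _ (wa_lt _ _)))

/-- inverse transpose -/
def itr (g : GL5) : GL5 :=
  ⟨(g⁻¹).1ᵀ, g.1ᵀ, by rw [← Matrix.transpose_mul, ← Units.val_mul, mul_inv_cancel, Units.val_one,
    Matrix.transpose_one], by rw [← Matrix.transpose_mul, ← Units.val_mul, inv_mul_cancel, Units.val_one,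
    Matrix.transpose_one]⟩

/-- the inverse transpose automorphism -/
def itrE : GL5 ≃* GL5 where
  toFun := itr
  invFun := itr
  left_inv _ := Units.ext rfl
  right_inv _ := Units.ext rfl
  map_mul' g k := Units.ext (by
    change ((g * k)⁻¹).1ᵀ = (g⁻¹).1ᵀ * (k⁻¹).1ᵀ
    rw [mul_inv_rev, Units.val_mul, Matrix.transpose_mul])

/-- the transpose of a code -/
noncomputable def trc (t : ℕ) : ℕ :=
  xorLt (fun i => xorLt (fun j => Nat.shiftLeft (bit t (5 * i + j)) (5 * j + i)) 5) 5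

theorem itr_code : ∀ t ∈ G8, gcode (itrE (E5 t)) = trc t := by
  intro t ht
  obtain ⟨h1, h2, h3⟩ := (by decide +kernel : ∀ t ∈ G8, m5 t t = i5 ∧ trc t < 2 ^ (5 * 5) ∧
    ∀ i < 5, ∀ j < 5, (trc t).testBit (5 * j + i) = t.testBit (5 * i + j)) t ht
  have e : (E5 t).1 = mdec 5 t := by
    have k : ∀ g : GL5, g.1 = mdec 5 (gcode g) := fun g => by
      unfold gcode
      rw [mdec_mcode]
    rw [k, (g_G8 t ht).code_elt]
  have : (itrE (E5 t)).1 = mdec 5 (trc t) := by
    change ((E5 t)⁻¹).1ᵀ = _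
    rw [← C5.elt_inv (g_G8 t ht) (g_G8 t ht) h1, e]
    ext i j
    simp only [mdec, Matrix.transpose_apply, Matrix.of_apply, h3 i i.2 j j.2]
  rw [← mcode_mdec h2, ← this]
  generalize itrE (E5 t) = g
  unfold gcode
  rfl

theorem Irr.exists_chart (hI : Irr ρ) (hV : Module.finrank (ZMod 2) V = 10) :
    ∃ (θ : GL5 ≃* GL5) (β : ℕ → V), (∀ a b, β (a ^^^ b) = β a + β b) ∧ (∀ a < 1024, β a = 0 → a = 0) ∧
      (∀ u, ∃ a < 1024, β a = u) ∧ ∀ g, ∀ a < 1024, ρ g (β a) = β (wa (gcode (θ g)) a) := by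
  have : Module.Finite (ZMod 2) V := Module.finite_of_finrank_pos (by omega)
  have : Nontrivial V := Module.nontrivial_of_finrank_pos (R := ZMod 2) (by omega)
  obtain ⟨v, n, hn, h⟩ := exists_HW (ρ := ρ)
  have := h.single hn (by omega)
  simp only [List.mem_cons, List.not_mem_nil, or_false] at this
  rcases this with rfl | rfl | rfl | rfl | rfl
  · have := h.le hI 0 [i5] [] (by decide +kernel)
    omega
  · have := h.le hI 4 [0x1041041, 0x1041022, 0x1040824, 0x1020828, 0x820830]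
      [0x1041041, 0x1041022, 0x1040482, 0x1040444, 0x1010504, 0x1010488, 0x410608, 0x410510]
      (by decide +kernel)
    omega
  · exact ⟨_, h.chart hI hV (.refl _) id (fun t ht => (g_G8 t ht).code_elt)
      [0x1041041, 0x1040881, 0x1020901, 0x820a01, 0x1040482, 0x1020502, 0x820602, 0x1010504, 0x810604, 0x410608]
      [0x1040824, 0x1020828, 0x820830, 0x1040444, 0x1020448, 0x820450, 0x1041041, 0x1009048, 0x809050,
        0x1040881, 0x1008888, 0x808890, 0x1012081, 0x100a082, 0x20a090, 0x1011101, 0x1009102, 0x209110,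
        0x414101, 0x40c102, 0x20c104, 0x412201, 0x40a202, 0x20a204] (by decide +kernel)⟩
  · exact ⟨_, h.chart hI hV itrE trc itr_code
      [0x20c104, 0x40c102, 0x80c082, 0x100a082, 0x414101, 0x814081, 0x1012081, 0x824041, 0x1022041, 0x1041041]
      [0x410608, 0x810604, 0x1010504, 0x408a08, 0x808a04, 0x1008904, 0x120a08, 0x820a01, 0x1020901,
        0x111208, 0x811201, 0x1011101, 0x141202, 0x241201, 0x1041041, 0x122202, 0x222201, 0x1022041,
        0x182082, 0x282081, 0x482041, 0x144082, 0x244081, 0x444041] (by decide +kernel)⟩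
  · have := h.le hI 4 [0x182082, 0x282081, 0x482041, 0x881041, 0x1041041]
      [0x20c104, 0x114104, 0x414101, 0x224101, 0x824041, 0x444041, 0x1041041, 0x881041]
      (by decide +kernel)
    omega

end CL.T10.HR
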