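import Cfsg.Agent.SPOR.T10.ModC
import Cfsg.Agent.ODD.AbelemRep

/-!
The normaliser of `A` is an extension of `Λ² V` by `L5(2)`.
-/

set_option autoImplicit false
set_option maxRecDepth 100000

namespace CL.T10

open CL.K CL.CG CL.F2M CL.F24 CL.LX CL.MSS Subgroup Cfsg
open CL.J4P (Kv)

attribute [local irreducible] gcode vcode

theorem HR.toGL_bij (n : ℕ) : Function.Bijective
    (Matrix.SpecialLinearGroup.toGL : Matrix.SpecialLinearGroup (Fin n) (ZMod 2) →* GL (Fin n) (ZMod 2)) :=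
  ⟨Matrix.SpecialLinearGroup.toGL_injective, fun g =>
    ⟨⟨g.1, (by decide : ∀ x : ZMod 2, x ≠ 0 → x = 1) _ g.det_ne_zero⟩, Units.ext rfl⟩⟩

theorem exists_EX {G : Type*} [Group G] [Finite G] (A : Subgroup G) (hA : IsElementaryAbelian 2 A)
    (hcard : Nat.card A = 2 ^ 10)
    (hL : Nonempty (↥(normalizer (A : Set G)) ⧸ A.subgroupOf (normalizer (A : Set G)) ≃*
      Matrix.SpecialLinearGroup (Fin 5) (ZMod 2)))
    (hirr : ∀ W : Subgroup G, W ≤ A → normalizer (A : Set G) ≤ normalizer (W : Set G) → W = ⊥ ∨ W = A) :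
    ∃ (α : ℕ → normalizer (A : Set G)) (π : normalizer (A : Set G) →* GL5), EX α π ∧
      ∀ n, π n = 1 ↔ (n : G) ∈ A := by
  obtain ⟨e0⟩ := hL
  obtain ⟨e⟩ : Nonempty (_ ≃* GL5) := ⟨e0.trans (MulEquiv.ofBijective _ (HR.toGL_bij 5))⟩
  let R := Abelem.rep hA (A := normalizer (A : Set G)) le_rfl
  have hk : A.subgroupOf (normalizer (A : Set G)) ≤ MonoidHom.ker R := fun a ha =>
    (Abelem.mem_ker_rep a).2 (mem_centralizer_iff.2 fun b hb => Abelem.comm_of_mem hA hb ha)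
  let ρ : GL5 →* Module.End (ZMod 2) (Abelem.V hA) := (QuotientGroup.lift _ R hk).comp e.symm.toMonoidHom
  have hρ : ∀ n : normalizer (A : Set G), ρ (e n) = R n := fun n => by
    change QuotientGroup.lift _ R hk (e.symm (e n)) = _
    rw [e.symm_apply_apply, QuotientGroup.lift_mk]
  have hI : HR.Irr ρ := fun p hp => by
    have : ∀ n ∈ normalizer (A : Set G), ∀ x ∈ Abelem.toSubgroup p, n * x * n⁻¹ ∈ Abelem.toSubgroup p := by
      rintro n hn _ ⟨u, hu, rfl⟩
      exact ⟨_, hp (e (⟨n, hn⟩ : normalizer (A : Set G))) u hu, by rw [hρ]; rfl⟩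
    refine (hirr _ (Abelem.toSubgroup_le p) fun n hn => mem_normalizer_iff.2 fun x => ⟨this n hn x, fun h => ?_⟩).imp
      Abelem.toSubgroup_eq_bot_iff.1 Abelem.toSubgroup_eq_self_iff.1
    simpa [mul_assoc] using this _ (inv_mem hn) _ h
  obtain ⟨θ, β, h1, h2, h3, h4⟩ := hI.exists_chart (Abelem.finrank_eq_of_card hcard)
  have hπ : ∀ n : normalizer (A : Set G), θ (e n) = 1 ↔ (n : G) ∈ A := fun n => by
    rw [map_eq_one_iff _ θ.injective, map_eq_one_iff _ e.injective, QuotientGroup.eq_one_iff, mem_subgroupOf]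
  refine ⟨fun a => ⟨(β a).val, le_normalizer (β a).mem⟩,
    (e.trans θ).toMonoidHom.comp (QuotientGroup.mk' _), ⟨fun a _ b _ => Subtype.ext ?_, fun a ha h => ?_,
      (e.trans θ).surjective.comp (QuotientGroup.mk'_surjective _), fun n => (hπ n).trans ⟨fun h => ?_, ?_⟩,
      fun n a ha => Subtype.ext ?_⟩, hπ⟩
  · exact congrArg Abelem.V.val (h1 a b)
  · exact h2 a ha (Abelem.V.val_eq_one_iff.1 (congrArg Subtype.val h))
  · obtain ⟨a, ha, f⟩ := h3 ⟨n, h⟩
    exact ⟨a, ha, Subtype.ext (congrArg Abelem.V.val f)⟩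
  · rintro ⟨a, -, rfl⟩
    exact (β a).mem
  · have := congrArg Abelem.V.val (h4 (e n) a ha)
    rw [hρ] at this
    exact this

end CL.T10
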