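import Cfsg.Agent.SPOR.T10.ApiM

/-!
Reduction to a simple group.
-/

set_option autoImplicit false
set_option maxRecDepth 100000

namespace CL.T10

open CL.K CL.CG CL.F2M CL.F24 CL.LX CL.MSS Subgroup Cfsg
open CL.J4P (Kv)

attribute [local irreducible] gcode vcode

variable {G : Type*} [Group G] {A : Subgroup G} {φ : NT →* G} {ρ : H1 φ →* GL12}

theorem BF.odd_bot [Finite G] (h : BF A φ ρ) {K : Subgroup G}
    (hn : normalizer (A : Set G) ≤ normalizer (K : Set G)) (ho : Odd (Nat.card K)) : K = ⊥ := by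
  have n := h.toNF
  have hQ : Qg φ ≤ normalizer (A : Set G) := n.Q_le_T.trans n.syl_T.le
  have i1 := inverts_of_fpf n.s_sq (fun k hk => conj_mem_of_normalizes hn (hQ s_mem) hk)
    (h.lx.fpf ho (hQ.trans hn))
  have i2 : ∀ g ∈ normalizer (A : Set G), ∀ k ∈ K,
      g * sg φ * g⁻¹ * k * (g * sg φ * g⁻¹)⁻¹ = k⁻¹ := fun g hg k hk => by
    have := i1 _ (conj_mem_of_normalizes' hn hg hk)
    calc _ = g * (sg φ * (g⁻¹ * k * g) * (sg φ)⁻¹) * g⁻¹ := by group
      _ = _ := by rw [this]; group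
  have hz : zg φ ∈ Qg φ := by rw [← qq_one]; exact qq_mem (by norm_num)
  obtain ⟨y, hy, e⟩ := h.lx.toES.exists_conj_eq_mul hz n.z_ne.1 n.z_ne.2
  refine eq_bot_iff.2 fun k hk => mem_bot.2 (eq_one_of_odd_of_two ho hk (k := 1) ?_)
  have a := i2 (ll φ w23) n.el_mem k⁻¹ (inv_mem hk)
  have b := i2 (y * ll φ w23) (mul_mem (hQ hy) n.el_mem) k hk
  rw [w_s.1] at a
  rw [show y * ll φ w23 * sg φ * (y * ll φ w23)⁻¹ = zg φ * sg φ by rw [← e, ← w_s.1]; group] at b
  have : k = k⁻¹ :=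
    calc k = zg φ * k⁻¹ * (zg φ)⁻¹ := by rw [a, inv_inv]
      _ = zg φ * (sg φ * k * (sg φ)⁻¹) * (zg φ)⁻¹ := by rw [i1 k hk]
      _ = k⁻¹ := by rw [← b]; group
  rw [pow_one, sq]
  exact mul_eq_one_iff_eq_inv.2 this

theorem NF.not_N_le (h : NF A φ) [Finite G] {B : Subgroup G} (hB : Nat.card B = Nat.card A) :
    ¬ normalizer (A : Set G) ≤ B := fun l => by
  have := card_le_of_le l
  rw [hB, h.card_A, h.card_N] at this
  norm_num at this

/-- PROOF. If `K` has odd order it is generated by the centralisers of `s`, `z`, `s z` (all conjugate in `N`);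
`C_K(s)` is normalised by `Q`, `[C_K(s), Q] ≤ K ⊓ Q = 1`, so `C_K(s) ≤ ⟨s⟩` is trivial. Otherwise `K` meets a Sylow
2-subgroup `S ⊇ T` of `Y`, so `Z(S) ≤ C(Q) = ⟨s⟩`; `A ≤ K` by `irr`; `N ⊓ K` is `A` or `N` (`simple_GL5`). In the
first case `A` is a Sylow 2-subgroup of `K`, central in its normaliser; the normal 2-complement (Burnside)
is normal in `Y` of odd order. -/
theorem BF.normal [Finite G] (h : BF A φ ρ) {K Y : Subgroup G} (hN : normalizer (A : Set G) ≤ Y)
    (hK : K ≤ Y) (hn : Y ≤ normalizer (K : Set G)) (h1 : K ≠ ⊥) : K = A ∨ normalizer (A : Set G) ≤ K := by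
  have n := h.toNF
  have : Fact (Nat.Prime 2) := ⟨Nat.prime_two⟩
  have hNK := hN.trans hn
  have hA2 : IsPGroup 2 A := n.syl_T.2.to_le n.A_le_T
  have ev : 2 ∣ Nat.card K := by
    by_contra e
    exact h1 (h.odd_bot hNK (Nat.odd_iff.2 (by omega)))
  obtain ⟨S, hS, hTS⟩ := exists_sylIn_ge n.syl_T.2 (n.syl_T.le.trans hN)
  have hs : sg φ ∈ S ⊓ K := h.lx.mem_of_two_subgroup (hS.2.to_le inf_le_left)
    (le_normalizer_inf ((n.Q_le_T.trans hTS).trans le_normalizer) ((n.Q_le_T.trans n.syl_T.le).trans hNK))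
    ((hS.inf_normal_of_le hn hK).ne_bot ev)
  have hAK : A ≤ K := by
    rcases n.irr (B := A ⊓ K) inf_le_left (le_normalizer_inf le_rfl hNK) with e | e
    · exact (n.s_ne (mem_bot.1 (e.le (mem_inf.2 ⟨n.mem_A.2 ⟨1, by norm_num, al_one⟩, hs.2⟩)))).elim
    · exact inf_eq_left.1 e
  have nm : (K.comap φ).Normal := ⟨fun x hx g => by
    rw [mem_comap, map_mul, map_mul, map_inv]
    exact conj_mem_of_normalizes hNK (n.mem_N.2 ⟨g, rfl⟩) hx⟩
  have := simple_GL5
  rcases (nm.map prj fun g => ⟨inl5 g, rfl⟩).eq_bot_or_eq_top with e | e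
  · left
    have l : K ⊓ normalizer (A : Set G) ≤ A := fun x hx => by
      obtain ⟨m, rfl⟩ := n.mem_N.1 hx.2
      exact (n.mem m).2 (mem_bot.1 (e.le (mem_map_of_mem prj (show m ∈ K.comap φ from hx.1))))
    have sA := (sylIn_self hA2).of_normalizer_le hAK l
    have hP : normalizer (sA.toSylow : Set K) ≤ centralizer (sA.toSylow : Set K) := fun x hx y hy => by
      have hx' : x ∈ (normalizer (A : Set G)).subgroupOf K := by
        rw [subgroupOf_normalizer_eq hAK]; exact hx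
      exact Subtype.ext (n.cent_A.ge (l (mem_inf.2 ⟨x.2, hx'⟩)) y hy)
    let f := MonoidHom.transferSylow sA.toSylow hP
    have od : Odd (Nat.card f.ker) := by
      have := MonoidHom.not_dvd_card_ker_transferSylow sA.toSylow hP
      exact Nat.odd_iff.2 (by change ¬ 2 ∣ Nat.card f.ker at this; omega)
    have b : f.ker.map K.subtype = ⊥ := by
      refine h.odd_bot (le_normalizer_of_cj_le fun g hg => cj_le_iff_forall.2 ?_)
        (by rwa [card_subtype])
      rintro _ ⟨x, hx, rfl⟩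
      have hy := conj_mem_of_normalizes hNK hg x.2
      refine ⟨⟨_, hy⟩, ?_, rfl⟩
      have e1 : x ^ Nat.card f.ker = 1 := congrArg Subtype.val (pow_card_eq_one' (x := (⟨x, hx⟩ : f.ker)))
      have e2 : f ⟨_, hy⟩ ^ Nat.card f.ker = 1 := by
        rw [← map_pow, show (⟨_, hy⟩ : K) ^ Nat.card f.ker = 1 from Subtype.ext (by
          rw [SubmonoidClass.coe_pow, conj_pow, ← SubmonoidClass.coe_pow, e1]; simp), map_one]
      obtain ⟨k, hk⟩ := sA.toSylow.isPGroup' (f ⟨_, hy⟩)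
      exact (pow_eq_one_iff_of_coprime (od.coprime_two_right.pow_right k)).1 ⟨e2, hk⟩
    have c := MonoidHom.ker_transferSylow_isComplement' sA.toSylow hP
    rw [show (MonoidHom.transferSylow sA.toSylow hP).ker = ⊥ from
      (map_eq_bot_iff_of_injective _ K.subtype_injective).1 b, isComplement'_bot_left] at c
    exact le_antisymm (fun x hx => (c.ge (mem_top ⟨x, hx⟩) :)) hAK
  · right
    intro x hx
    obtain ⟨m, rfl⟩ := n.mem_N.1 hx
    obtain ⟨k, hk, e1⟩ := e.ge (mem_top m.g)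
    have : φ (k⁻¹ * m) ∈ K := hAK ((n.mem _).2 (by
      rw [NT.mul_g, NT.inv_g, show k.g = m.g from e1, inv_mul_cancel]))
    simpa using mul_mem (show φ k ∈ K from hk) this

/-- PROOF. `K` the normal closure of `N`. If `1 ≠ K1 ⊴ K` then `K1 = A` (so `K = N`, `A` is characteristic: apply
`normal` to conjugates) or `N` lies in all conjugates of `K1`. -/
theorem BF.red [Finite G] (h : BF A φ ρ) : A.Normal ∨ ∃ K : Subgroup G, K.Normal ∧ IsSimpleGroup K ∧
    normalizer (A : Set G) ≤ K ∧ centralizer (K : Set G) = ⊥ := by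
  have n := h.toNF
  by_cases hA : A.Normal
  · exact .inl hA
  right
  let K := normalClosure (normalizer (A : Set G) : Set G)
  have hN : normalizer (A : Set G) ≤ K := le_normalClosure
  have hKn : ∀ g : G, g •ᶜ K = K := fun g => cj_eq_of_normal g K
  have cj : ∀ B ≤ K, K ≤ normalizer (B : Set G) → B ≠ ⊥ → ∀ g : G,
      g •ᶜ B = A ∨ normalizer (A : Set G) ≤ g •ᶜ B := fun B hB hn h1 g =>
    h.normal hN ((cj_mono g hB).trans (hKn g).le)
      (by rw [← cj_normalizer]; exact (hKn g).ge.trans (cj_mono g hn)) (mt cj_eq_bot_iff.1 h1)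
  have hs : sg φ ∈ A := n.mem_A.2 ⟨1, by norm_num, al_one⟩
  have h0 : A ≠ ⊥ := fun e => n.s_ne (mem_bot.1 (e.le hs))
  refine ⟨K, inferInstance, Subgroup.isSimpleGroup_iff.2 ⟨fun e => h0 (eq_bot_iff.2
    ((le_normalizer.trans hN).trans e.le)), fun B hB nB => ?_⟩, hN, ?_⟩
  · by_contra! c
    have hn : K ≤ normalizer (B : Set G) := (normal_subgroupOf_iff_le_normalizer hB).1 nB
    by_cases e : ∃ g : G, g •ᶜ B = A
    · obtain ⟨g, e⟩ := e
      have l : K ≤ normalizer (A : Set G) := by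
        rw [← e, ← cj_normalizer]; exact (hKn g).ge.trans (cj_mono g hn)
      exact hA (normal_of_cj fun x => (cj A (le_normalizer.trans hN) l h0 x).resolve_right
        (n.not_N_le (card_cj x A)))
    · refine c.2 (le_antisymm hB ((normalClosure_le_normal (N := B.normalCore) fun x hx g => ?_).trans
        B.normalCore_le))
      simpa using mem_cj.1 (((cj B hB hn c.1 g⁻¹).resolve_left fun e' => e ⟨_, e'⟩) hx)
  · by_contra c
    have l : centralizer (K : Set G) ≤ A :=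
      (centralizer_le (le_normalizer.trans hN : A ≤ K)).trans n.cent_A.le
    rcases h.normal (K := centralizer (K : Set G)) le_top le_top (normalizer_eq_top _).ge c with e | e
    · exact hA (e ▸ inferInstance)
    · exact n.not_N_le rfl (e.trans l)

theorem BF.sub' [Finite G] (h : BF A φ ρ) {K : Subgroup G} (hN : normalizer (A : Set G) ≤ K) :
    ∃ (φ' : NT →* K) (ρ' : H1 φ' →* GL12), BF (A.subgroupOf K) φ' ρ' ∧
      ρ'.range = (K.subgroupOf (H1 φ)).map ρ ∧ K.subtype.comp φ' = φ := by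
  have n := h.toNF
  let φ' : NT →* K := φ.codRestrict K fun m => hN (n.mem_N.2 ⟨m, rfl⟩)
  have hQ : ∀ x : K, x ∈ Qg φ' ↔ (x : G) ∈ Qg φ := fun x =>
    ⟨by rintro ⟨m, hm, rfl⟩; exact ⟨m, hm, rfl⟩, fun ⟨m, hm, e⟩ => ⟨m, hm, Subtype.ext e⟩⟩
  have hQK : Qg φ ≤ K := (n.Q_le_T.trans n.syl_T.le).trans hN
  let ι : H1 φ' →* H1 φ := (K.subtype.comp (H1 φ').subtype).codRestrict (H1 φ) fun x =>
    h.mem_H.2 (congrArg Subtype.val (mem_centralizer_singleton_iff.1 x.2.1))
  have n' : NF (A.subgroupOf K) φ' := ⟨fun a b e => n.inj (congrArg Subtype.val e), by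
    rw [← subgroupOf_normalizer_eq (le_normalizer.trans hN)]
    ext x
    exact ⟨by rintro ⟨m, rfl⟩; exact n.mem_N.2 ⟨m, rfl⟩,
      fun hx => (n.mem_N.1 hx).imp fun m e => Subtype.ext e⟩, n.mem⟩
  have b : BF (A.subgroupOf K) φ' (ρ.comp ι) := ⟨⟨n', fun g v hv =>
    (h.conj (ι g) v hv).imp Subtype.ext Subtype.ext⟩, n'.es, fun x hx =>
      (h.lx.self_cent x fun y hy => congrArg Subtype.val (hx ⟨y, hQK hy⟩ ((hQ _).2 hy))).imp
        Subtype.ext Subtype.ext,
    fun c hc y hy => (hQ _).2 (h.lx.norm c (congrArg Subtype.val hc) y ((hQ _).1 hy))⟩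
  refine ⟨φ', ρ.comp ι, b, ?_, rfl⟩
  ext y
  exact ⟨by rintro ⟨x, rfl⟩; exact ⟨ι x, x.1.2, rfl⟩,
    by rintro ⟨x, hx, rfl⟩; exact ⟨⟨⟨x, hx⟩, b.mem_H.2 (Subtype.ext (h.mem_H.1 x.2))⟩, rfl⟩⟩

/-- the frame in a subgroup containing `N` -/
theorem BF.sub [Finite G] (h : BF A φ ρ) {K : Subgroup G} (hN : normalizer (A : Set G) ≤ K) :
    ∃ (φ' : NT →* K) (ρ' : H1 φ' →* GL12), BF (A.subgroupOf K) φ' ρ' ∧
      ρ'.range = (K.subgroupOf (H1 φ)).map ρ := by
  obtain ⟨φ', ρ', b, e, -⟩ := h.sub' hN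
  exact ⟨φ', ρ', b, e⟩

/-- PROOF. Frattini argument: `T` is Sylow in `K` and `Z(T) = ⟨s⟩`, so `G = K C(s)`; `Q ≤ K`. -/
theorem BF.index [Finite G] (h : BF A φ ρ) {K : Subgroup G} [K.Normal] (hN : normalizer (A : Set G) ≤ K)
    (hK : (K.subgroupOf (H1 φ)).map ρ = YA) : K.index * Nat.card YA = Nat.card ρ.range := by
  have n := h.toNF
  have : Fact (Nat.Prime 2) := ⟨Nat.prime_two⟩
  obtain ⟨φ', ρ', b, e, e'⟩ := h.sub' hN
  have sT : SylIn 2 (Tg φ) K := by
    have := (b.syl_G (.inr (e.trans hK))).map_subtype_top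
    rwa [Tg, map_map, e'] at this
  have top : K ⊔ H1 φ = ⊤ := eq_top_iff.2 fun g _ => by
    obtain ⟨k, hk, y, hy, rfl⟩ := sT.frattini (x := g) ((normalizer_eq_top K).ge (mem_top g))
    refine mul_mem (mem_sup_left hk) (mem_sup_right (h.mem_H.2 ?_))
    rcases h.lx.self_cent (y * sg φ * y⁻¹) (fun q hq => by
      have := n.T_comm (conj_mem_of_normalizes' le_rfl hy (n.Q_le_T hq))
      calc _ = y * (sg φ * (y⁻¹ * q * y)) * y⁻¹ := by group
        _ = _ := by rw [← this]; group) with e1 | e1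
    · exact (n.s_ne (by simpa using e1)).elim
    · exact mul_inv_eq_iff_eq_mul.1 e1
  have c : K.subgroupOf (H1 φ) = YA.comap ρ := by
    rw [← hK, comap_map_eq_self]
    intro x hx
    exact hN (n.syl_T.le (n.Q_le_T (h.ker.1 ⟨x.2, (congrArg gcode (show ρ x = 1 from hx)).trans C12.map_one⟩)))
  have l : YA ≤ ρ.range := hK ▸ map_le_range _ _
  rw [← relIndex_top_right, ← top, relIndex_sup_left, relIndex, c, index_comap,
    ← Nat.card_congr (subgroupOfEquivOfLe l).toEquiv]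
  exact index_mul_card _

end CL.T10
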