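import Cfsg.Agent.SPOR.T10.Defs
import Cfsg.Agent.S2607
import Cfsg.Agent.S0293

/-!
Extensions of `Ω10+(2)` of degree 2.
-/

set_option autoImplicit false
set_option maxRecDepth 100000

namespace CL.T10

open CL.K CL.CG CL.F2M CL.F24 CL.LX CL.MSS Subgroup Cfsg
open CL.J4P (Kv)

attribute [local irreducible] gcode vcode

variable {G : Type*} [Group G] {A : Subgroup G} {φ : NT →* G} {ρ : H1 φ →* GL12}

theorem RedC.aut [Finite G] (K : Subgroup G) [K.Normal] (hc : centralizer (K : Set G) = ⊥) (hi : K.index = 2)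
    (h : Nat.card (MulAut K) = 2 * Nat.card K) : Nonempty (G ≃* MulAut K) := by
  have : Finite (MulAut K) := Nat.finite_of_card_ne_zero (by rw [h]; exact (Nat.mul_pos two_pos Nat.card_pos).ne')
  refine ⟨MulEquiv.ofBijective (MulAut.conjNormal (H := K)) ((Nat.bijective_iff_injective_and_card _).2
    ⟨(injective_iff_map_eq_one _).2 fun g e => mem_bot.1 (hc.le fun k hk => ?_), by
      rw [h, ← hi, K.index_mul_card]⟩)⟩
  have := congrArg (fun f : MulAut K => (f ⟨k, hk⟩ : G)) e
  simp only [MulAut.conjNormal_apply, MulAut.one_apply] at this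
  exact (mul_inv_eq_iff_eq_mul.1 this).symm

open CL.Orth CL.OrthE CL.OutOrth in
/-- PROOF. `G` embeds into `Aut(K)`, which has order `2 |K|` (`S2607.result`, trivial centre), and so does the
full isometry group, in which `Ω` is normal of index 2 with trivial centraliser. -/
theorem omega_ext [Finite G] (K : Subgroup G) [K.Normal] (hc : centralizer (K : Set G) = ⊥) (hi : K.index = 2)
    (e : Nonempty (K ≃* ↥(Omega (ZMod 2) (quadFormPlus 5 (ZMod 2))))) :
    Nonempty (G ≃* ↥(isometryGroup (ZMod 2) (quadFormPlus 5 (ZMod 2)))) := by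
  obtain ⟨e⟩ := e
  have hQ := QPlus_nondeg 5 (ZMod 2)
  have h5 : 5 ≤ Module.finrank (ZMod 2) (Fin 5 ⊕ Fin 5 → ZMod 2) := by simp
  let O5 := O (QPlus 5 (ZMod 2))
  let t : isometryGroup (ZMod 2) (quadFormPlus 5 (ZMod 2)) ≃* O5 := toO (QPlus 5 (ZMod 2))
  have : Finite O5 := Finite.of_equiv _ t.toEquiv
  have c1 : centralizer (commutator O5 : Set O5) = ⊥ := eq_bot_iff.2 fun g hg => by
    obtain ⟨z, hz, -⟩ := exists_nonsingular_perp hQ h5 0 0
    rcases (isScalar_of_commute_E hQ h5 g fun k hk => (hg k ((commutator_O_eq_E hQ h5).ge hk)).symm).eq_or ⟨z, hz⟩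
      with h | h
    · exact h
    · exact Subtype.ext (LinearEquiv.ext fun x => (h x).trans (funext fun i => ZMod.neg_eq_self_mod_two _))
  have i1 : (commutator O5).index = 2 := OrthE.index_commutator_of_two_eq_zero rfl hQ (.inr (by simp)) (by simp)
  have z1 : center (commutator O5) = ⊥ := card_eq_one.1 (card_center_commutator_eq_one hQ h5 (.inl rfl))
  let p : POmega (ZMod 2) (quadFormPlus 5 (ZMod 2)) ≃* commutator O5 := (pOmegaEquiv (QPlus 5 (ZMod 2))).trans
    ((QuotientGroup.quotientMulEquivOfEq z1).trans QuotientGroup.quotientBot)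
  obtain ⟨o⟩ : Nonempty (Out (POmega (ZMod 2) (quadFormPlus 5 (ZMod 2))) ≃* Multiplicative (ZMod 2 × ZMod 1)) := by
    simpa using Cfsg.Agent.S2607.result (F := ZMod 2) (f := 1) (m := 5) le_rfl (by simp) (by norm_num)
  have a1 : Nat.card (MulAut (commutator O5)) = 2 * Nat.card (commutator O5) := by
    rw [← Nat.card_congr (MulAut.congr p).toEquiv, ← Nat.card_congr p.toEquiv]
    refine ((ok_plus (F := ZMod 2) (m := 5) (by norm_num)).card_mulAut).trans (congrArg (· * _) ?_)
    exact (Nat.card_congr o.toEquiv).trans (by simp)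
  let f : K ≃* commutator O5 := e.trans (commutatorCongr t)
  obtain ⟨u⟩ := RedC.aut K hc hi (by rw [Nat.card_congr (MulAut.congr f).toEquiv, Nat.card_congr f.toEquiv, a1])
  obtain ⟨v⟩ := RedC.aut _ c1 i1 a1
  exact ⟨u.trans ((MulAut.congr f).trans (v.symm.trans t.symm))⟩

end CL.T10
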