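import Cfsg.Agent.SPOR.T10.ApiM
import Cfsg.Agent.SPOR.T10.Alf
import Cfsg.Agent.SPOR.T10.CntF
import Cfsg.Agent.SPOR.LE.TIa

/-!
The case `S3 × S8`: preparations.
-/

set_option autoImplicit false
set_option maxRecDepth 100000

namespace CL.T10

open CL.K CL.CG CL.F2M CL.F24 CL.LX CL.MSS Subgroup Cfsg
open CL.J4P (Kv)

attribute [local irreducible] gcode vcode

variable {G : Type*} [Group G] {A : Subgroup G} {φ : NT →* G} {ρ : H1 φ →* GL12}

namespace S8a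

/-- `x ∈ Q` has the coordinate `v` -/
def Rq (φ : NT →* G) (x : G) (v : ℕ) : Prop := x = qq φ v ∨ x = qq φ v * sg φ

theorem of_pow (h : NF A φ) {x : G} {v i : ℕ} (e : x = qq φ v * sg φ ^ i) : Rq φ x v := by
  rcases Nat.even_or_odd' i with ⟨k, rfl | rfl⟩
  · exact .inl (by rw [e, pow_mul, sq, h.s_sq, one_pow, mul_one])
  · exact .inr (by rw [e, pow_succ, pow_mul, sq, h.s_sq, one_pow, one_mul])

theorem Rq.pow {x : G} {v : ℕ} (e : Rq φ x v) : ∃ i : ℕ, x = qq φ v * sg φ ^ i :=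
  e.elim (fun e => ⟨0, by simpa using e⟩) fun e => ⟨1, by simpa using e⟩

theorem Rq.mul (h : NF A φ) {x y : G} {u v : ℕ} (hu : u < 4096) (hv : v < 4096) (a : Rq φ x u)
    (b : Rq φ y v) : Rq φ (x * y) (u ^^^ v) := by
  obtain ⟨i, rfl⟩ := a.pow
  obtain ⟨j, rfl⟩ := b.pow
  refine of_pow h (i := bt u v + i + j) ?_
  rw [pow_add, pow_add, ← mul_assoc, ← mul_assoc, ← mul_assoc, ← qq_mul hu hv, mul_assoc (qq φ u),
    ← ((show Commute _ _ from qq_s hv).pow_right i).eq, ← mul_assoc]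

theorem Rq.eq_or (h : NF A φ) {x y : G} {v : ℕ} (a : Rq φ x v) (b : Rq φ y v) : x = y ∨ x = y * sg φ := by
  rcases a with rfl | rfl <;> rcases b with rfl | rfl <;> simp [mul_assoc, h.s_sq]

theorem Rq.uniq (h : NF A φ) {x : G} {u v : ℕ} (hu : u < 4096) (hv : v < 4096) (a : Rq φ x u)
    (b : Rq φ x v) : u = v := by
  refine h.qq_inj hu hv ?_
  rcases a with rfl | rfl
  · exact b
  · exact (Rq.eq_or h (x := qq φ u) (y := qq φ u * sg φ) (.inl rfl) (.inr rfl)).elim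
      (fun e => e ▸ b) fun e => b.elim (fun b => .inr (by rw [← b, ← e])) fun b => .inl (mul_right_cancel b)

theorem Rq.mem {x : G} {v : ℕ} (hv : v < 4096) (a : Rq φ x v) : x ∈ Qg φ := mem_Q.2 ⟨v, hv, a⟩

theorem Rq.inv (h : NF A φ) {x : G} {v : ℕ} (hv : v < 4096) (a : Rq φ x v) : Rq φ x⁻¹ v := by
  obtain ⟨w, hw, b⟩ := mem_Q.1 (inv_mem (a.mem hv))
  have := Rq.uniq h (Nat.xor_lt_two_pow (n := 12) hw hv) (by norm_num) (Rq.mul h hw hv b a)
    (v := 0) (.inl (by rw [inv_mul_cancel, qq_zero]))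
  rwa [← Nat.xor_eq_zero_iff.1 this]

theorem ac_lt {g : G} {X : ℕ} (k : Kv ρ g X) (v : ℕ) : ac X v < 4096 := k.2 ▸ sv_lt _ v

theorem Rq.conj (h : CF A φ ρ) {g x : G} {X v : ℕ} (k : Kv ρ g X) (hv : v < 4096) (a : Rq φ x v) :
    Rq φ (g * x * g⁻¹) (ac X v) := by
  obtain ⟨i, rfl⟩ := a.pow
  obtain ⟨j, e⟩ := Rq.pow (h.kv_conj k hv)
  refine of_pow h.toNF (i := j + i) ?_
  have := ((show Commute g (sg φ) from mem_centralizer_singleton_iff.1 k.1.1).inv_left.pow_right i).eq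
  rw [pow_add, ← mul_assoc _ (sg φ ^ j), ← e, mul_assoc _ g⁻¹, this]
  group

theorem tab : allLt2 (fun v => Nat.beq (Nat.xor (ac xD v) (ac xD (ac xD v))) v &&
    (Nat.beq (ac xS v) (Nat.xor v (Nat.shiftRight v 6)) &&
    (Nat.beq (n4 v) (n4 (64 * Nat.shiftRight v 6)) &&
    anyLt (fun i => Nat.beq (Nat.xor v (ac xT v)) (lget [0, 0x24, 0x900, 0x924] i)) 4))) 64 64 = true := by
  decide +kernel

theorem tab' {v : ℕ} (hv : v < 4096) : ac xD v ^^^ ac xD (ac xD v) = v ∧ ac xS v = v ^^^ v >>> 6 ∧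
    n4 v = n4 (64 * (v >>> 6)) ∧ ∃ i < 4, v ^^^ ac xT v = lget [0, 0x24, 0x900, 0x924] i := by
  have := allLt2_iff.1 tab v hv
  simp only [Bool.and_eq_true, anyLt_iff] at this
  obtain ⟨a, b, c, i, hi, d⟩ := this
  exact ⟨eq_of_beq a, eq_of_beq b, eq_of_beq c, i, hi, eq_of_beq d⟩

theorem tabw : ∀ a < 64, ∀ i < 2, isN (qc a + i) = true ∧ ∀ b < 64, ∀ j < 2,
    nm (nm (nc 0 w23) (qc a + i)) (nc 0 w23) = qc b + j → n4 (64 * a) = n4 (64 * b) := by
  have : allLt (fun a => allLt (fun i => isN (qc a + i) &&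
      force (nm (nm (nc 0 w23) (qc a + i)) (nc 0 w23)) fun y => allLt (fun b => allLt (fun j =>
        !Nat.beq y (qc b + j) || Nat.beq (n4 (64 * a)) (n4 (64 * b))) 2) 64) 2) 64 = true := by
    decide +kernel
  intro a ha i hi
  have := allLt_iff.1 (allLt_iff.1 this a ha) i hi
  rw [Bool.and_eq_true, force_eq] at this
  refine ⟨this.1, fun b hb j hj e => ?_⟩
  have := allLt_iff.1 (allLt_iff.1 this.2 b hb) j hj
  rw [e, Nat.beq_refl] at this
  exact eq_of_beq this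

theorem Rq.el {x : G} {v : ℕ} (hv : v < 4096) (a : Rq φ x v) : ∃ i < 2, x = el φ (qc v + i) :=
  a.elim (fun e => ⟨0, two_pos, e⟩) fun e => ⟨1, one_lt_two, e.trans (el_qc_succ hv).symm⟩

theorem shift {x : GL12} (hx : x ∈ YS) (h1 : sv x 1 = 1) {v : ℕ} (hv : v < 4096) :
    sv x (v >>> 6) = sv x v >>> 6 := by
  have t := top_gY xS (by simp [gY])
  have c := C12.comm_of_commB (L := gZ ++ [a45, x45, x54, xY, xT]) (fun c hc => ApiG.top_all c (by
    revert c; decide +kernel)) t (by decide +kernel) x (stabS hx h1)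
  have s : ∀ v < 4096, sv (E12 xS) v = v ^^^ v >>> 6 := fun v hv => by
    rw [sv, t.code_elt, (tab' hv).2.1]
  have l : v >>> 6 < 4096 := (Nat.shiftRight_le _ _).trans_lt hv
  have := congrArg (sv · v) c
  simp only [sv_mul _ _ hv] at this
  rw [s v hv, s _ (sv_lt _ _), sv_xor _ hv l] at this
  exact Nat.xor_right_inj.1 this

end S8a

open S8a

/-- PROOF. Choose `c` over `xT` centralising `d = ll d12` (`⟨d⟩` is Sylow in `Q ⟨d⟩`); `c² ∈ C_Q(d) = ⟨s⟩`. If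
`c² = s`: for `v` fixed by `xT`, `c (qq v) c⁻¹ = qq v * s ^ ε(v)` with `ε` additive and
`(c * qq v)² = s ^ (1 + ε(v) + Qf v)`; `Qf` is not additive on the fixed space. -/
theorem BF.exists_u [Finite G] (h : BF A φ ρ) (hX : ρ.range = YS) : ∃ u, Kv ρ u xT ∧ u * u = 1 := by
  have n := h.toNF
  have t := top_gY xT (by simp [gY])
  obtain ⟨c0, e0⟩ : E12 xT ∈ ρ.range := hX.ge (C12.elt_mem (t.gen (by simp [gY])))
  have k0 : Kv ρ c0 xT := ⟨c0.2, (congrArg gcode e0).trans t.code_elt⟩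
  have kd : Kv ρ (ll φ d12) xD := h.toCF.kv_el (by decide +kernel)
  have d3 : ll φ d12 ^ 3 = 1 := by
    rw [pow_three, ← ll_mul (by decide +kernel) (by decide +kernel),
      ← ll_mul (by decide +kernel) (by decide +kernel), show m5 d12 (m5 d12 d12) = i5 by decide +kernel, ll_one]
  generalize ll φ d12 = d at kd d3
  generalize (c0 : G) = b at k0
  have ds := h.mem_H.1 kd.1
  obtain ⟨v, hv, r⟩ := mem_Q.1 (h.ker.1 (((k0.mul kd).mul (k0.inv (B := xT) (by decide +kernel))).mul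
    (kd.inv (B := mm xD xD) (by decide +kernel)) |>.cast (by decide +kernel)))
  have hw := ac_lt kd v
  have r' := Rq.mul n hw (ac_lt kd _) (.inl rfl) (Rq.conj h.toCF kd hw (Rq.inv n hw (.inl rfl)))
  rw [(tab' hv).1] at r'
  have ky : Kv ρ (qq φ (ac xD v)) c1 := h.ker.2 (qq_mem hw)
  generalize qq φ (ac xD v) = y at r' ky
  have cd : y⁻¹ * b * d = d * (y⁻¹ * b) := by
    rcases Rq.eq_or n r r' with e | e
    · calc _ = y⁻¹ * (b * d * b⁻¹ * d⁻¹) * d * b := by group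
        _ = _ := by rw [e]; group
    · have e1 : b * d * b⁻¹ = y * d * y⁻¹ * sg φ :=
        calc _ = b * d * b⁻¹ * d⁻¹ * d := by group
          _ = y * d * y⁻¹ * d⁻¹ * (sg φ * d) := by rw [e]; group
          _ = _ := by rw [← ds]; group
      have c : Commute (y * d * y⁻¹) (sg φ) := h.mem_H.1 (mul_mem (mul_mem ky.1 kd.1) (inv_mem ky.1))
      have := congrArg (· ^ 3) e1
      simp only [c.mul_pow, conj_pow, d3, mul_one, mul_inv_cancel, one_mul] at this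
      rw [pow_three, n.s_sq, mul_one] at this
      exact (n.s_ne this.symm).elim
  have kc : Kv ρ (y⁻¹ * b) xT := ((h.ker.2 (inv_mem (h.ker.1 ky))).mul k0).cast (by decide +kernel)
  generalize y⁻¹ * b = c at cd kc
  obtain ⟨v0, h0, r0⟩ := mem_Q.1 (h.ker.1 ((kc.mul kc).cast (by decide +kernel)))
  have f := Rq.uniq n (ac_lt kd _) h0 (Rq.conj h.toCF kd h0 r0) (by
    rwa [show d * (c * c) * d⁻¹ = c * c by rw [← mul_assoc, ← cd, mul_assoc c, ← cd]; group])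
  obtain rfl : v0 = 0 := by rw [← (tab' h0).1, f, f, Nat.xor_self]
  rw [qq_zero, one_mul] at r0
  rcases r0 with r0 | r0
  · exact ⟨c, kc, r0⟩
  have kq : ∀ q ∈ Qg φ, Kv ρ (c * q) xT := fun q hq => (kc.mul (h.ker.2 hq)).cast (by decide +kernel)
  have sq : ∀ q, c * q * (c * q) = c * q * c⁻¹ * sg φ * q := fun q => by rw [← r0]; group
  have m1 := qq_mem (φ := φ) (v := 1) (by norm_num)
  have m2 := qq_mem (φ := φ) (v := 512) (by norm_num)
  have s1 := (n.qq_sq (v := 1) (by norm_num)).2 (by decide +kernel)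
  have s2 := (n.qq_sq (v := 512) (by norm_num)).2 (by decide +kernel)
  have c1 := h.toCF.kv_conj kc (v := 1) (by norm_num)
  have c2 := h.toCF.kv_conj kc (v := 512) (by norm_num)
  rw [show ac xT 1 = 1 by decide +kernel] at c1
  rw [show ac xT 512 = 512 by decide +kernel] at c2
  rcases c1 with c1 | c1
  · rcases c2 with c2 | c2
    · refine ⟨_, kq _ (mul_mem m1 m2), ?_⟩
      have := n.es.mul_sq_of_not_comm m1 m2 fun e =>
        absurd ((n.qq_comm (by norm_num) (by norm_num)).1 e) (by decide +kernel)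
      rw [sq, show c * (qq φ 1 * qq φ 512) * c⁻¹ = c * qq φ 1 * c⁻¹ * (c * qq φ 512 * c⁻¹) by group, c1, c2,
        mul_assoc, ← n.es.z_comm _ (mul_mem m1 m2), ← mul_assoc, this, s1, s2, one_mul, one_mul, n.s_sq]
    · exact ⟨_, kq _ m2, by rw [sq, c2, mul_assoc (qq φ 512), n.s_sq, mul_one, s2]⟩
  · exact ⟨_, kq _ m1, by rw [sq, c1, mul_assoc (qq φ 1), n.s_sq, mul_one, s1]⟩

/-- PROOF. For `x ∈ YS` fixing the vector 1, `alf x` is also the block at the bits 1, 2, 4, 5 and `x` maps these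
basis vectors into the span of the bits 0, 1, 2, 4, 5 (`stabS`, generators); `x ∈ YA ↔ Al L36 x` (`al_YA`,
`ex_YA`, `xf_YS.mul_inv_mem`). `w` centralises `qq v` for `v` in the span of the bits 1, 2, 4, 5 and exchanges `s`, `z`. -/
theorem BF.sign [Finite G] (h : BF A φ ρ) (hX : ρ.range = YS) {c : G} (hs : c * sg φ = sg φ * c)
    (hz : c * zg φ = zg φ * c) : Rm ρ YA c ↔ Rm ρ YA (ll φ w23 * c * (ll φ w23)⁻¹) := by
  have n := h.toNF
  obtain ⟨w1, w2, w3⟩ := w_s (φ := φ)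
  have iw : isN (nc 0 w23) = true := by decide +kernel
  have wi : (ll φ w23)⁻¹ = ll φ w23 := inv_eq_of_mul_eq_one_right w3
  have cj : ∀ {a b : G}, c * a = a * c → ll φ w23 * a * (ll φ w23)⁻¹ = b →
      ll φ w23 * c * (ll φ w23)⁻¹ * b = b * (ll φ w23 * c * (ll φ w23)⁻¹) := fun {a b} e1 e2 =>
    calc _ = ll φ w23 * (c * a) * (ll φ w23)⁻¹ := by rw [← e2]; group
      _ = _ := by rw [e1, ← e2]; group
  have fx : ∀ g : H1 φ, (g : G) * zg φ = zg φ * g → sv (ρ g) 1 = 1 := fun g e =>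
    Rq.uniq n (sv_lt _ _) (by norm_num) (h.conj g 1 (by norm_num))
      (.inl (by rw [qq_one, e, mul_inv_cancel_right]))
  let g : H1 φ := ⟨c, h.mem_H.2 hs⟩
  let k : H1 φ := ⟨_, h.mem_H.2 (cj hz w2)⟩
  have g1 := fx g hz
  have k1 := fx k (cj hs w1)
  have gY : ρ g ∈ YS := hX.le ⟨g, rfl⟩
  have kY : ρ k ∈ YS := hX.le ⟨k, rfl⟩
  have key : ∀ v ∈ [128, 256, 1024, 2048], n4 (sv (ρ g) v) = n4 (sv (ρ k) v) := fun v hv => by
    obtain ⟨l1, l2, l3⟩ : v < 4096 ∧ v >>> 6 < 64 ∧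
        nm (nm (nc 0 w23) (qc (v >>> 6))) (nc 0 w23) = qc (v >>> 6) := by
      revert v; decide +kernel
    have l4 : v >>> 6 < 4096 := by omega
    have lt : ∀ x : GL12, sv x v >>> 6 < 64 := fun x => by
      have := sv_lt x v
      rw [Nat.shiftRight_eq_div_pow]; omega
    obtain ⟨i, hi, e1⟩ := Rq.el (sv_lt _ _) (h.conj g _ l4)
    obtain ⟨j, hj, e2⟩ := Rq.el (sv_lt _ _) (h.conj k _ l4)
    rw [shift gY g1 l1] at e1
    rw [shift kY k1 l1] at e2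
    rw [(tab' (sv_lt _ _)).2.2.1, (tab' (sv_lt (ρ k) _)).2.2.1]
    have p1 := tabw _ (lt (ρ g)) i hi
    refine p1.2 _ (lt _) j hj (n.el_inj (isN_nm (isN_nm iw p1.1) iw) (tabw _ (lt _) j hj).1 ?_)
    have e3 : ll φ w23 * qq φ (v >>> 6) * ll φ w23 = qq φ (v >>> 6) := by
      rw [ll, qq, ← el_mul iw (isN_qc l4), ← el_mul (isN_nm iw (isN_qc l4)) iw, l3]
    rw [el_mul (isN_nm iw p1.1) iw, el_mul iw p1.1, ← e1, ← e2]
    change ll φ w23 * (c * _ * c⁻¹) * ll φ w23 = ll φ w23 * c * (ll φ w23)⁻¹ * _ * (ll φ w23 * c * (ll φ w23)⁻¹)⁻¹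
    nth_rw 1 [← e3]
    simp only [mul_inv_rev, wi, mul_assoc]
  have z := le_chain.2.2.2.2.2.1 (le_chain.2.2.2.1 (le_chain.2.2.1 (xf_YS.mul_inv_mem gY g1 kY k1 (by
    unfold alf
    rw [key 128 (by simp), key 256 (by simp), key 1024 (by simp), key 2048 (by simp)]))))
  exact ⟨fun e => ⟨k.2, show ρ k ∈ YA by simpa using mul_mem (inv_mem z) (show ρ g ∈ YA from e.2)⟩,
    fun e => ⟨g.2, show ρ g ∈ YA by simpa using mul_mem z (show ρ k ∈ YA from e.2)⟩⟩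

/-- PROOF. `R = g C_Q(u) g⁻¹ ≤ Q_y`, `|R| ≥ 2 ^ 10` (`xT` fixes 1024 vectors), `|Z(R)| ≤ 16`
(`ES.card_centralizer`). `R ⊓ Q ≤ Z(R)` as `[R ⊓ Q, R] ≤ ⟨y⟩ ⊓ Q = 1`, and `y ∈ Z(R) \ Q`, so `|R ⊓ Q| ≤ 8` and
`|ρ R| ≥ 128`; `s8fin`. -/
theorem BF.out [Finite G] (h : BF A φ ρ) {u g : G} (hu : Kv ρ u xT)
    (hg : g •ᶜ (Qg φ ⊓ centralizer {u}) ≤ pre ρ SB) : g * sg φ * g⁻¹ ∈ Qg φ := by
  have n := h.toNF
  by_contra hy
  let R0 := Qg φ ⊓ centralizer {u}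
  have s0 : sg φ ∈ R0 := mem_inf.2 ⟨s_mem, mem_centralizer_singleton_iff.2 (h.mem_H.1 hu.1).symm⟩
  have c0 : 1024 ≤ Nat.card R0 := by
    have e := LE.ti_ncard_conj (Qg φ) u
    have l : ((fun g => g * u * g⁻¹) '' (Qg φ : Set G)).ncard ≤ 8 := by
      refine (Set.ncard_le_ncard (t := (fun p : Fin 4 × Fin 2 =>
        el φ (qc (lget [0, 0x24, 0x900, 0x924] p.1) + p.2) * u) '' Set.univ) ?_).trans
        ((Set.ncard_image_le Set.finite_univ).trans (by simp))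
      rintro _ ⟨q, hq, rfl⟩
      obtain ⟨v, hv, r⟩ := mem_Q.1 hq
      obtain ⟨i, hi, e1⟩ := (tab' hv).2.2.2
      obtain ⟨j, hj, e2⟩ := Rq.el (Nat.xor_lt_two_pow (n := 12) hv (ac_lt hu v))
        (Rq.mul n hv (ac_lt hu v) r (Rq.conj h.toCF hu hv (Rq.inv n hv r)))
      exact ⟨(⟨i, hi⟩, ⟨j, hj⟩), trivial, by rw [e1] at e2; simp only [← e2]; group⟩
    rw [n.card_Q] at e
    have := e.le.trans (Nat.mul_le_mul_right _ l)
    change _ ≤ 8 * Nat.card R0 at this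
    omega
  have c1 : Nat.card (Qg φ ⊓ centralizer (R0 : Set G) : Subgroup G) ≤ 16 := by
    have e := n.es.card_centralizer (A := R0) inf_le_left s0
    rw [n.card_Q] at e
    have := (Nat.mul_le_mul_left _ c0).trans e.le
    omega
  have lH : g •ᶜ R0 ≤ H1 φ := hg.trans (map_subtype_le _)
  have es := n.es.conj g
  have lQ : g •ᶜ R0 ≤ g •ᶜ Qg φ := cj_mono g inf_le_left
  have lt : g •ᶜ R0 ⊓ Qg φ < g •ᶜ (Qg φ ⊓ centralizer (R0 : Set G)) := by
    rw [cj_inf g (Qg φ) (centralizer (R0 : Set G)), cj_centralizer]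
    refine lt_of_le_of_ne (fun a ha => mem_inf.2 ⟨lQ ha.1, fun b hb => ?_⟩) fun e => hy (e.ge
      (mem_inf.2 ⟨es.z_mem, fun b hb => es.z_comm b (lQ hb)⟩)).2
    refine mul_inv_eq_one.1 ((es.commutator_cases (lQ hb) (lQ ha.1)).elim (fun e => ?_) fun e => ?_)
    · rw [← e]; group
    · exact (hy (e ▸ mul_mem (h.lx.norm b (h.mem_H.1 (lH hb)) a ha.2) (inv_mem ha.2))).elim
  have c2 : Nat.card (g •ᶜ R0 ⊓ Qg φ : Subgroup G) ≤ 8 := by
    obtain ⟨m, hm⟩ := card_dvd_of_le lt.le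
    have m1 : m ≠ 1 := fun e => lt.ne (eq_of_le_of_card_ge lt.le (by rw [hm, e, mul_one]))
    have m0 : m ≠ 0 := fun e => Nat.card_pos.ne' (by rw [hm, e, mul_zero])
    rw [card_cj] at hm
    have := Nat.mul_le_mul_left (Nat.card (g •ᶜ R0 ⊓ Qg φ : Subgroup G)) (show 2 ≤ m by omega)
    omega
  have c3 := card_map_mul_card_inf_ker ((g •ᶜ R0).subgroupOf (H1 φ)) ρ
  have e4 : (g •ᶜ R0).subgroupOf (H1 φ) ⊓ ρ.ker = (g •ᶜ R0 ⊓ Qg φ).subgroupOf (H1 φ) := by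
    ext x
    exact and_congr_right fun _ => ⟨fun e => h.ker.1 ⟨x.2, (congrArg gcode (show ρ x = 1 from e)).trans C12.map_one⟩,
      fun e => C12.inj ((h.ker.2 e).2.trans C12.map_one.symm)⟩
  rw [e4, Nat.card_congr (subgroupOfEquivOfLe lH).toEquiv,
    Nat.card_congr (subgroupOfEquivOfLe (inf_le_left.trans lH)).toEquiv, card_cj] at c3
  have c4 := s8fin (((g •ᶜ R0).subgroupOf (H1 φ)).map ρ) (by
    rintro _ ⟨x, hx, rfl⟩
    exact (mem_pre.1 (hg hx)).2) (y := ρ ⟨_, lH (conj_mem_cj s0)⟩) (by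
    rintro _ ⟨a, ha, rfl⟩ _ ⟨b, hb, rfl⟩
    rw [← map_inv, ← map_inv, ← map_mul, ← map_mul, ← map_mul]
    exact (es.commutator_cases (lQ ha) (lQ hb)).imp (fun e => by
      rw [show a * b * a⁻¹ * b⁻¹ = 1 from Subtype.ext e, map_one]) fun e => congrArg ρ (Subtype.ext e))
  have := Nat.mul_le_mul (Nat.le_of_lt_succ c4) c2
  omega

end CL.T10
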