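import Cfsg.Agent.SPOR.T10.SplF
import Cfsg.Agent.SOLV.Gaschutz

/-!
Splitting, last step: Gaschütz.
-/

set_option autoImplicit false
set_option maxRecDepth 100000

namespace CL.T10

open CL.K CL.CG CL.F2M CL.F24 CL.LX CL.MSS Subgroup Cfsg
open CL.J4P (Kv)

attribute [local irreducible] gcode vcode

variable {X : Type*} [Group X] [Finite X] {α : ℕ → X} {π : X →* GL5}

theorem card_closure_insert {K : Subgroup X} {y : X} (h2 : y * y = 1) {S : Set X} (hK : closure S = K)
    (hc : ∀ z ∈ S, y⁻¹ * z * y ∈ K) : Nat.card (closure (insert y S)) ≤ 2 * Nat.card K := by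
  have hi : y⁻¹ = y := inv_eq_of_mul_eq_one_right h2
  have hn : ∀ z ∈ K, y * z * y ∈ K := fun z hz => by
    rw [← hK] at hz
    induction hz using closure_induction with
    | mem z hz => simpa only [hi] using hc z hz
    | one => rw [mul_one, h2]; exact one_mem _
    | mul a b _ _ ha hb =>
      have e : ∀ c, y * (y * c) = c := fun c => by rw [← mul_assoc, h2, one_mul]
      simpa [mul_assoc, e] using mul_mem ha hb
    | inv a _ ha => simpa [hi, mul_assoc] using inv_mem ha
  have hm : ∀ z ∈ closure (insert y S), z ∈ K ∨ y * z ∈ K := fun z hz => by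
    induction hz using closure_induction with
    | mem z hz =>
      rcases hz with rfl | hz
      exacts [.inr (h2 ▸ one_mem _), .inl (hK ▸ subset_closure hz)]
    | one => exact .inl (one_mem _)
    | mul a b _ _ ha hb =>
      have e : ∀ c, y * (y * c) = c := fun c => by rw [← mul_assoc, h2, one_mul]
      rcases ha with ha | ha <;> rcases hb with hb | hb
      · exact .inl (mul_mem ha hb)
      · exact .inr (by simpa [mul_assoc, e] using mul_mem (hn _ ha) hb)
      · exact .inr (by simpa [mul_assoc] using mul_mem ha hb)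
      · exact .inl (by simpa [mul_assoc, e] using mul_mem (hn _ ha) hb)
    | inv a _ ha =>
      exact ha.imp inv_mem fun ha => by simpa [hi, mul_assoc, h2] using hn _ (inv_mem ha)
  classical
  rw [← Nat.card_eq_fintype_card (α := Bool) |>.trans Fintype.card_bool, ← Nat.card_prod]
  refine Nat.card_le_card_of_injective (fun z => if k : (z : X) ∈ K then (false, ⟨z, k⟩) else
    (true, ⟨y * z, (hm z z.2).resolve_left k⟩)) fun a b e => ?_
  dsimp only at e
  split_ifs at e <;> simp only [Prod.mk.injEq, Subtype.mk.injEq, mul_right_inj] at e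
  exacts [Subtype.ext e.2, absurd e.1 (by decide), absurd e.1 (by decide), Subtype.ext e.2]

theorem pc_tab : ∀ b ≤ 10, ∀ a ≤ b, 0 < a → ∃ t < 55, lw (2 * t) = a + 32 * b ∧
    ((a = b ∧ lw (2 * t + 1) = 0) ∨
      (a < b ∧ ∃ c < 11, (c = 0 ∨ a < c) ∧ lw (2 * t + 1) = b + 32 * (a + 32 * c))) := by
  have : allLt (fun b => allLt (fun a => blt b a || (Nat.beq a 0 || anyLt (fun t => Nat.beq (lw (2 * t)) (a + 32 * b) &&
      ((Nat.beq a b && Nat.beq (lw (2 * t + 1)) 0) || (blt a b && anyLt (fun c => (Nat.beq c 0 || blt a c) &&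
        Nat.beq (lw (2 * t + 1)) (b + 32 * (a + 32 * c))) 11))) 55)) 11) 11 = true := by decide +kernel
  intro b hb a ha h0
  have := allLt_iff.1 (allLt_iff.1 this b (by omega)) a (by omega)
  simp only [Bool.or_eq_true, Bool.and_eq_true, anyLt_iff, Nat.beq_eq, blt, Nat.ble_eq] at this
  rcases this with k | k | k
  exacts [by omega, by omega, k]

theorem EX.compl (h : EX α π) : ∃ T : Subgroup X, Nat.card T ≤ 1024 ∧ T.map π = gen gcode gU := by
  obtain ⟨y, h0, hy, hr⟩ := h.exists_lifts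
  have v1 : ∀ a < 32, val y a = y a := fun a ha => by
    rw [val_eq h0, Nat.mod_eq_of_lt ha, Nat.div_eq_of_lt ha, val_zero, mul_one]
  have v2 : ∀ a < 32, ∀ w, val y (a + 32 * w) = y a * val y w := fun a ha w => by
    rw [← v1 a ha]; exact val_add h0 (p := 1) ha w
  have k : ∀ n ≤ 10, Nat.card (closure (y '' Set.Icc (11 - n) 10)) ≤ 2 ^ n := by
    intro n
    induction n with
    | zero => intro _; simp
    | succ n ih =>
      intro hn
      rw [show 11 - (n + 1) = 10 - n by omega, ← Set.insert_Icc_add_one_left_eq_Icc (by omega), Set.image_insert_eq,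
        show 10 - n + 1 = 11 - n by omega, pow_succ']
      refine (card_closure_insert ?_ rfl ?_).trans (Nat.mul_le_mul_left 2 (ih (by omega)))
      · obtain ⟨t, ht, e1, ⟨-, e2⟩ | ⟨e2, -⟩⟩ := pc_tab (10 - n) (by omega) _ le_rfl (by omega)
        · have := hr t ht
          rwa [e1, e2, v2 _ (by omega), v1 _ (by omega), val_zero] at this
        · omega
      · rintro _ ⟨b, ⟨b1, b2⟩, rfl⟩
        obtain ⟨t, ht, e1, ⟨e2, -⟩ | ⟨-, c, c1, c2, e2⟩⟩ := pc_tab b b2 (10 - n) (by omega) (by omega)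
        · omega
        have := hr t ht
        rw [e1, e2, v2 _ (by omega), v1 _ (by omega), v2 _ (by omega), v2 _ (by omega), v1 _ (by omega)] at this
        have hb : y b ∈ closure (y '' Set.Icc (11 - n) 10) := subset_closure ⟨b, ⟨b1, b2⟩, rfl⟩
        have hc : y c ∈ closure (y '' Set.Icc (11 - n) 10) := by
          rcases c2 with rfl | c2
          exacts [h0 ▸ one_mem _, subset_closure ⟨c, ⟨by omega, by omega⟩, rfl⟩]
        have e : (y (10 - n))⁻¹ * y b * y (10 - n) = y b * (y c)⁻¹ := by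
          rw [eq_mul_inv_iff_mul_eq, mul_assoc, mul_assoc, ← this, inv_mul_cancel_left]
        exact e ▸ mul_mem hb (inv_mem hc)
  refine ⟨_, k 10 le_rfl, le_antisymm ?_ ((C5.gen_le_iff top_gU).2 fun c hc => ?_)⟩
  · rw [MonoidHom.map_closure, closure_le]
    rintro _ ⟨_, ⟨a, ⟨a1, a2⟩, rfl⟩, rfl⟩
    refine (mem_gU _).2 ?_
    rw [hy a (by omega)]
    interval_cases a <;> decide +kernel
  · have : ∀ c ∈ gU, ∃ a ≤ 10, 1 ≤ a ∧ tc a = c := by decide +kernel
    obtain ⟨a, a1, a2, rfl⟩ := this c hc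
    exact ⟨y a, subset_closure ⟨a, ⟨a2, a1⟩, rfl⟩, by rw [← hy a (by omega), C5.elt_code]⟩

theorem EX.split (h : EX α π) : ∃ l : GL5 →* X, ∀ g, π (l g) = g := by
  obtain ⟨T, h1, h2⟩ := h.compl
  haveI : IsMulCommutative π.ker := ⟨⟨fun x y => Subtype.ext (by
    obtain ⟨a, ha, e1⟩ := (h.ker _).1 x.2
    obtain ⟨b, hb, e2⟩ := (h.ker _).1 y.2
    rw [coe_mul, coe_mul, ← e1, ← e2, ← h.α_xor a ha b hb, ← h.α_xor b hb a ha, Nat.xor_comm])⟩⟩
  have hp : IsPGroup 2 π.ker := fun x => ⟨1, Subtype.ext (by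
    obtain ⟨a, ha, e1⟩ := (h.ker _).1 x.2
    rw [pow_one, pow_two, coe_mul, ← e1, h.sq ha, coe_one])⟩
  obtain ⟨n, hn⟩ := IsPGroup.iff_card.1 hp
  have hi : ((gen gcode gU : Subgroup GL5).comap π).index = 9765 := by
    have := (gen gcode gU : Subgroup GL5).card_mul_index
    rw [card_gU, card_GL5] at this
    rw [index_comap_of_surjective _ h.surj]; omega
  obtain ⟨H, hH⟩ := CL.gaschutz_exists π.ker ((gen gcode gU : Subgroup GL5).comap π) (ker_le_comap _ _)
    (by rw [hn, hi]; exact Nat.Coprime.pow_left _ (by norm_num)) T (by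
      have e := Subgroup.card_mul_index (π.ker.subgroupOf T)
      have e2 : (π.ker.subgroupOf T).index = 1024 := by
        rw [← card_gU, ← h2, ← MonoidHom.ker_domRestrict, index_ker, MonoidHom.domRestrict_range]
      have e3 : Nat.card (π.ker.subgroupOf T) = 1 := by
        have := Nat.card_pos (α := π.ker.subgroupOf T)
        rw [e2] at e; omega
      rw [inf_comm, ← subgroupOf_eq_bot.1 (card_eq_one.1 e3) |>.eq_bot])
    (by rw [← h2, comap_map_eq, sup_comm])
  have hb : Function.Bijective (π.comp H.subtype) := ⟨(injective_iff_map_eq_one _).2 fun x hx =>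
    Subtype.ext (mem_bot.1 (hH.disjoint.le_bot ⟨hx, x.2⟩)), fun g => by
      obtain ⟨x, rfl⟩ := h.surj g
      obtain ⟨⟨k, z⟩, rfl⟩ := hH.2 x
      exact ⟨z, by simp [show π k = 1 from k.2]⟩⟩
  exact ⟨H.subtype.comp (MulEquiv.ofBijective _ hb).symm.toMonoidHom,
    fun g => (MulEquiv.ofBijective _ hb).apply_symm_apply g⟩

theorem exists_NF {G : Type*} [Group G] [Finite G] {A : Subgroup G} {α : ℕ → normalizer (A : Set G)}
    {π : normalizer (A : Set G) →* GL5} (h : EX α π) (hA : ∀ n, π n = 1 ↔ (n : G) ∈ A) :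
    ∃ φ : NT →* G, NF A φ := by
  obtain ⟨l, hl⟩ := h.split
  let ψ : NT →* normalizer (A : Set G) := MonoidHom.mk' (fun n => α n.a * l n.g) fun x y => by
    rw [NT.mul_a, NT.mul_g, h.α_xor _ x.lt _ (wa_lt _ _), map_mul, mul_assoc, mul_assoc, ← mul_assoc (l x.g) (α _),
      h.move _ y.lt, hl, mul_assoc]
  have hπ : ∀ n, π (ψ n) = n.g := fun n => by
    change π (α n.a * l n.g) = _
    rw [map_mul, (h.ker _).2 ⟨_, n.lt, rfl⟩, one_mul, hl]
  refine ⟨(normalizer (A : Set G)).subtype.comp ψ, (subtype_injective _).comp ((injective_iff_map_eq_one _).2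
    fun n e => ?_), le_antisymm (by rintro _ ⟨n, rfl⟩; exact (ψ n).2) fun x hx => ?_,
    fun n => by rw [← hπ, hA]; rfl⟩
  · have e1 : n.g = 1 := by rw [← hπ, e, map_one]
    change α n.a * l n.g = 1 at e
    rw [e1, map_one, mul_one] at e
    exact NT.ext (h.α_inj _ n.lt e) e1
  · obtain ⟨a, ha, e⟩ := (h.ker (⟨x, hx⟩ * (l (π ⟨x, hx⟩))⁻¹)).1 (by rw [map_mul, map_inv, hl, mul_inv_cancel])
    refine ⟨⟨a, π ⟨x, hx⟩, ha⟩, ?_⟩
    change ((α a * l (π ⟨x, hx⟩) : normalizer (A : Set G)) : G) = x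
    rw [e, inv_mul_cancel_right]

end CL.T10
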