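import Cfsg.Agent.SPOR.T10.SplE

/-!
Lifts of the positive root elements satisfying the Steinberg relations.
-/

set_option autoImplicit false
set_option maxRecDepth 100000

namespace CL.T10

open CL.K CL.CG CL.F2M CL.F24 CL.LX CL.MSS Subgroup Cfsg
open CL.J4P (Kv)

attribute [local irreducible] gcode vcode

variable {X : Type*} [Group X] {α : ℕ → X} {π : X →* GL5}

theorem add_zero' {f : ℕ → ℕ} (hf : ∀ a b, f (a ^^^ b) = f a ^^^ f b) : f 0 = 0 := by
  have := hf 0 0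
  rwa [Nat.xor_self, Nat.xor_self] at this

theorem map_xorLt {f : ℕ → ℕ} (hf : ∀ a b, f (a ^^^ b) = f a ^^^ f b) (F : ℕ → ℕ) (n : ℕ) :
    f (xorLt F n) = xorLt (fun i => f (F i)) n := by
  induction n with
  | zero => exact add_zero' hf
  | succ n ih => rw [xorLt_succ, xorLt_succ, hf, ih]

theorem xorLt_congr {F H : ℕ → ℕ} {n : ℕ} (h : ∀ i < n, F i = H i) : xorLt F n = xorLt H n := by
  induction n with
  | zero => rfl
  | succ n ih => rw [xorLt_succ, xorLt_succ, h n (by omega), ih fun i hi => h i (by omega)]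

theorem map_lc {f : ℕ → ℕ} (hf : ∀ a b, f (a ^^^ b) = f a ^^^ f b) (c : ℕ → ℕ) (n a : ℕ) :
    f (lc c n a) = lc (fun i => f (c i)) n a := by
  rw [lc, map_xorLt hf]
  refine xorLt_congr fun i _ => ?_
  simp only [Nat.mul_eq, bit_eq]
  split_ifs <;> simp [add_zero' hf]

theorem fields_zero {f : ℕ → ℕ} {n : ℕ} (hf : ∀ t < n, f t < 1024)
    (h : xorLt (fun t => f t <<< (10 * t)) n = 0) : ∀ t < n, f t = 0 := by
  induction n with
  | zero => omega
  | succ n ih =>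
    rw [xorLt_succ, Nat.xor_eq_zero_iff] at h
    have h1 : xorLt (fun t => f t <<< (10 * t)) n < 2 ^ (10 * n) := xorLt_lt fun t ht => by
      rw [Nat.shiftLeft_eq]
      calc f t * 2 ^ (10 * t) < 2 ^ 10 * 2 ^ (10 * t) :=
            Nat.mul_lt_mul_of_pos_right (hf t (by omega)) (Nat.two_pow_pos _)
        _ ≤ _ := by rw [← pow_add]; exact Nat.pow_le_pow_right (by norm_num) (by omega)
    have h2 : f n = 0 := by
      rw [← h, Nat.shiftLeft_eq] at h1
      by_contra k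
      exact absurd h1 (not_lt.2 (Nat.le_mul_of_pos_left _ (by omega)))
    rw [h2, Nat.zero_shiftLeft] at h
    intro t ht
    rcases Nat.lt_succ_iff_lt_or_eq.1 ht with k | rfl
    exacts [ih (fun t ht => hf t (by omega)) h.symm t k, h2]

/-- evaluation of packed linear maps at the unknowns `τ` -/
@[irreducible] noncomputable def Φ (τ : ℕ → ℕ) (Y : ℕ) : ℕ :=
  lc (fun n => bit (τ (n / 5500)) (n / 550 % 10) * 2 ^ (n % 550)) 726000 Y

theorem Φ_xor (τ : ℕ → ℕ) (a b : ℕ) : Φ τ (a ^^^ b) = Φ τ a ^^^ Φ τ b := by unfold Φ; exact lc_xor _ _ a b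

theorem Φ_shift (τ : ℕ → ℕ) {k i x : ℕ} (hk : k < 132) (hi : i < 10) (hx : x < 2 ^ 550) :
    Φ τ (x <<< (550 * (10 * k + i))) = bit (τ k) i * x := by
  refine lin_ext (n := 550) (f := fun x => Φ τ (x <<< (550 * (10 * k + i)))) (g := fun x => bit (τ k) i * x)
    (fun a _ b _ => by rw [Nat.shiftLeft_xor_distrib, Φ_xor]) (fun a _ b _ => ?_) (fun j hj => ?_) x hx
  · rw [bit_eq]; split_ifs <;> simp
  · rw [Nat.shiftLeft_eq, ← pow_add]
    unfold Φ
    rw [lc_pow _ (by omega), show (j + 550 * (10 * k + i)) / 5500 = k by omega,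
      show (j + 550 * (10 * k + i)) / 550 % 10 = i by omega, show (j + 550 * (10 * k + i)) % 550 = j by omega]

theorem Φ_cont (τ : ℕ → ℕ) {c : ℕ → ℕ} {k : ℕ} (hk : k < 132) (hc : ∀ i < 10, c i < 2 ^ 550) :
    Φ τ (cont c k) = lc c 10 (τ k) := by
  rw [cont, map_xorLt (Φ_xor τ)]
  exact xorLt_congr fun i hi => Φ_shift τ hk hi (hc i hi)

theorem col_lt (S i : ℕ) : col S i < 2 ^ 550 :=
  (fld_le _ _ _ _).trans_lt (Nat.sub_lt (Nat.two_pow_pos _) Nat.one_pos)

theorem Φ_lc (τ : ℕ → ℕ) (S : ℕ) (c : ℕ → ℕ) {k : ℕ} (hk : k < 132) :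
    Φ τ (cont (fun i => force (c i) fun a => lc (col S) 10 a) k) = lc (col S) 10 (lc c 10 (τ k)) := by
  simp only [force_eq]
  rw [Φ_cont τ hk fun i _ => lc_lt (fun k _ => col_lt S k) _, map_lc (lc_xor _ _)]

theorem Φ_sh (τ : ℕ → ℕ) {c : ℕ → ℕ} {k t : ℕ} (hk : k < 132) (ht : t < 55) (hc : ∀ i < 10, c i < 1024) :
    Φ τ (cont (fun i => c i <<< (10 * t)) k) = lc c 10 (τ k) <<< (10 * t) := by
  rw [Φ_cont τ hk fun i hi => ?_, map_lc (f := (· <<< (10 * t))) fun a b => Nat.shiftLeft_xor_distrib]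
  rw [Nat.shiftLeft_eq]
  calc c i * 2 ^ (10 * t) < 2 ^ 10 * 2 ^ (10 * t) := Nat.mul_lt_mul_of_pos_right (hc i hi) (Nat.two_pow_pos _)
    _ ≤ _ := by rw [← pow_add]; exact Nat.pow_le_pow_right (by norm_num) (by omega)

theorem xor_tab : (∀ c < 166, c ^^^ 1 < 166 ∧ (2 * (c / 2) = c ∨ (2 * (c / 2) = c ^^^ 1 ∧ 2 * (c / 2) ^^^ 1 = c))) ∧
    ∀ t < 55, 2 * t ^^^ 1 = 2 * t + 1 := by decide +kernel

theorem chk_succ (w0 n s w : ℕ) : chk w0 (n + 1) s w =
    (okS (s % 8) (s / 8 % 512) w && chk w0 n (s / 4096) (nxt (s % 8) (s / 8 % 512) w)) := by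
  change force (Nat.mod s 8) (fun p => force (Nat.mod (Nat.div s 8) 512) fun c => okS p c w &&
    force (nxt p c w) fun w' => force (Nat.div s 4096) fun s' => chk w0 n s' w') = _
  simp only [force_eq]; rfl

theorem run_succ (S n s w : ℕ) : run S (n + 1) s w =
    cont (fun i => force (wc (pw (s % 8) (w % 32 ^ (s % 8))) i) fun a => lc (col S) 10 a) (s / 8 % 512 / 2) ^^^
      run S n (s / 4096) (nxt (s % 8) (s / 8 % 512) w) := by
  change force (Nat.mod s 8) (fun p => force (Nat.mod (Nat.div s 8) 512) fun c =>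
    force (pw p (Nat.mod w (Nat.pow 32 p))) fun g =>
      Nat.xor (cont (fun i => force (wc g i) fun a => lc (col S) 10 a) (Nat.div c 2))
        (force (nxt p c w) fun w' => force (Nat.div s 4096) fun s' => run S n s' w')) = _
  simp only [force_eq]; rfl

/-- value of a word -/
def val (x : ℕ → X) (w : ℕ) : X := ((Nat.digits 32 w).map x).prod

theorem val_zero (x : ℕ → X) : val x 0 = 1 := by simp [val]

theorem val_eq {x : ℕ → X} (h0 : x 0 = 1) (w : ℕ) : val x w = x (w % 32) * val x (w / 32) := by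
  rcases Nat.eq_zero_or_pos w with rfl | hw
  · simp [val_zero, h0]
  · rw [val, Nat.digits_def' (by norm_num) hw]; simp [val]

theorem val_add {x : ℕ → X} (h0 : x 0 = 1) {p u : ℕ} (hu : u < 32 ^ p) (v : ℕ) :
    val x (u + 32 ^ p * v) = val x u * val x v := by
  induction p generalizing u with
  | zero => obtain rfl : u = 0 := by simpa using hu
            simp [val_zero]
  | succ p ih =>
    rw [val_eq h0, val_eq h0 u, pow_succ', mul_assoc, Nat.add_mul_mod_self_left,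
      Nat.add_mul_div_left _ _ (by norm_num), ih (by rw [pow_succ] at hu; omega), mul_assoc]

theorem pw_val {x : ℕ → X} (h0 : x 0 = 1) (hx : ∀ a < 32, gcode (π (x a)) = tc a) {n u : ℕ} (hu : u < 32 ^ n) :
    gcode (π (val x u)) = pw n u := by
  induction n generalizing u with
  | zero => obtain rfl : u = 0 := by simpa using hu
            rw [val_zero, map_one, C5.map_one]; rfl
  | succ n ih =>
    rw [val_eq h0, map_mul, ← C5.map_mul, hx _ (Nat.mod_lt _ (by norm_num)), ih (by rw [pow_succ] at hu; omega)]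
    rfl

namespace EX
variable (h : EX α π)
include h

theorem zero : α 0 = 1 := by
  have := h.α_xor 0 (by norm_num) 0 (by norm_num)
  rwa [Nat.xor_self, left_eq_mul] at this

theorem sq {a : ℕ} (ha : a < 1024) : α a * α a = 1 := by rw [← h.α_xor a ha a ha, Nat.xor_self, h.zero]

theorem move (n : X) {a : ℕ} (ha : a < 1024) : n * α a = α (wa (gcode (π n)) a) * n := by
  rw [← h.conj n a ha, inv_mul_cancel_right]

variable {x : ℕ → X} {τ : ℕ → ℕ} (h0 : x 0 = 1) (hx : ∀ a < 32, gcode (π (x a)) = tc a)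
  (hτ : ∀ c < 166, τ (c / 2) < 1024 ∧ val x (lw c) = α (τ (c / 2)) * val x (lw (c ^^^ 1)))
include h0 hx hτ

theorem step {p c w : ℕ} (e : okS p c w = true) : c < 166 ∧
    val x w = α (wa (pw p (w % 32 ^ p)) (τ (c / 2))) * val x (nxt p c w) := by
  rw [okS, Bool.and_eq_true] at e
  have hc := lt_of_blt e.2
  have e1 : w / 32 ^ p % 32 ^ ln c = lw c := eq_of_beq e.1
  have hu : w % 32 ^ p < 32 ^ p := Nat.mod_lt _ (by positivity)
  have hc' := (xor_tab.1 c hc).1
  refine ⟨hc, ?_⟩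
  change _ = _ * val x (w % 32 ^ p + 32 ^ p * (lw (c ^^^ 1) + 32 ^ ln (c ^^^ 1) * (w / 32 ^ p / 32 ^ ln c)))
  rw [val_add h0 hu, val_add h0 (rel_tab.1 _ hc').1, ← pw_val h0 hx hu, ← mul_assoc, ← h.move _ (hτ c hc).1,
    mul_assoc, ← mul_assoc (α _), ← (hτ c hc).2, ← val_add h0 (rel_tab.1 _ hc).1, ← val_add h0 hu, ← e1,
    Nat.mod_add_div, Nat.mod_add_div]

theorem run_spec (S w0 n : ℕ) : ∀ s w, chk w0 n s w = true →
    ∃ a < 1024, val x w = α a * val x w0 ∧ Φ τ (run S n s w) = lc (col S) 10 a := by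
  induction n with
  | zero => exact fun s w e => ⟨0, by norm_num, by rw [h.zero, one_mul, eq_of_beq e],
      (add_zero' (Φ_xor τ)).trans (add_zero' (lc_xor _ _)).symm⟩
  | succ n ih =>
    intro s w e
    rw [chk_succ, Bool.and_eq_true] at e
    obtain ⟨a, ha, e1, e2⟩ := ih _ _ e.2
    obtain ⟨hc, e3⟩ := h.step h0 hx hτ e.1
    refine ⟨_, Nat.xor_lt_two_pow (n := 10) (wa_lt _ _) ha, by
      rw [e3, e1, h.α_xor _ (wa_lt _ _) _ ha, mul_assoc], ?_⟩
    rw [run_succ, Φ_xor, e2, Φ_lc τ S _ (show _ / 2 < 132 by omega), lc_xor, wa_eq]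
    rfl

theorem tot_spec (L : List (ℕ × ℕ)) (e : ∀ q ∈ L, chk (q.1 % 32768) (q.1 / 32768 % 16) (q.1 / 524288)
    (q.1 % 32768) = true) : Φ τ (tot L) = 0 := by
  induction L with
  | nil => exact add_zero' (Φ_xor τ)
  | cons q L ih =>
    obtain ⟨a, ha, e1, e2⟩ := h.run_spec h0 hx hτ q.2 _ _ _ _ (e q List.mem_cons_self)
    obtain rfl := h.α_inj a ha (right_eq_mul.1 e1)
    change Φ τ (run q.2 (q.1 / 32768 % 16) (q.1 / 524288) (q.1 % 32768) ^^^ tot L) = 0
    rw [Φ_xor, e2, ih fun q hq => e q (List.mem_cons_of_mem _ hq), add_zero' (lc_xor _ _)]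
    rfl

omit hτ in
theorem cb_spec (hb : ∀ a, τ (100 + a) < 1024) (hb0 : τ 100 = 0) {t : ℕ} (ht : t < 55) (n : ℕ) :
    ∀ u < 32 ^ n, ∃ a < 1024, val (fun a => α (τ (100 + a)) * x a) u = α a * val x u ∧
      ∀ g : GL5, Φ τ (cb t n (gcode g) u) = wa (gcode g) a <<< (10 * t) := by
  induction n with
  | zero =>
    intro u hu
    obtain rfl : u = 0 := by simpa using hu
    exact ⟨0, by norm_num, by rw [val_zero, val_zero, h.zero, one_mul], fun g => by
      rw [wa_zero, Nat.zero_shiftLeft]; exact add_zero' (Φ_xor τ)⟩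
  | succ n ih =>
    intro u hu
    obtain ⟨a, ha, e1, e2⟩ := ih (u / 32) (by rw [pow_succ] at hu; omega)
    have hm : u % 32 < 32 := Nat.mod_lt _ (by norm_num)
    refine ⟨_, Nat.xor_lt_two_pow (n := 10) (hb (u % 32)) (wa_lt (tc (u % 32)) a), ?_, fun g => ?_⟩
    · rw [val_eq (by simp [hb0, h0, h.zero]), val_eq h0 u, e1, h.α_xor _ (hb _) _ (wa_lt _ _), ← hx _ hm,
        mul_assoc, mul_assoc, ← mul_assoc (x _), h.move _ ha, mul_assoc]
    · change Φ τ (cont (fun i => wc (gcode g) i <<< (10 * t)) (100 + u % 32) ^^^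
        force (m5 (gcode g) (tc (u % 32))) fun g' => cb t n g' (u / 32)) = _
      rw [force_eq, Φ_xor, Φ_sh τ (c := wc (gcode g)) (by omega) ht fun i _ => wd_lt _ _, ← hx _ hm, C5.map_mul, e2, wa_mul _ _ ha,
        wa_xor, Nat.shiftLeft_xor_distrib, wa_eq _ (τ _)]
      rfl

omit h0 hx hτ in
/-- lifts of the root elements such that the relations of the unitriangular group hold -/
theorem exists_lifts : ∃ y : ℕ → X, y 0 = 1 ∧ (∀ a < 32, gcode (π (y a)) = tc a) ∧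
    ∀ t < 55, val y (lw (2 * t)) = val y (lw (2 * t + 1)) := by
  have k1 : ∀ a, a < 32 → ∃ z, gcode (π z) = tc a ∧ (a = 0 → z = 1) := fun a ha => by
    rcases Nat.eq_zero_or_pos a with rfl | k
    · exact ⟨1, by rw [map_one, C5.map_one, rel_tab.2.2.1], fun _ => rfl⟩
    · obtain ⟨z, hz⟩ := h.surj (E5 (tc a))
      exact ⟨z, by rw [hz, code_E5 (rel_tab.2.1 a ha)], by omega⟩
  choose! x hx h0 using k1
  replace h0 := h0 0 (by norm_num) rfl
  have k2 : ∀ k, k < 83 → ∃ a < 1024, val x (lw (2 * k)) = α a * val x (lw (2 * k ^^^ 1)) := fun k hk => by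
    have hc' := (xor_tab.1 (2 * k) (by omega)).1
    have := (rel_tab.1 (2 * k) (by omega)).2
    rw [← pw_val h0 hx (rel_tab.1 _ (by omega)).1, ← pw_val h0 hx (rel_tab.1 _ hc').1] at this
    obtain ⟨a, ha, e⟩ := (h.ker (val x (lw (2 * k)) * (val x (lw (2 * k ^^^ 1)))⁻¹)).1 (by
      rw [map_mul, map_inv, C5.inj this, mul_inv_cancel])
    exact ⟨a, ha, by rw [e, inv_mul_cancel_right]⟩
  choose! σ hσ hσ' using k2
  set τ : ℕ → ℕ := fun k => if k < 100 then σ k else xorLt (fun j => lc (lb (k - 100) j) 10 (σ j)) 55 with hτd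
  have t1 : ∀ k < 100, τ k = σ k := fun k hk => if_pos hk
  have t2 : ∀ a, τ (100 + a) = xorLt (fun j => lc (lb a j) 10 (τ j)) 55 := fun a => by
    rw [hτd]
    simp only [show ¬100 + a < 100 by omega, if_false, Nat.add_sub_cancel_left]
    exact xorLt_congr fun j hj => by rw [if_pos (by omega)]
  have hb : ∀ a, τ (100 + a) < 1024 := fun a => t2 a ▸ xorLt_lt (N := 10) fun j _ =>
    lc_lt (fun i _ => Nat.lt_succ_of_le (fld_le _ _ _ _)) _
  have hb0 : τ 100 = 0 := (t2 0).trans (Nat.lt_one_iff.1 (xorLt_lt (N := 0) fun j hj =>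
    lc_lt (fun i hi => by rw [rel_tab.2.2.2 j hj i hi]; norm_num) _))
  have hτ : ∀ c < 166, τ (c / 2) < 1024 ∧ val x (lw c) = α (τ (c / 2)) * val x (lw (c ^^^ 1)) := fun c hc => by
    have e := hσ' (c / 2) (by omega)
    have l := hσ (c / 2) (by omega)
    rw [t1 _ (by omega)]
    refine ⟨l, ?_⟩
    rcases (xor_tab.1 c hc).2 with k | ⟨k, k'⟩
    · rwa [k] at e
    · rw [k', k] at e
      rw [e, ← mul_assoc, h.sq l, one_mul]
  have k3 : ∀ t, t < 55 → ∃ a < 1024, val (fun a => α (τ (100 + a)) * x a) (lw (2 * t)) =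
      α a * val (fun a => α (τ (100 + a)) * x a) (lw (2 * t + 1)) ∧ Φ τ (tg t) = a <<< (10 * t) := fun t ht => by
    obtain ⟨a, ha, e1, e2⟩ := h.cb_spec h0 hx hb hb0 ht _ _ (rel_tab.1 (2 * t) (by omega)).1
    obtain ⟨b, hb, e3, e4⟩ := h.cb_spec h0 hx hb hb0 ht _ _ (rel_tab.1 (2 * t + 1) (by omega)).1
    obtain ⟨l, e⟩ := hτ (2 * t) (by omega)
    rw [show 2 * t / 2 = t by omega] at l e
    rw [xor_tab.2 t ht] at e
    have x2 : ∀ {a b : ℕ}, a < 1024 → b < 1024 → a ^^^ b < 1024 := fun a b => Nat.xor_lt_two_pow (n := 10) a b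
    refine ⟨_, x2 ha (x2 l hb), ?_, ?_⟩
    · rw [e1, e3, e, h.α_xor _ ha _ (x2 l hb), h.α_xor _ l _ hb, mul_assoc, mul_assoc, ← mul_assoc (α b),
        h.sq hb, one_mul]
    · have e5 := e2 1
      have e6 := e4 1
      rw [C5.map_one, wa_one ha] at e5
      rw [C5.map_one, wa_one hb] at e6
      change Φ τ (cont (fun i => 2 ^ i <<< (10 * t)) t ^^^ (cb t (ln (2 * t)) i5 (lw (2 * t)) ^^^
        cb t (ln (2 * t + 1)) i5 (lw (2 * t + 1)))) = _
      rw [Φ_xor, Φ_xor, e5, e6, Φ_sh τ (by omega) ht fun i hi => Nat.pow_lt_pow_right (a := 2) (n := 10) (by norm_num) hi,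
        lin_ext (n := 10) (f := lc (2 ^ ·) 10) (g := id) (fun a _ b _ => lc_xor _ _ a b) (fun _ _ _ _ => rfl)
          (fun i hi => lc_pow _ hi) _ l, Nat.shiftLeft_xor_distrib, Nat.shiftLeft_xor_distrib, id,
        Nat.xor_left_comm]
  choose! f f1 f2 f3 using k3
  refine ⟨fun a => α (τ (100 + a)) * x a, by simp [hb0, h0, h.zero], fun a ha => by
    rw [map_mul, (h.ker _).2 ⟨_, hb a, rfl⟩, one_mul, hx a ha], fun t ht => ?_⟩
  rw [f2 t ht, fields_zero f1 ?_ t ht, h.zero, one_mul]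
  have e := chk_tot
  rw [force_eq] at e
  have e1 := congrArg (Φ τ) (eq_of_beq e)
  rw [map_xorLt (Φ_xor τ), xorLt_congr f3] at e1
  rw [e1]
  change Φ τ (_ ^^^ _) = 0
  rw [Φ_xor, h.tot_spec h0 hx hτ LP (lall_iff.1 chk_LP), Nat.zero_xor, map_xorLt (Φ_xor τ)]
  refine Nat.lt_one_iff.1 (xorLt_lt (N := 0) fun a ha => Nat.lt_one_iff.2 ?_)
  rw [force_eq]
  generalize Nat.shiftRight _ _ = S
  change Φ τ (cont (col S) (100 + a) ^^^ _) = 0
  rw [Φ_xor, Φ_cont τ (by omega) fun i _ => col_lt S i, map_xorLt (Φ_xor τ),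
    xorLt_congr fun k hk => Φ_lc τ S (lb a k) (show k < 132 by omega), t2, map_xorLt (lc_xor _ _), Nat.xor_self]

end EX

end CL.T10
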