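import Cfsg.Agent.SPOR.T10.SylA
import Cfsg.Agent.SPOR.T10.ApiM

/-!
2-subgroups of `H1` containing `T`.
-/

set_option autoImplicit false
set_option maxRecDepth 100000

namespace CL.T10

open CL.K CL.CG CL.F2M CL.F24 CL.LX CL.MSS Subgroup Cfsg
open CL.J4P (Kv)

attribute [local irreducible] gcode vcode

variable {G : Type*} [Group G] {A : Subgroup G} {φ : NT →* G} {ρ : H1 φ →* GL12}

namespace SylC

theorem swp_T : Swp (E12 xT) := by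
  have : allLt2 (fun v => force (ac xT v) fun w => (!Nat.beq (Nat.land v 0xe38) 0 || Nat.beq (Nat.land w 0x71c) 0) &&
      (!Nat.beq (Nat.land v 0x71c) 0 || Nat.beq (Nat.land w 0xe38) 0)) 64 64 = true := by decide +kernel
  intro v hv
  have := allLt2_iff.1 this v hv
  rw [force_eq, Bool.and_eq_true] at this
  rw [sv, (top_gY xT (by decide)).code_elt]
  refine ⟨fun e => CG.eq_of_beq ?_, fun e => CG.eq_of_beq ?_⟩
  · have := this.1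
    rwa [show Nat.land v 0xe38 = 0 from e] at this
  · have := this.2
    rwa [show Nat.land v 0x71c = 0 from e] at this

theorem onto {g : GL12} (h : ∀ v < 4096, v &&& 0xe38 = 0 → sv g⁻¹ v &&& 0x71c = 0) :
    ∀ v < 4096, v &&& 0x71c = 0 → sv g v &&& 0xe38 = 0 := fun v hv e => by
  have : P2 (E12 xT * g⁻¹) := fun w hw e' => by
    rw [sv_mul _ _ hw]; exact (swp_T _ (sv_lt _ _)).2 (h w hw e')
  have := this.inv _ (sv_lt _ v) ((swp_T v hv).2 e)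
  rwa [← sv_mul _ _ hv, mul_inv_rev, inv_inv, inv_mul_cancel_right] at this

theorem two {p : GL12 → Prop} (h : ∀ a ∈ AB, ∀ b ∈ AB, p a ∨ p b ∨ p (a * b)) :
    ∃ a ∈ AB, ∃ b ∈ AB, a ≠ 1 ∧ b ≠ 1 ∧ a ≠ b ∧ p a ∧ p b := by
  have t : ∀ i < 8, ∀ j < 8, mm (lget ApiG.LA i) (lget ApiG.LA j) = lget ApiG.LA (i ^^^ j) ∧
      (i ≠ j → lget ApiG.LA i ≠ lget ApiG.LA j) := by decide +kernel
  have m := fun i hi => C12.elt_mem (ApiG.sound_A i hi)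
  have k : ∀ i < 8, ∀ j < 8, p (E12 (lget ApiG.LA i)) ∨ p (E12 (lget ApiG.LA j)) ∨
      p (E12 (lget ApiG.LA (i ^^^ j))) := fun i hi j hj => by
    rw [← (t i hi j hj).1, show E12 (mm _ _) = _ from C12.elt_mul (ApiG.sound_A i hi) (ApiG.sound_A j hj)]
    exact h _ (m i hi) _ (m j hj)
  have n : ∀ i < 8, ∀ j < 8, i ≠ j → E12 (lget ApiG.LA i) ≠ E12 (lget ApiG.LA j) := fun i hi j hj e e' =>
    (t i hi j hj).2 e (elt_inj (ApiG.sound_A i hi) (ApiG.sound_A j hj) e')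
  have o : E12 (lget ApiG.LA 0) = 1 := C12.elt_one
  have f : ∀ i j, (i < 8 ∧ j < 8 ∧ i ≠ 0 ∧ j ≠ 0 ∧ i ≠ j) → p (E12 (lget ApiG.LA i)) → p (E12 (lget ApiG.LA j)) →
      ∃ a ∈ AB, ∃ b ∈ AB, a ≠ 1 ∧ b ≠ 1 ∧ a ≠ b ∧ p a ∧ p b := fun i j ⟨hi, hj, a, b, c⟩ e e' =>
    ⟨_, m i hi, _, m j hj, o ▸ n i hi 0 (by norm_num) a, o ▸ n j hj 0 (by norm_num) b, n i hi j hj c, e, e'⟩
  rcases k 1 (by norm_num) 2 (by norm_num) with e | e | e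
  · rcases k 4 (by norm_num) 6 (by norm_num) with e' | e' | e' <;> exact f _ _ (by decide) e e'
  all_goals rcases k 4 (by norm_num) 5 (by norm_num) with e' | e' | e' <;> exact f _ _ (by decide) e e'

end SylC
open SylC

/-- PROOF. Let `S2 = S ⊓ N(T)`. For `g ∈ S2`, `pairA` shows that `ρ g` maps `Ā2` to `Ā2` (then `g ∈ T` by
`P2_iff`, `norm_A2`) or to `Ā2'`; so `|S2 : T| ≤ 2` and `S2 \ T` swaps. If `S2 = T` then `S = T`. Otherwise let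
`k ∈ S ⊓ N(S2)`, and suppose `T' = k T k⁻¹ ≠ T`. `T' = S2 ⊓ N(k A2 k⁻¹)` has index 2 in `S2`; the image of `k A k⁻¹`
meets `TB` in at least 4 elements (`ker_two`: `ρ⁻¹ TB ⊓ S = T`); an element of `T' \ T` swaps; `pairB` gives
`T ≤ T'`. So `k ∈ S2`, and `S = S2` by the normaliser condition. -/
theorem CF.syl [Finite G] (h : CF A φ ρ) {S : Subgroup G} (hS : IsPGroup 2 S) (hT : Tg φ ≤ S)
    (hH : S ≤ H1 φ) : (∀ g ∈ S, ∀ k ∈ S, g ∈ Tg φ ∨ k ∈ Tg φ ∨ g * k ∈ Tg φ) ∧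
      (∀ g : H1 φ, (g : G) ∈ S → (g : G) ∉ Tg φ → Swp (ρ g)) ∧
      ∀ g : H1 φ, (g : G) ∈ S → ρ g ∈ TB → (g : G) ∈ Tg φ := by
  have : Fact (Nat.Prime 2) := ⟨Nat.prime_two⟩
  have rt : ∀ k : H1 φ, (k : G) ∈ Tg φ → ρ k ∈ TB := fun k hk => (h.rm_T hk).2
  have pT : ∀ g ∈ TB, P2 g := fun g hg => P2_MB (le_chain.2.2.2.1 hg)
  have p2 : ∀ g : H1 φ, (g : G) ∈ S → P2 (ρ g) → (g : G) ∈ Tg φ := fun g hg e =>
    h.norm_A2 hS hT hg ((h.P2_iff g).1 e)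
  have exA : ∀ a ∈ AB, ∃ x : H1 φ, (x : G) ∈ Tg φ ∧ ρ x = a := fun a ha => by
    obtain ⟨x, hx, hx', e⟩ := h.ex_A ha
    exact ⟨⟨x, hx'⟩, h.A_le_T hx, C12.inj e⟩
  have exT : ∀ a ∈ TB, ∃ x : H1 φ, (x : G) ∈ Tg φ ∧ ρ x = a := fun a ha => by
    obtain ⟨x, hx, hx', e⟩ := h.ex_T ha
    exact ⟨⟨x, hx'⟩, hx, C12.inj e⟩
  set R := S ⊓ normalizer (Tg φ : Set G)
  have hTR : Tg φ ≤ R := le_inf hT le_normalizer
  have a1 : ∀ g : H1 φ, (g : G) ∈ R → (g : G) ∉ Tg φ → ∀ v < 4096, v &&& 0xe38 = 0 → sv (ρ g) v &&& 0x71c = 0 :=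
    fun g hg hn => (pairA fun a ha => by
      obtain ⟨x, hx, rfl⟩ := exA a ha
      rw [← map_inv, ← map_mul, ← map_mul]
      exact rt _ ((mem_normalizer_iff.1 hg.2 _).1 hx)).resolve_left fun e => hn (p2 g hg.1 e)
  have a2 : ∀ g : H1 φ, (g : G) ∈ R → (g : G) ∉ Tg φ → Swp (ρ g) := fun g hg hn v hv =>
    ⟨a1 g hg hn v hv, onto (map_inv ρ g ▸ a1 g⁻¹ (R.inv_mem hg) fun e => hn (inv_mem_iff.1 e)) v hv⟩
  have a3 : ∀ g : H1 φ, (g : G) ∈ R → ∀ k : H1 φ, (k : G) ∈ R →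
      (g : G) ∈ Tg φ ∨ (k : G) ∈ Tg φ ∨ (g : G) * k ∈ Tg φ := fun g hg k hk => by
    by_contra hn
    simp only [not_or] at hn
    refine hn.2.2 (p2 (g * k) (S.mul_mem hg.1 hk.1) fun v hv e => ?_)
    rw [map_mul, sv_mul _ _ hv]
    exact (a2 g hg hn.1 _ (sv_lt _ _)).2 ((a2 k hk hn.2.1 v hv).1 e)
  have hSR : S ≤ R := by
    by_contra hn
    obtain ⟨k, hk, hk'⟩ := SetLike.exists_of_lt (lt_inf_normalizer_of_lt hS (lt_of_le_not_ge inf_le_left hn))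
    obtain ⟨k, rfl⟩ : ∃ l : H1 φ, (l : G) = k := ⟨⟨k, hH hk.1⟩, rfl⟩
    have c1 : ∀ x ∈ Tg φ, k * x * (k : G)⁻¹ ∈ R := fun x hx => (mem_normalizer_iff.1 hk.2 x).1 (hTR hx)
    have c2 : ∀ x ∈ Tg φ, (k : G)⁻¹ * x * k ∈ R := fun x hx =>
      conj_mem_of_normalizes' le_rfl hk.2 (hTR hx)
    obtain ⟨t, ht, ht'⟩ : ∃ t ∈ Tg φ, k * t * (k : G)⁻¹ ∉ Tg φ := by
      by_contra! e
      exact hk' ⟨hk.1, mem_normalizer_fintype e⟩
    obtain ⟨t, rfl⟩ : ∃ l : H1 φ, (l : G) = t := ⟨⟨t, h.T_le ht⟩, rfl⟩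
    obtain ⟨a, ha, b, hb, a1, b1, ab, pa, pb⟩ := two (p := fun a => ρ k * a * (ρ k)⁻¹ ∈ TB) fun a ha b hb => by
      obtain ⟨x, hx, rfl⟩ := exA a ha
      obtain ⟨y, hy, rfl⟩ := exA b hb
      simp only [← map_inv, ← map_mul]
      exact (a3 (k * x * k⁻¹) (c1 _ hx) (k * y * k⁻¹) (c1 _ hy)).imp (rt _) (Or.imp (rt _) fun e =>
        rt _ (by simpa [mul_assoc] using e))
    have := pairB ha hb a1 b1 ab pa pb (a2 (k * t * k⁻¹) (c1 _ ht) ht')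
      (by simpa [mul_assoc] using pT _ (rt t ht)) fun a ha b hb => by
        obtain ⟨x, hx, rfl⟩ := exT a ha
        obtain ⟨y, hy, rfl⟩ := exT b hb
        simp only [← map_inv, ← map_mul]
        exact (a3 (k⁻¹ * x * k) (c2 _ hx) (k⁻¹ * y * k) (c2 _ hy)).imp (fun e => pT _ (rt _ e))
          (Or.imp (fun e => pT _ (rt _ e)) fun e => pT _ (rt _ (by simpa [mul_assoc] using e)))
    refine hk' ⟨hk.1, (Subgroup.inv_mem_iff _).1 (mem_normalizer_fintype fun x hx => ?_)⟩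
    have e := this _ (rt ⟨x, h.T_le hx⟩ hx)
    rw [← map_inv, ← map_mul, ← map_mul] at e
    simpa using p2 _ (c2 x hx).1 e
  exact ⟨fun g hg k hk => a3 ⟨g, hH hg⟩ (hSR hg) ⟨k, hH hk⟩ (hSR hk), fun g hg => a2 g (hSR hg),
    fun g hg e => p2 g hg (pT _ e)⟩

end CL.T10
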