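import Cfsg.Agent.SPOR.T10.Gam
import Cfsg.Agent.SPOR.T10.Lift
import Cfsg.Agent.SPOR.T10.LinM
import Cfsg.Agent.SPOR.T10.LinA

/-!
The four possibilities for the image of `C(s)`.
-/

set_option autoImplicit false
set_option maxRecDepth 100000

namespace CL.T10

open CL.K CL.CG CL.F2M CL.F24 CL.LX CL.MSS Subgroup Cfsg
open CL.J4P (Kv)

attribute [local irreducible] gcode vcode

variable {X : Subgroup GL12}


/-- PROOF. `gam`, `linM`, `liftY`, `liftT`, `lin72`, `ex_YA`, `ex_YS`, `mul_inv_mem`. -/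
theorem XF.tri (h : XF X) : X = MB ∨ X = YA ∨ X = YS ∨ JC X := by
  obtain ⟨-, -, l1, l2, -, l3, l4, -⟩ := le_chain
  have key : ∀ {Y : Subgroup GL12}, YA ≤ Y → Y ≤ X → (∀ g ∈ X, sv g 1 = 1 → Al L72 g) →
      (∀ g ∈ X, sv g 1 = 1 → ∃ k ∈ Y, sv k 1 = 1 ∧ alf (gcode k) = alf (gcode g)) → X = Y := by
    intro Y h1 h2 h3 h4
    refine le_antisymm (fun x hx => ?_) h2
    obtain ⟨y, y1, y2⟩ := h.lin72 (h1.trans h2) h3 hx
    have m := mul_mem (h2 (h1 y1)) hx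
    obtain ⟨k, k1, k2, k3⟩ := h4 _ m y2
    have := h1 (l3 (l2 (l1 (h.mul_inv_mem m y2 (h2 k1) k2 k3.symm))))
    simpa using mul_mem (inv_mem (h1 y1)) (mul_mem this k1)
  rcases h.gam with e | ⟨e, g, g1, g2, g3⟩ | ⟨e, ⟨g, g1, g2, g3⟩, k, k1, k2, k3⟩ | e
  · exact .inl (h.linM e)
  · exact .inr (.inl (key le_rfl (h.liftY g1 g2 g3) (fun g a b => (e g a b).mono (closure_mono fun c hc =>
      List.mem_append_left [0x2481] hc)) fun g a b => ex_YA (e g a b)))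
  · exact .inr (.inr (.inl (key l4 (h.liftT (h.liftY g1 g2 g3) k1 k2 k3) e fun g a b => ex_YS (e g a b))))
  · exact .inr (.inr (.inr e))

end CL.T10
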